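import Mathlib
import Cfsg.Agent.Helper12.SL2Torus

/-!
# The number of conjugacy classes of the Borel subgroup of `SL₂(q)`, `q` odd (helper12)
-/

set_option autoImplicit false

open Cfsg

namespace Cfsg.Agent.Helper12

variable {F : Type*} [Field F] [Fintype F] [DecidableEq F]

/-- the parametrisation of the Borel subgroup -/
noncomputable def belEquiv : Fˣ × F ≃ ↥((Cfsg.upperTriangularGL 2 F).comap Matrix.SpecialLinearGroup.toGL) :=
  Equiv.ofBijective (fun t : Fˣ × F => (⟨bel t.1 t.2, bel_mem t.1 t.2⟩ : ↥((Cfsg.upperTriangularGL 2 F).comap Matrix.SpecialLinearGroup.toGL)))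
    ⟨fun x y h => bel_injective (congrArg Subtype.val h), fun b => by
      obtain ⟨t, ht⟩ := bel_surj b.1 b.2
      exact ⟨t, Subtype.ext ht⟩⟩

theorem bel_commute_iff (a a' : Fˣ) (c c' : F) :
    bel a c * bel a' c' = bel a' c' * bel a c ↔
      (a : F) * c' + c * ((a'⁻¹ : Fˣ) : F) = (a' : F) * c + c' * ((a⁻¹ : Fˣ) : F) := by
  rw [bel_mul, bel_mul]
  constructor
  · intro h
    have h2 : ((a * a', (a : F) * c' + c * ((a'⁻¹ : Fˣ) : F)) : Fˣ × F) = (a' * a, (a' : F) * c + c' * ((a⁻¹ : Fˣ) : F)) :=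
      bel_injective h
    exact (Prod.ext_iff.mp h2).2
  · intro h
    rw [mul_comm a' a, h]

theorem lin_count (u v : F) :
    ∑ c : F, ∑ c' : F, (if c' * u = c * v then 1 else 0) =
      if u = 0 ∧ v = 0 then Fintype.card F * Fintype.card F else Fintype.card F := by
  by_cases hu : u = 0
  · by_cases hv : v = 0
    · rw [if_pos ⟨hu, hv⟩]
      have h1 : ∀ c c' : F, (if c' * u = c * v then 1 else 0) = 1 := fun c c' =>
        if_pos (by rw [hu, hv, mul_zero, mul_zero])
      simp only [h1, Finset.sum_const, Finset.card_univ, smul_eq_mul, mul_one]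
    · rw [if_neg (fun h => hv h.2)]
      have h1 : ∀ c c' : F, (if c' * u = c * v then 1 else 0) = if c = 0 then 1 else 0 := fun c c' =>
        if_congr (by
          rw [hu, mul_zero]
          constructor
          · intro h
            exact (mul_eq_zero.mp h.symm).resolve_right hv
          · intro h
            rw [h, zero_mul]) rfl rfl
      simp only [h1, Finset.sum_const, Finset.card_univ, smul_eq_mul]
      rw [← Finset.mul_sum, Finset.sum_ite_eq' Finset.univ (0 : F) (fun _ => 1), if_pos (Finset.mem_univ _), mul_one]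
  · rw [if_neg (fun h => hu h.1)]
    have h1 : ∀ c c' : F, (if c' * u = c * v then 1 else 0) = if c' = c * v / u then 1 else 0 := fun c c' =>
      if_congr (eq_div_iff hu).symm rfl rfl
    have h2 : ∀ c : F, ∑ c' : F, (if c' = c * v / u then 1 else 0) = 1 := fun c => by
      rw [Finset.sum_ite_eq' Finset.univ (c * v / u) (fun _ => 1), if_pos (Finset.mem_univ _)]
    simp only [h1, h2, Finset.sum_const, Finset.card_univ, smul_eq_mul, mul_one]

theorem units_fix_count (hodd : Odd (Fintype.card F)) :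
    ∑ a : Fˣ, (if (a : F) - ((a⁻¹ : Fˣ) : F) = 0 then 1 else 0) = 2 := by
  have hne : (1 : Fˣ) ≠ -1 := by
    intro h
    apply bel_neg_ne_one (F := F) hodd
    rw [← h, bel_one_zero]
  rw [← Finset.card_filter (fun a : Fˣ => (a : F) - ((a⁻¹ : Fˣ) : F) = 0) Finset.univ, ← Finset.card_pair hne]
  congr 1
  ext a
  rw [Finset.mem_filter, Finset.mem_insert, Finset.mem_singleton]
  constructor
  · rintro ⟨-, h⟩
    have h1 : ((a : F) - 1) * ((a : F) + 1) = 0 := by
      have h2 := Units.mul_inv a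
      linear_combination (a : F) * h + h2
    rcases mul_eq_zero.mp h1 with h3 | h3
    · left
      exact Units.ext (by rw [Units.val_one]; exact sub_eq_zero.mp h3)
    · right
      exact Units.ext (by rw [Units.val_neg, Units.val_one]; exact eq_neg_of_add_eq_zero_left h3)
  · rintro (h | h)
    · refine ⟨Finset.mem_univ _, ?_⟩
      rw [h, inv_one, Units.val_one, sub_self]
    · refine ⟨Finset.mem_univ _, ?_⟩
      rw [h, inv_neg_one, sub_self]

theorem borel_comm_sum (m : ℕ) (hm : Fintype.card F = m + 1) (hodd : Odd (Fintype.card F)) :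
    ∑ a : Fˣ, ∑ c : F, ∑ a' : Fˣ, ∑ c' : F,
      (if (a : F) * c' + c * ((a'⁻¹ : Fˣ) : F) = (a' : F) * c + c' * ((a⁻¹ : Fˣ) : F) then 1 else 0) =
      (m + 1) * m * (m + 4) := by
  have hU : Fintype.card Fˣ = m := by
    rw [Fintype.card_units]
    omega
  have hN := units_fix_count (F := F) hodd
  have h1 : ∀ a a' : Fˣ, ∑ c : F, ∑ c' : F,
      (if (a : F) * c' + c * ((a'⁻¹ : Fˣ) : F) = (a' : F) * c + c' * ((a⁻¹ : Fˣ) : F) then 1 else 0) =
      (m + 1) + (if (a : F) - ((a⁻¹ : Fˣ) : F) = 0 then 1 else 0) *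
        ((if (a' : F) - ((a'⁻¹ : Fˣ) : F) = 0 then 1 else 0) * ((m + 1) * m)) := by
    intro a a'
    have h2 : ∀ c c' : F, (if (a : F) * c' + c * ((a'⁻¹ : Fˣ) : F) = (a' : F) * c + c' * ((a⁻¹ : Fˣ) : F) then 1 else 0) =
        (if c' * ((a : F) - ((a⁻¹ : Fˣ) : F)) = c * ((a' : F) - ((a'⁻¹ : Fˣ) : F)) then 1 else 0) := fun c c' =>
      if_congr ⟨fun h => by linear_combination h, fun h => by linear_combination h⟩ rfl rfl
    simp only [h2]
    rw [lin_count, hm]
    by_cases hu : (a : F) - ((a⁻¹ : Fˣ) : F) = 0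
    · by_cases hv : (a' : F) - ((a'⁻¹ : Fˣ) : F) = 0
      · rw [if_pos ⟨hu, hv⟩, if_pos hu, if_pos hv]
        ring
      · rw [if_neg (fun h => hv h.2), if_neg hv]
        ring
    · rw [if_neg (fun h => hu h.1), if_neg hu]
      ring
  calc ∑ a : Fˣ, ∑ c : F, ∑ a' : Fˣ, ∑ c' : F,
      (if (a : F) * c' + c * ((a'⁻¹ : Fˣ) : F) = (a' : F) * c + c' * ((a⁻¹ : Fˣ) : F) then 1 else 0)
      = ∑ a : Fˣ, ∑ a' : Fˣ, ∑ c : F, ∑ c' : F,
      (if (a : F) * c' + c * ((a'⁻¹ : Fˣ) : F) = (a' : F) * c + c' * ((a⁻¹ : Fˣ) : F) then 1 else 0) :=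
        Finset.sum_congr rfl (fun a _ => Finset.sum_comm)
    _ = ∑ a : Fˣ, ∑ a' : Fˣ, ((m + 1) + (if (a : F) - ((a⁻¹ : Fˣ) : F) = 0 then 1 else 0) *
        ((if (a' : F) - ((a'⁻¹ : Fˣ) : F) = 0 then 1 else 0) * ((m + 1) * m))) :=
        Finset.sum_congr rfl (fun a _ => Finset.sum_congr rfl (fun a' _ => h1 a a'))
    _ = ∑ a : Fˣ, (m * (m + 1) + (if (a : F) - ((a⁻¹ : Fˣ) : F) = 0 then 1 else 0) * (2 * ((m + 1) * m))) :=
        Finset.sum_congr rfl (fun a _ => by
          rw [Finset.sum_add_distrib, Finset.sum_const, Finset.card_univ, hU, smul_eq_mul, ← Finset.mul_sum,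
            ← Finset.sum_mul, hN])
    _ = m * (m * (m + 1)) + 2 * (2 * ((m + 1) * m)) := by
        rw [Finset.sum_add_distrib, Finset.sum_const, Finset.card_univ, hU, smul_eq_mul, ← Finset.sum_mul, hN]
    _ = (m + 1) * m * (m + 4) := by ring

theorem borel_comm_card (m : ℕ) (hm : Fintype.card F = m + 1) (hodd : Odd (Fintype.card F)) :
    Nat.card {t : (Fˣ × F) × (Fˣ × F) // (t.1.1 : F) * t.2.2 + t.1.2 * ((t.2.1⁻¹ : Fˣ) : F) =
      (t.2.1 : F) * t.1.2 + t.2.2 * ((t.1.1⁻¹ : Fˣ) : F)} = (m + 1) * m * (m + 4) := by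
  rw [Nat.card_eq_fintype_card, Fintype.card_subtype, Finset.card_filter]
  simp only [Fintype.sum_prod_type]
  exact borel_comm_sum m hm hodd

theorem borel_card_conjClasses (hodd : Odd (Fintype.card F)) :
    Nat.card (ConjClasses ↥((Cfsg.upperTriangularGL 2 F).comap Matrix.SpecialLinearGroup.toGL)) = Fintype.card F + 3 := by
  obtain ⟨m, hm⟩ : ∃ m : ℕ, Fintype.card F = m + 1 :=
    ⟨Fintype.card F - 1, by have := Fintype.card_pos (α := F); omega⟩
  have hm0 : 0 < m := by
    have h1 : 1 < Fintype.card F := Fintype.one_lt_card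
    omega
  have hB : Nat.card ↥((Cfsg.upperTriangularGL 2 F).comap Matrix.SpecialLinearGroup.toGL) = m * (m + 1) := by
    rw [← Nat.card_congr (belEquiv (F := F)), Nat.card_prod, Nat.card_eq_fintype_card, Nat.card_eq_fintype_card,
      Fintype.card_units, hm, Nat.add_sub_cancel]
  have hC : Nat.card {p : ↥((Cfsg.upperTriangularGL 2 F).comap Matrix.SpecialLinearGroup.toGL) × ↥((Cfsg.upperTriangularGL 2 F).comap Matrix.SpecialLinearGroup.toGL) // Commute p.1 p.2} = (m + 1) * m * (m + 4) := by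
    rw [← borel_comm_card m hm hodd]
    exact (Nat.card_congr (Equiv.subtypeEquiv (belEquiv.prodCongr belEquiv) (fun t => by
      show _ ↔ (⟨bel t.1.1 t.1.2, bel_mem t.1.1 t.1.2⟩ : ↥((Cfsg.upperTriangularGL 2 F).comap Matrix.SpecialLinearGroup.toGL)) * ⟨bel t.2.1 t.2.2, bel_mem t.2.1 t.2.2⟩ =
        ⟨bel t.2.1 t.2.2, bel_mem t.2.1 t.2.2⟩ * ⟨bel t.1.1 t.1.2, bel_mem t.1.1 t.1.2⟩
      rw [Subtype.ext_iff]
      exact (bel_commute_iff t.1.1 t.2.1 t.1.2 t.2.2).symm))).symm
  have hmain := card_comm_eq_card_conjClasses_mul_card ↥((Cfsg.upperTriangularGL 2 F).comap Matrix.SpecialLinearGroup.toGL)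
  rw [hC, hB] at hmain
  have h3 : Nat.card (ConjClasses ↥((Cfsg.upperTriangularGL 2 F).comap Matrix.SpecialLinearGroup.toGL)) * (m * (m + 1)) = (m + 4) * (m * (m + 1)) := by
    rw [← hmain]
    ring
  have h4 := Nat.eq_of_mul_eq_mul_right (Nat.mul_pos hm0 (Nat.succ_pos m)) h3
  omega

end Cfsg.Agent.Helper12
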