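import Mathlib

/-!
# Linear algebra on `ℂ²` and a Diophantine lemma (for primitive linear groups of degree two)
-/

set_option autoImplicit false

namespace Cfsg.Agent.Helper12.D2

open Module

/-- The plane. -/
abbrev V2 : Type := Fin 2 → ℂ

theorem li_pair {v w : V2} (hv : v ≠ 0) (hvw : ∀ c : ℂ, w ≠ c • v) :
    LinearIndependent ℂ ![v, w] := by
  rw [LinearIndependent.pair_iff]
  intro s t h
  have ht : t = 0 := by
    by_contra ht
    apply hvw (-(s / t))
    have h2 : t • w = -(s • v) := by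
      rw [eq_neg_iff_add_eq_zero, add_comm]; exact h
    calc w = t⁻¹ • (t • w) := by rw [smul_smul, inv_mul_cancel₀ ht, one_smul]
      _ = -(s / t) • v := by
        rw [h2, smul_neg, smul_smul, neg_smul]
        congr 2
        field_simp
  subst ht
  rw [zero_smul, add_zero] at h
  exact ⟨(smul_eq_zero.mp h).resolve_right hv, rfl⟩

theorem decomp {v w : V2} (h : LinearIndependent ℂ ![v, w]) (u : V2) :
    ∃ α β : ℂ, u = α • v + β • w := by
  have hcard : Fintype.card (Fin 2) = finrank ℂ V2 := by simp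
  obtain ⟨b, hb⟩ : ∃ b : Basis (Fin 2) ℂ V2, ⇑b = ![v, w] :=
    ⟨_, coe_basisOfLinearIndependentOfCardEqFinrank h hcard⟩
  refine ⟨b.repr u 0, b.repr u 1, ?_⟩
  have h2 := b.sum_repr u
  rw [Fin.sum_univ_two, hb] at h2
  simpa using h2.symm

theorem trace2 (T : V2 →ₗ[ℂ] V2) {v w : V2} (hli : LinearIndependent ℂ ![v, w]) (a b c d : ℂ)
    (h0 : T v = a • v + c • w) (h1 : T w = d • v + b • w) :
    LinearMap.trace ℂ V2 T = a + b := by
  have hcard : Fintype.card (Fin 2) = finrank ℂ V2 := by simp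
  obtain ⟨B, hB⟩ : ∃ B : Basis (Fin 2) ℂ V2, ⇑B = ![v, w] :=
    ⟨_, coe_basisOfLinearIndependentOfCardEqFinrank hli hcard⟩
  have hB0 : B 0 = v := by rw [hB]; rfl
  have hB1 : B 1 = w := by rw [hB]; rfl
  rw [LinearMap.trace_eq_matrix_trace ℂ B T, Matrix.trace_fin_two, LinearMap.toMatrix_apply,
    LinearMap.toMatrix_apply, hB0, hB1, h0, h1, ← hB0, ← hB1]
  simp

theorem two_eigen (T : V2 →ₗ[ℂ] V2) (n : ℕ) (hn : 0 < n) (hT : T ^ n = 1)
    (hns : ∀ c : ℂ, T ≠ c • LinearMap.id) :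
    ∃ (v w : V2) (a b : ℂ), v ≠ 0 ∧ w ≠ 0 ∧ a ≠ b ∧ T v = a • v ∧ T w = b • w := by
  obtain ⟨a, ha⟩ := Module.End.exists_eigenvalue T
  obtain ⟨v, hv⟩ := ha.exists_hasEigenvector
  have hv0 : v ≠ 0 := hv.2
  have hTv : T v = a • v := hv.apply_eq_smul
  obtain ⟨u, hu⟩ : ∃ u : V2, ∀ c : ℂ, u ≠ c • v := by
    by_contra hcon
    push_neg at hcon
    apply hns a
    apply LinearMap.ext
    intro u
    obtain ⟨c, rfl⟩ := hcon u
    rw [map_smul, hTv, LinearMap.smul_apply, LinearMap.id_apply, smul_comm]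
  have hli := li_pair hv0 hu
  obtain ⟨c, d, hcd⟩ := decomp hli (T u)
  by_cases hda : d = a
  · exfalso
    rw [hda] at hcd
    have hpow : ∀ k : ℕ, (T ^ (k + 1)) u = a ^ (k + 1) • u + ((k + 1 : ℂ) * a ^ k * c) • v := by
      intro k
      induction k with
      | zero =>
        rw [zero_add, pow_one, hcd]
        simp only [pow_one, pow_zero, Nat.cast_zero, zero_add, one_mul]
        rw [add_comm]
      | succ k ih =>
        rw [pow_succ', Module.End.mul_apply, ih, map_add, map_smul, map_smul, hcd, hTv]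
        push_cast
        module
    have h1 : (T ^ n) u = u := by rw [hT]; rfl
    obtain ⟨k, rfl⟩ : ∃ k, n = k + 1 := ⟨n - 1, by omega⟩
    rw [hpow k] at h1
    have h2 : ((k + 1 : ℂ) * a ^ k * c) • v + (a ^ (k + 1) - 1) • u = 0 := by
      have h3 : a ^ (k + 1) • u + ((k + 1 : ℂ) * a ^ k * c) • v - u = 0 := sub_eq_zero.mpr h1
      rw [← h3]
      module
    obtain ⟨h4, h5⟩ := LinearIndependent.pair_iff.mp hli _ _ h2
    have ha1 : a ^ (k + 1) = 1 := sub_eq_zero.mp h5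
    have ha0 : a ≠ 0 := by
      intro h0
      rw [h0, zero_pow (by omega)] at ha1
      exact zero_ne_one ha1
    have hc : c = 0 := by
      rcases mul_eq_zero.mp h4 with h | h
      · rcases mul_eq_zero.mp h with h | h
        · exfalso
          have : ((k + 1 : ℕ) : ℂ) = 0 := by push_cast; exact h
          exact Nat.succ_ne_zero k (Nat.cast_eq_zero.mp this)
        · exact absurd (pow_eq_zero_iff (n := k) (by
            intro hk0; subst hk0; simp at h) |>.mp h) ha0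
      · exact h
    rw [hc, zero_smul, zero_add] at hcd
    apply hns a
    apply LinearMap.ext
    intro x
    obtain ⟨α, β, rfl⟩ := decomp hli x
    rw [map_add, map_smul, map_smul, hTv, hcd, LinearMap.smul_apply, LinearMap.id_apply]
    module
  · have hda' : d - a ≠ 0 := sub_ne_zero.mpr hda
    refine ⟨v, u + (c / (d - a)) • v, a, d, hv0, ?_, fun h => hda h.symm, hTv, ?_⟩
    · intro h0
      exact hu (-(c / (d - a))) (by rw [neg_smul]; exact eq_neg_of_add_eq_zero_left h0)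
    · rw [map_add, map_smul, hcd, hTv]
      match_scalars <;> field_simp <;> ring

theorem eigen_li {T : V2 →ₗ[ℂ] V2} {v w : V2} {a b : ℂ} (hw : w ≠ 0) (hab : a ≠ b)
    (hTv : T v = a • v) (hTw : T w = b • w) : ∀ c : ℂ, w ≠ c • v := by
  intro c hc
  have h1 : T w = a • w := by rw [hc, map_smul, hTv, smul_comm]
  rw [hTw] at h1
  have h2 : (b - a) • w = 0 := by rw [sub_smul, h1, sub_self]
  rcases smul_eq_zero.mp h2 with h | h
  · exact hab (sub_eq_zero.mp h).symm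
  · exact hw h

theorem eigen_cases {T : V2 →ₗ[ℂ] V2} {v w : V2} {a b : ℂ} (hv : v ≠ 0) (hw : w ≠ 0)
    (hab : a ≠ b) (hTv : T v = a • v) (hTw : T w = b • w) (u : V2) (c : ℂ)
    (hu : T u = c • u) : (∃ s : ℂ, u = s • v) ∨ (∃ s : ℂ, u = s • w) := by
  have hli := li_pair hv (eigen_li hw hab hTv hTw)
  obtain ⟨α, β, rfl⟩ := decomp hli u
  rw [map_add, map_smul, map_smul, hTv, hTw] at hu
  have h0 : (α * (a - c)) • v + (β * (b - c)) • w = 0 := by
    have h3 : α • a • v + β • b • w - c • (α • v + β • w) = 0 := sub_eq_zero.mpr hu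
    rw [← h3]
    module
  obtain ⟨h1, h2⟩ := LinearIndependent.pair_iff.mp hli _ _ h0
  by_cases hα : α = 0
  · right
    exact ⟨β, by rw [hα, zero_smul, zero_add]⟩
  · left
    have hac : a = c := by
      rcases mul_eq_zero.mp h1 with h | h
      · exact absurd h hα
      · exact sub_eq_zero.mp h
    have hβ : β = 0 := by
      rcases mul_eq_zero.mp h2 with h | h
      · exact h
      · exact absurd (hac.trans (sub_eq_zero.mp h).symm) hab
    exact ⟨α, by rw [hβ, zero_smul, add_zero]⟩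

/-! ### The Diophantine lemma -/

theorem num_core2 (N m1 m2 n3 m3 : ℕ) (h1 : 2 * m1 = N) (h2 : 3 * m2 = N) (h3 : n3 * m3 = N)
    (hn3 : 3 ≤ n3) (hm3 : 3 ≤ m3) (hs : m1 + m2 + m3 = N + 2) :
    N = 12 ∨ N = 24 ∨ N = 60 := by
  have hn6 : n3 < 6 := by
    by_contra hcon
    have h6 : 6 * m3 ≤ n3 * m3 := Nat.mul_le_mul_right m3 (by omega)
    omega
  interval_cases n3 <;> omega

theorem num_core (N m1 n2 m2 n3 m3 : ℕ) (h1 : 2 * m1 = N) (h2 : n2 * m2 = N) (h3 : n3 * m3 = N)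
    (hn2 : 2 ≤ n2) (hn3 : 2 ≤ n3) (hm2 : 3 ≤ m2) (hm3 : 3 ≤ m3)
    (hs : m1 + m2 + m3 = N + 2) : N = 12 ∨ N = 24 ∨ N = 60 := by
  have hn2' : n2 ≠ 2 := by
    rintro rfl
    omega
  have hn3' : n3 ≠ 2 := by
    rintro rfl
    omega
  by_cases h23 : n2 = 3
  · subst h23
    exact num_core2 N m1 m2 n3 m3 h1 h2 h3 (by omega) hm3 hs
  · by_cases h33 : n3 = 3
    · subst h33
      exact num_core2 N m1 m3 n2 m2 h1 h3 h2 (by omega) hm2 (by omega)
    · exfalso
      have h4 : 4 * m2 ≤ n2 * m2 := Nat.mul_le_mul_right m2 (by omega)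
      have h5 : 4 * m3 ≤ n3 * m3 := Nat.mul_le_mul_right m3 (by omega)
      omega

theorem num3 (N n1 m1 n2 m2 n3 m3 : ℕ) (h1 : n1 * m1 = N) (h2 : n2 * m2 = N) (h3 : n3 * m3 = N)
    (hn1 : 2 ≤ n1) (hn2 : 2 ≤ n2) (hn3 : 2 ≤ n3) (hm1 : 3 ≤ m1) (hm2 : 3 ≤ m2) (hm3 : 3 ≤ m3)
    (hs : m1 + m2 + m3 = N + 2) : N = 12 ∨ N = 24 ∨ N = 60 := by
  by_cases c1 : n1 = 2
  · subst c1
    exact num_core N m1 n2 m2 n3 m3 h1 h2 h3 hn2 hn3 hm2 hm3 hs
  by_cases c2 : n2 = 2
  · subst c2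
    exact num_core N m2 n1 m1 n3 m3 h2 h1 h3 hn1 hn3 hm1 hm3 (by omega)
  by_cases c3 : n3 = 2
  · subst c3
    exact num_core N m3 n1 m1 n2 m2 h3 h1 h2 hn1 hn2 hm1 hm2 (by omega)
  exfalso
  have e1 : 3 * m1 ≤ n1 * m1 := Nat.mul_le_mul_right m1 (by omega)
  have e2 : 3 * m2 ≤ n2 * m2 := Nat.mul_le_mul_right m2 (by omega)
  have e3 : 3 * m3 ≤ n3 * m3 := Nat.mul_le_mul_right m3 (by omega)
  omega

theorem num_main {Ω : Type*} [Fintype Ω] (N : ℕ) (n m : Ω → ℕ) (hnm : ∀ ω, n ω * m ω = N)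
    (hn : ∀ ω, 2 ≤ n ω) (hm : ∀ ω, 3 ≤ m ω) (hne : Nonempty Ω)
    (hsum : ∑ ω, m ω + 2 * N = Fintype.card Ω * N + 2) : N = 12 ∨ N = 24 ∨ N = 60 := by
  classical
  have hk1 : 0 < Fintype.card Ω := Fintype.card_pos
  have hS3 : 3 * Fintype.card Ω ≤ ∑ ω, m ω := by
    calc 3 * Fintype.card Ω = ∑ _ω : Ω, 3 := by
          rw [Finset.sum_const, Finset.card_univ, smul_eq_mul, mul_comm]
      _ ≤ ∑ ω, m ω := Finset.sum_le_sum (fun ω _ => hm ω)
  have hS2 : 2 * ∑ ω, m ω ≤ Fintype.card Ω * N := by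
    calc 2 * ∑ ω, m ω = ∑ ω, 2 * m ω := Finset.mul_sum _ _ _
      _ ≤ ∑ _ω : Ω, N := Finset.sum_le_sum (fun ω _ => by
          have h4 : 2 * m ω ≤ n ω * m ω := Nat.mul_le_mul_right (m ω) (hn ω)
          rw [hnm ω] at h4
          exact h4)
      _ = Fintype.card Ω * N := by rw [Finset.sum_const, Finset.card_univ, smul_eq_mul]
  have hk3 : Fintype.card Ω ≤ 3 := by
    by_contra hcon
    have hP : 4 * N ≤ Fintype.card Ω * N := Nat.mul_le_mul_right N (by omega)
    omega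
  have hk : Fintype.card Ω = 1 ∨ Fintype.card Ω = 2 ∨ Fintype.card Ω = 3 := by omega
  rcases hk with hk | hk | hk
  · rw [hk] at hsum hS3
    omega
  · rw [hk] at hsum hS3
    omega
  · have hu : (Finset.univ : Finset Ω).card = 3 := by rw [Finset.card_univ, hk]
    obtain ⟨x, y, z, hxy, hxz, hyz, huniv⟩ := Finset.card_eq_three.mp hu
    rw [hk, huniv, Finset.sum_insert (by simp [hxy, hxz]), Finset.sum_insert (by simp [hyz]),
      Finset.sum_singleton] at hsum
    exact num3 N (n x) (m x) (n y) (m y) (n z) (m z) (hnm x) (hnm y) (hnm z) (hn x) (hn y) (hn z)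
      (hm x) (hm y) (hm z) (by omega)

end Cfsg.Agent.Helper12.D2
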