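import Mathlib
import Cfsg.Prelude.Def_Characters
import Cfsg.Agent.Helper12.IndFun
import Cfsg.Agent.Helper12.Deg2A

/-!
# Primitive linear groups of degree two: the action on the projective line
-/

set_option autoImplicit false

namespace Cfsg.Agent.Helper12.D2

open Module

variable {G : Type*} [Group G]

theorem rho_inv_apply (ρ : Representation ℂ G V2) (g : G) (z : V2) : ρ g⁻¹ (ρ g z) = z := by
  rw [← Module.End.mul_apply, ← map_mul, inv_mul_cancel, map_one, Module.End.one_apply]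

theorem rho_mul_apply (ρ : Representation ℂ G V2) (g h : G) (z : V2) :
    ρ (g * h) z = ρ g (ρ h z) := by
  rw [map_mul, Module.End.mul_apply]

theorem rho_one_apply (ρ : Representation ℂ G V2) (z : V2) : ρ 1 z = z := by
  rw [map_one, Module.End.one_apply]

theorem rho_inj (ρ : Representation ℂ G V2) (g : G) : Function.Injective (ρ g) := by
  intro x y h
  have h2 := congrArg (ρ g⁻¹) h
  rwa [rho_inv_apply, rho_inv_apply] at h2

theorem rho_ne_zero (ρ : Representation ℂ G V2) (g : G) {v : V2} (hv : v ≠ 0) : ρ g v ≠ 0 :=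
  fun h => hv (rho_inj ρ g (h.trans (map_zero _).symm))

/-- The projective line, carrying the action through `ρ`. -/
def PL (_ρ : Representation ℂ G V2) : Type := Projectivization ℂ V2

/-- The point of a nonzero vector. -/
noncomputable def PL.mk (ρ : Representation ℂ G V2) (v : V2) (hv : v ≠ 0) : PL ρ :=
  Projectivization.mk ℂ v hv

theorem PL.exists_rep (ρ : Representation ℂ G V2) (x : PL ρ) :
    ∃ (v : V2) (hv : v ≠ 0), x = PL.mk ρ v hv :=
  ⟨Projectivization.rep (K := ℂ) (V := V2) x, Projectivization.rep_nonzero (K := ℂ) (V := V2) x,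
    (Projectivization.mk_rep (K := ℂ) (V := V2) x).symm⟩

theorem PL.mk_eq_iff (ρ : Representation ℂ G V2) (v w : V2) (hv : v ≠ 0) (hw : w ≠ 0) :
    PL.mk ρ v hv = PL.mk ρ w hw ↔ ∃ a : ℂ, a • w = v :=
  Projectivization.mk_eq_mk_iff' ℂ v w hv hw

/-- The action on points. -/
noncomputable def PL.act (ρ : Representation ℂ G V2) (g : G) (x : PL ρ) : PL ρ :=
  Projectivization.map (ρ g) (rho_inj ρ g) x

theorem PL.act_mk (ρ : Representation ℂ G V2) (g : G) (v : V2) (hv : v ≠ 0) :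
    PL.act ρ g (PL.mk ρ v hv) = PL.mk ρ (ρ g v) (rho_ne_zero ρ g hv) := rfl

noncomputable instance PL.instMulAction (ρ : Representation ℂ G V2) : MulAction G (PL ρ) where
  smul g x := PL.act ρ g x
  one_smul x := by
    obtain ⟨v, hv, rfl⟩ := PL.exists_rep ρ x
    show PL.act ρ 1 (PL.mk ρ v hv) = PL.mk ρ v hv
    rw [PL.act_mk, PL.mk_eq_iff]
    exact ⟨1, by rw [one_smul, rho_one_apply]⟩
  mul_smul g h x := by
    obtain ⟨v, hv, rfl⟩ := PL.exists_rep ρ x
    show PL.act ρ (g * h) (PL.mk ρ v hv) = PL.act ρ g (PL.act ρ h (PL.mk ρ v hv))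
    rw [PL.act_mk, PL.act_mk, PL.act_mk, PL.mk_eq_iff]
    exact ⟨1, by rw [one_smul, rho_mul_apply]⟩

theorem PL.smul_mk (ρ : Representation ℂ G V2) (g : G) (v : V2) (hv : v ≠ 0) :
    g • PL.mk ρ v hv = PL.mk ρ (ρ g v) (rho_ne_zero ρ g hv) := rfl

theorem PL.fixed_iff (ρ : Representation ℂ G V2) (g : G) (v : V2) (hv : v ≠ 0) :
    g • PL.mk ρ v hv = PL.mk ρ v hv ↔ ∃ c : ℂ, ρ g v = c • v := by
  rw [PL.smul_mk, PL.mk_eq_iff]
  constructor <;> rintro ⟨c, h⟩ <;> exact ⟨c, h.symm⟩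

theorem irr_inv (ρ : Representation ℂ G V2) [ρ.IsIrreducible] (W : Submodule ℂ V2)
    (hW : ∀ g : G, ∀ v ∈ W, ρ g v ∈ W) : W = ⊥ ∨ W = ⊤ := by
  let W' : Subrepresentation ρ := ⟨W, fun g v hv => hW g v hv⟩
  rcases eq_bot_or_eq_top W' with h1 | h1
  · left; exact congrArg Subrepresentation.toSubmodule h1
  · right; exact congrArg Subrepresentation.toSubmodule h1

theorem not_all_fix (ρ : Representation ℂ G V2) [ρ.IsIrreducible] (x : PL ρ) :
    ¬ ∀ g : G, g • x = x := by
  intro hall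
  obtain ⟨v, hv, rfl⟩ := PL.exists_rep ρ x
  have hW : ∀ g : G, ∀ u ∈ Submodule.span ℂ ({v} : Set V2),
      ρ g u ∈ Submodule.span ℂ ({v} : Set V2) := by
    intro g u hu
    obtain ⟨c, rfl⟩ := Submodule.mem_span_singleton.mp hu
    obtain ⟨d, hd⟩ := (PL.fixed_iff ρ g v hv).mp (hall g)
    rw [map_smul, hd]
    exact Submodule.mem_span_singleton.mpr ⟨c * d, by rw [mul_smul]⟩
  have hfr : finrank ℂ (Submodule.span ℂ ({v} : Set V2)) = 1 := finrank_span_singleton hv
  rcases irr_inv ρ _ hW with h | h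
  · rw [h] at hfr; simp at hfr
  · rw [h] at hfr; simp at hfr

theorem scalar_of_central (ρ : Representation ℂ G V2) [ρ.IsIrreducible] {g : G}
    (hg : g ∈ Subgroup.center G) : ∃ c : ℂ, ρ g = c • LinearMap.id := by
  obtain ⟨c, hc⟩ := Module.End.exists_eigenvalue (ρ g)
  obtain ⟨v, hv⟩ := hc.exists_hasEigenvector
  refine ⟨c, ?_⟩
  have hW : ∀ h : G, ∀ u ∈ LinearMap.ker (ρ g - c • LinearMap.id),
      ρ h u ∈ LinearMap.ker (ρ g - c • LinearMap.id) := by
    intro h u hu
    rw [LinearMap.mem_ker, LinearMap.sub_apply, LinearMap.smul_apply, LinearMap.id_apply,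
      sub_eq_zero] at hu ⊢
    rw [← rho_mul_apply, ← (Subgroup.mem_center_iff.mp hg h), rho_mul_apply, hu, map_smul]
  rcases irr_inv ρ _ hW with h | h
  · exfalso
    have hmem : v ∈ LinearMap.ker (ρ g - c • LinearMap.id) := by
      rw [LinearMap.mem_ker, LinearMap.sub_apply, LinearMap.smul_apply, LinearMap.id_apply,
        hv.apply_eq_smul, sub_self]
    rw [h] at hmem
    exact hv.2 ((Submodule.mem_bot ℂ).mp hmem)
  · apply LinearMap.ext
    intro u
    have hmem : u ∈ LinearMap.ker (ρ g - c • LinearMap.id) := by rw [h]; exact Submodule.mem_top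
    rw [LinearMap.mem_ker, LinearMap.sub_apply, sub_eq_zero] at hmem
    exact hmem

theorem central_of_scalar (ρ : Representation ℂ G V2) (hinj : Function.Injective ρ) {g : G}
    (hg : ∃ c : ℂ, ρ g = c • LinearMap.id) : g ∈ Subgroup.center G := by
  obtain ⟨c, hc⟩ := hg
  rw [Subgroup.mem_center_iff]
  intro h
  apply hinj
  rw [map_mul, map_mul, hc]
  apply LinearMap.ext
  intro u
  rw [Module.End.mul_apply, Module.End.mul_apply, LinearMap.smul_apply, LinearMap.smul_apply,
    LinearMap.id_apply, LinearMap.id_apply, map_smul]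

theorem central_fix (ρ : Representation ℂ G V2) [ρ.IsIrreducible] {g : G}
    (hg : g ∈ Subgroup.center G) (x : PL ρ) : g • x = x := by
  obtain ⟨c, hc⟩ := scalar_of_central ρ hg
  obtain ⟨v, hv, rfl⟩ := PL.exists_rep ρ x
  rw [PL.fixed_iff]
  exact ⟨c, by rw [hc, LinearMap.smul_apply, LinearMap.id_apply]⟩

theorem fixed_two [Finite G] (ρ : Representation ℂ G V2) (hinj : Function.Injective ρ) {g : G}
    (hg : g ∉ Subgroup.center G) :
    ∃ x y : PL ρ, x ≠ y ∧ ∀ z : PL ρ, g • z = z ↔ z = x ∨ z = y := by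
  have hns : ∀ c : ℂ, ρ g ≠ c • LinearMap.id :=
    fun c hc => hg (central_of_scalar ρ hinj ⟨c, hc⟩)
  have hpow : (ρ g) ^ (orderOf g) = 1 := by rw [← map_pow, pow_orderOf_eq_one, map_one]
  obtain ⟨v, w, a, b, hv, hw, hab, hTv, hTw⟩ :=
    two_eigen (ρ g) (orderOf g) (orderOf_pos g) hpow hns
  refine ⟨PL.mk ρ v hv, PL.mk ρ w hw, ?_, ?_⟩
  · intro h
    obtain ⟨c, hc⟩ := (PL.mk_eq_iff ρ v w hv hw).mp h
    have hc0 : c ≠ 0 := by
      rintro rfl
      rw [zero_smul] at hc
      exact hv hc.symm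
    apply eigen_li hw hab hTv hTw c⁻¹
    rw [← hc, smul_smul, inv_mul_cancel₀ hc0, one_smul]
  · intro z
    obtain ⟨u, hu, rfl⟩ := PL.exists_rep ρ z
    rw [PL.fixed_iff]
    constructor
    · rintro ⟨c, hc⟩
      rcases eigen_cases hv hw hab hTv hTw u c hc with ⟨s, hs⟩ | ⟨s, hs⟩
      · left; exact (PL.mk_eq_iff ρ u v hu hv).mpr ⟨s, hs.symm⟩
      · right; exact (PL.mk_eq_iff ρ u w hu hw).mpr ⟨s, hs.symm⟩
    · rintro (h | h)
      · obtain ⟨s, hs⟩ := (PL.mk_eq_iff ρ u v hu hv).mp h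
        exact ⟨a, by rw [← hs, map_smul, hTv, smul_comm]⟩
      · obtain ⟨s, hs⟩ := (PL.mk_eq_iff ρ u w hu hw).mp h
        exact ⟨b, by rw [← hs, map_smul, hTw, smul_comm]⟩

/-- The poles: points fixed by some non-central element. -/
def Pole (ρ : Representation ℂ G V2) : Type :=
  {x : PL ρ // ∃ g : G, g ∉ Subgroup.center G ∧ g • x = x}

noncomputable instance Pole.instMulAction (ρ : Representation ℂ G V2) : MulAction G (Pole ρ) where
  smul g x := ⟨g • x.1, by
    obtain ⟨k, hk, hkx⟩ := x.2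
    refine ⟨g * k * g⁻¹, fun hc => hk ?_, ?_⟩
    · have h2 := (inferInstance : (Subgroup.center G).Normal).conj_mem _ hc g⁻¹
      simpa [mul_assoc] using h2
    · rw [mul_smul, inv_smul_smul, mul_smul, hkx]⟩
  one_smul x := Subtype.ext (one_smul G x.1)
  mul_smul g h x := Subtype.ext (mul_smul g h x.1)

theorem Pole.smul_val (ρ : Representation ℂ G V2) (g : G) (x : Pole ρ) :
    (g • x).1 = g • x.1 := rfl

theorem pole_finite [Finite G] (ρ : Representation ℂ G V2) (hinj : Function.Injective ρ) :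
    Finite (Pole ρ) := by
  have hfin : ({x : PL ρ | ∃ g : G, g ∉ Subgroup.center G ∧ g • x = x}).Finite := by
    have hsub : {x : PL ρ | ∃ g : G, g ∉ Subgroup.center G ∧ g • x = x} ⊆
        ⋃ g : G, {x : PL ρ | g ∉ Subgroup.center G ∧ g • x = x} := by
      intro x hx
      obtain ⟨g, hg, hgx⟩ := hx
      exact Set.mem_iUnion.mpr ⟨g, hg, hgx⟩
    refine Set.Finite.subset (Set.finite_iUnion (fun g => ?_)) hsub
    by_cases hg : g ∈ Subgroup.center G
    · have hempty : {x : PL ρ | g ∉ Subgroup.center G ∧ g • x = x} = ∅ := by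
        ext x
        simp [hg]
      rw [hempty]
      exact Set.finite_empty
    · obtain ⟨x, y, -, hxy⟩ := fixed_two ρ hinj hg
      refine Set.Finite.subset ((Set.finite_singleton y).insert x) ?_
      intro z hz
      exact (hxy z).mp hz.2
  exact hfin.to_subtype

end Cfsg.Agent.Helper12.D2
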