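import Mathlib
import Cfsg.Prelude.Def_Characters
import Cfsg.Agent.Helper12.IndFun
import Cfsg.Agent.Helper12.Deg2A
import Cfsg.Agent.Helper12.Deg2B

/-!
# Primitive linear groups of degree two: the central index is 12, 24 or 60
-/

set_option autoImplicit false

namespace Cfsg.Agent.Helper12.D2

open Module

variable {G : Type*} [Group G]

theorem Pole.smul_eq_iff (ρ : Representation ℂ G V2) (g : G) (p : Pole ρ) :
    g • p = p ↔ g • p.1 = p.1 :=
  ⟨fun h => congrArg Subtype.val h, fun h => Subtype.ext h⟩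

/-- Constructor for poles. -/
def Pole.mk (ρ : Representation ℂ G V2) (x : PL ρ)
    (h : ∃ g : G, g ∉ Subgroup.center G ∧ g • x = x) : Pole ρ := ⟨x, h⟩

theorem Pole.ext' (ρ : Representation ℂ G V2) {p q : Pole ρ} (h : p.1 = q.1) : p = q :=
  Subtype.ext h

theorem index_two_contra [Fintype G] (ρ : Representation ℂ G V2) [ρ.IsIrreducible]
    (hprim : ∀ H : Subgroup G, H ≠ ⊤ → ∀ θ : H → ℂ, Cfsg.IsCharacter H θ →
      ρ.character ≠ Cfsg.indFun H θ)
    (x : PL ρ) (S : Subgroup G) (hS : ∀ s ∈ S, s • x = x)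
    (hcard : Nat.card G ≤ 2 * Nat.card S) : False := by
  classical
  obtain ⟨g₀, hg₀⟩ : ∃ g₀ : G, g₀ • x ≠ x := by
    by_contra hcon
    push_neg at hcon
    exact not_all_fix ρ x hcon
  have hg₀S : g₀ ∉ S := fun h => hg₀ (hS g₀ h)
  have hStop : S ≠ ⊤ := fun h => hg₀S (h ▸ Subgroup.mem_top g₀)
  have hcidx : Nat.card S * S.index = Nat.card G := Subgroup.card_mul_index S
  have hidx : S.index = 2 := by
    have h2 : 0 < Nat.card S := Nat.card_pos
    have h3 : S.index ≠ 1 := fun h => hStop (Subgroup.index_eq_one.mp h)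
    have h4 : S.index ≠ 0 := Subgroup.index_ne_zero_of_finite
    have h5 : S.index ≤ 2 := by
      by_contra h6
      have h7 : Nat.card S * 3 ≤ Nat.card S * S.index := Nat.mul_le_mul_left _ (by omega)
      omega
    omega
  have hmul : ∀ a b : G, a * b ∈ S ↔ (a ∈ S ↔ b ∈ S) :=
    fun a b => Subgroup.mul_mem_iff_of_index_two hidx
  have hinv : ∀ a : G, a⁻¹ ∈ S ↔ a ∈ S := fun a => inv_mem_iff
  obtain ⟨v, hv, rfl⟩ := PL.exists_rep ρ x
  have hex : ∀ s : S, ∃ c : ℂ, ρ (s : G) v = c • v :=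
    fun s => (PL.fixed_iff ρ s v hv).mp (hS s s.2)
  choose lam hlam using hex
  have hlam_mul : ∀ s t : S, lam (s * t) = lam s * lam t := by
    intro s t
    have h1 := hlam (s * t)
    rw [Subgroup.coe_mul, rho_mul_apply, hlam t, map_smul, hlam s, smul_smul] at h1
    have h2 := smul_left_injective ℂ hv h1
    rw [← h2, mul_comm]
  have hlam_one : lam 1 = 1 := by
    have h1 := hlam 1
    rw [Subgroup.coe_one, rho_one_apply] at h1
    have h2 : (1 : ℂ) • v = lam 1 • v := by rw [one_smul]; exact h1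
    exact (smul_left_injective ℂ hv h2).symm
  have hlam_conj : ∀ s a : S, lam (s⁻¹ * a * s) = lam a := by
    intro s a
    rw [hlam_mul, hlam_mul, mul_comm (lam s⁻¹) (lam a), mul_assoc, ← hlam_mul, inv_mul_cancel,
      hlam_one, mul_one]
  have hchar : Cfsg.IsCharacter S lam := by
    let σ : Representation ℂ S (Fin 1 → ℂ) :=
      { toFun := fun s => lam s • LinearMap.id
        map_one' := by rw [hlam_one, one_smul]; rfl
        map_mul' := fun s t => by
          rw [hlam_mul]
          apply LinearMap.ext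
          intro u
          simp [Module.End.mul_apply, mul_smul]
          exact smul_comm _ _ _ }
    refine ⟨1, σ, ?_⟩
    funext s
    show LinearMap.trace ℂ (Fin 1 → ℂ) (lam s • LinearMap.id) = lam s
    rw [map_smul, LinearMap.trace_id]
    simp
  apply hprim S hStop lam hchar
  funext g
  have hw : ∀ c : ℂ, ρ g₀ v ≠ c • v :=
    fun c hc => hg₀ ((PL.fixed_iff ρ g₀ v hv).mpr ⟨c, hc⟩)
  have hli := li_pair hv hw
  have hcardS : (Nat.card S : ℂ) ≠ 0 := Nat.cast_ne_zero.mpr Nat.card_pos.ne'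
  by_cases hg : g ∈ S
  · have hconj : g₀⁻¹ * g * g₀ ∈ S := by
      have := hmul (g₀⁻¹ * g) g₀
      have := hmul g₀⁻¹ g
      have := hinv g₀
      tauto
    have h0 : ρ g v = lam ⟨g, hg⟩ • v + (0 : ℂ) • ρ g₀ v := by
      rw [zero_smul, add_zero]
      exact hlam ⟨g, hg⟩
    have h1 : ρ g (ρ g₀ v) = (0 : ℂ) • v + lam ⟨g₀⁻¹ * g * g₀, hconj⟩ • ρ g₀ v := by
      rw [zero_smul, zero_add, ← LinearMap.map_smul,
        ← (show ρ (g₀⁻¹ * g * g₀) v = lam ⟨g₀⁻¹ * g * g₀, hconj⟩ • v from hlam ⟨_, hconj⟩),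
        ← rho_mul_apply, ← rho_mul_apply]
      rw [show g₀ * (g₀⁻¹ * g * g₀) = g * g₀ by group]
    have htr := trace2 (ρ g) hli _ _ _ _ h0 h1
    show LinearMap.trace ℂ V2 (ρ g) = Cfsg.indFun S lam g
    rw [htr, indFun_def]
    have hterm : ∀ y : G, Cfsg.extendByZero S lam (y⁻¹ * g * y) =
        if y ∈ S then lam ⟨g, hg⟩ else lam ⟨g₀⁻¹ * g * g₀, hconj⟩ := by
      intro y
      split_ifs with hy
      · have hmem : y⁻¹ * g * y ∈ S := S.mul_mem (S.mul_mem (S.inv_mem hy) hg) hy
        rw [extendByZero_mem S lam hmem]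
        exact hlam_conj ⟨y, hy⟩ ⟨g, hg⟩
      · have hs : g₀⁻¹ * y ∈ S := by
          have := hmul g₀⁻¹ y
          have := hinv g₀
          tauto
        have hmem : y⁻¹ * g * y ∈ S := by
          have := hmul (y⁻¹ * g) y
          have := hmul y⁻¹ g
          have := hinv y
          tauto
        rw [extendByZero_mem S lam hmem]
        have e : (⟨y⁻¹ * g * y, hmem⟩ : S) =
            (⟨g₀⁻¹ * y, hs⟩ : S)⁻¹ * ⟨g₀⁻¹ * g * g₀, hconj⟩ * ⟨g₀⁻¹ * y, hs⟩ := by
          apply Subtype.ext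
          show y⁻¹ * g * y = (g₀⁻¹ * y)⁻¹ * (g₀⁻¹ * g * g₀) * (g₀⁻¹ * y)
          group
        rw [e]
        exact hlam_conj _ _
    have cS : (Finset.univ.filter (fun y : G => y ∈ S)).card = Nat.card S :=
      (Nat.subtype_card _ (by simp)).symm
    have cS' : (Finset.univ.filter (fun y : G => ¬ y ∈ S)).card = Nat.card S := by
      have h1 := Finset.card_filter_add_card_filter_not (s := (Finset.univ : Finset G))
        (fun y : G => y ∈ S)
      rw [Finset.card_univ, Fintype.card_eq_nat_card, cS, ← hcidx, hidx] at h1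
      omega
    rw [Finset.sum_congr rfl (fun y _ => hterm y), Finset.sum_ite, Finset.sum_const,
      Finset.sum_const, cS, cS', nsmul_eq_mul, nsmul_eq_mul, ← mul_add,
      inv_mul_cancel_left₀ hcardS]
  · have hs1 : g₀⁻¹ * g ∈ S := by
      have := hmul g₀⁻¹ g
      have := hinv g₀
      tauto
    have hs2 : g * g₀ ∈ S := by
      have := hmul g g₀
      tauto
    have h0 : ρ g v = (0 : ℂ) • v + lam ⟨g₀⁻¹ * g, hs1⟩ • ρ g₀ v := by
      rw [zero_smul, zero_add, ← LinearMap.map_smul,
        ← (show ρ (g₀⁻¹ * g) v = lam ⟨g₀⁻¹ * g, hs1⟩ • v from hlam ⟨_, hs1⟩),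
        ← rho_mul_apply, mul_inv_cancel_left]
    have h1 : ρ g (ρ g₀ v) = lam ⟨g * g₀, hs2⟩ • v + (0 : ℂ) • ρ g₀ v := by
      rw [zero_smul, add_zero, ← rho_mul_apply]
      exact hlam ⟨g * g₀, hs2⟩
    have htr := trace2 (ρ g) hli _ _ _ _ h0 h1
    show LinearMap.trace ℂ V2 (ρ g) = Cfsg.indFun S lam g
    rw [htr, indFun_def, add_zero]
    have hterm : ∀ y : G, Cfsg.extendByZero S lam (y⁻¹ * g * y) = 0 := by
      intro y
      apply extendByZero_not_mem
      have := hmul (y⁻¹ * g) y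
      have := hmul y⁻¹ g
      have := hinv y
      tauto
    rw [Finset.sum_eq_zero (fun y _ => hterm y), mul_zero]

theorem main [Fintype G] (ρ : Representation ℂ G V2) [ρ.IsIrreducible]
    (hinj : Function.Injective ρ)
    (hprim : ∀ H : Subgroup G, H ≠ ⊤ → ∀ θ : H → ℂ, Cfsg.IsCharacter H θ →
      ρ.character ≠ Cfsg.indFun H θ) :
    (Subgroup.center G).index = 12 ∨ (Subgroup.center G).index = 24 ∨
      (Subgroup.center G).index = 60 := by
  classical
  haveI : Finite (Pole ρ) := pole_finite ρ hinj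
  letI : Fintype (Pole ρ) := Fintype.ofFinite _
  have hzN : Nat.card (Subgroup.center G) * (Subgroup.center G).index = Nat.card G :=
    Subgroup.card_mul_index _
  have hzpos : 0 < Nat.card (Subgroup.center G) := Nat.card_pos
  obtain ⟨g₁, hg₁⟩ : ∃ g : G, g ∉ Subgroup.center G := by
    by_contra hcon
    push_neg at hcon
    have hv0 : (Pi.single 0 1 : V2) ≠ 0 := by
      intro h
      have h2 := congrFun h 0
      simp at h2
    exact not_all_fix ρ (PL.mk ρ _ hv0) (fun g => central_fix ρ (hcon g) _)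
  obtain ⟨x₁, y₁, -, hx₁⟩ := fixed_two ρ hinj hg₁
  have hne : Nonempty (Quotient (MulAction.orbitRel G (Pole ρ))) :=
    ⟨Quotient.mk'' (Pole.mk ρ x₁ ⟨g₁, hg₁, (hx₁ x₁).mpr (Or.inl rfl)⟩)⟩
  let S : Quotient (MulAction.orbitRel G (Pole ρ)) → Subgroup G :=
    fun ω => MulAction.stabilizer G (Quotient.out ω)
  have hZS : ∀ ω, Subgroup.center G ≤ S ω := by
    intro ω g hg
    exact MulAction.mem_stabilizer_iff.mpr ((Pole.smul_eq_iff ρ g _).mpr (central_fix ρ hg _))
  have hSfix : ∀ ω, ∀ s ∈ S ω, s • (Quotient.out ω).1 = (Quotient.out ω).1 := by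
    intro ω s hs
    exact (Pole.smul_eq_iff ρ s _).mp (MulAction.mem_stabilizer_iff.mp hs)
  have hSbig : ∀ ω, ∃ g ∈ S ω, g ∉ Subgroup.center G := by
    intro ω
    obtain ⟨g, hg, hgx⟩ := (Quotient.out ω).2
    exact ⟨g, MulAction.mem_stabilizer_iff.mpr ((Pole.smul_eq_iff ρ g _).mpr hgx), hg⟩
  let m : Quotient (MulAction.orbitRel G (Pole ρ)) → ℕ :=
    fun ω => Nat.card G / Nat.card (S ω)
  let n : Quotient (MulAction.orbitRel G (Pole ρ)) → ℕ :=
    fun ω => Nat.card (S ω) / Nat.card (Subgroup.center G)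
  have e1 : ∀ ω, Nat.card (Subgroup.center G) * n ω = Nat.card (S ω) := fun ω =>
    Nat.mul_div_cancel' (Subgroup.card_dvd_of_le (hZS ω))
  have e2 : ∀ ω, Nat.card (S ω) * m ω = Nat.card G := fun ω =>
    Nat.mul_div_cancel' (Subgroup.card_subgroup_dvd_card (S ω))
  have hnm : ∀ ω, n ω * m ω = (Subgroup.center G).index := by
    intro ω
    apply Nat.eq_of_mul_eq_mul_left hzpos
    rw [← mul_assoc, e1, e2, hzN]
  have hn2 : ∀ ω, 2 ≤ n ω := by
    intro ω
    have hSpos : 0 < Nat.card (S ω) := Nat.card_pos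
    have h0 : n ω ≠ 0 := by
      intro h
      have h3 := e1 ω
      rw [h, mul_zero] at h3
      omega
    have h1 : n ω ≠ 1 := by
      intro h
      have h3 := e1 ω
      rw [h, mul_one] at h3
      have h4 : Subgroup.center G = S ω := Subgroup.eq_of_le_of_card_ge (hZS ω) h3.symm.le
      obtain ⟨g, hgS, hgZ⟩ := hSbig ω
      exact hgZ (h4 ▸ hgS)
    omega
  by_cases hm3 : ∀ ω, 3 ≤ m ω
  · have hB := MulAction.sum_card_fixedBy_eq_card_orbits_mul_card_group G (Pole ρ)
    have hC := MulAction.card_eq_sum_card_group_div_card_stabilizer G (Pole ρ)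
    simp only [Fintype.card_eq_nat_card] at hB hC
    have hfix : ∀ g : G, Nat.card (MulAction.fixedBy (Pole ρ) g) =
        if g ∈ Subgroup.center G then Nat.card (Pole ρ) else 2 := by
      intro g
      split_ifs with hg
      · rw [Nat.card_coe_set_eq]
        have hall : MulAction.fixedBy (Pole ρ) g = Set.univ := by
          ext p
          simp only [MulAction.mem_fixedBy, Set.mem_univ, iff_true]
          exact (Pole.smul_eq_iff ρ g p).mpr (central_fix ρ hg _)
        rw [hall, Set.ncard_univ]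
      · obtain ⟨x, y, hxy, hfx⟩ := fixed_two ρ hinj hg
        rw [Nat.card_coe_set_eq]
        have hpair : MulAction.fixedBy (Pole ρ) g =
            {Pole.mk ρ x ⟨g, hg, (hfx x).mpr (Or.inl rfl)⟩,
              Pole.mk ρ y ⟨g, hg, (hfx y).mpr (Or.inr rfl)⟩} := by
          ext p
          simp only [MulAction.mem_fixedBy, Set.mem_insert_iff, Set.mem_singleton_iff]
          constructor
          · intro hp
            rcases (hfx p.1).mp ((Pole.smul_eq_iff ρ g p).mp hp) with h | h
            · left; exact Pole.ext' ρ h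
            · right; exact Pole.ext' ρ h
          · rintro (h | h)
            · rw [h]; exact (Pole.smul_eq_iff ρ g _).mpr ((hfx x).mpr (Or.inl rfl))
            · rw [h]; exact (Pole.smul_eq_iff ρ g _).mpr ((hfx y).mpr (Or.inr rfl))
        rw [hpair, Set.ncard_pair]
        intro h
        exact hxy (congrArg Subtype.val h)
    have cZ : (Finset.univ.filter (fun g : G => g ∈ Subgroup.center G)).card =
        Nat.card (Subgroup.center G) := (Nat.subtype_card _ (by simp)).symm
    have cZ' := Finset.card_filter_add_card_filter_not (s := (Finset.univ : Finset G))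
      (fun g : G => g ∈ Subgroup.center G)
    rw [Finset.card_univ, Fintype.card_eq_nat_card, cZ] at cZ'
    rw [Finset.sum_congr rfl (fun g _ => hfix g), Finset.sum_ite, Finset.sum_const,
      Finset.sum_const, smul_eq_mul, smul_eq_mul, cZ] at hB
    have hC' : Nat.card (Pole ρ) = ∑ ω, m ω := hC
    have hsum : ∑ ω, m ω + 2 * (Subgroup.center G).index =
        Fintype.card (Quotient (MulAction.orbitRel G (Pole ρ))) * (Subgroup.center G).index
          + 2 := by
      rw [Fintype.card_eq_nat_card]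
      apply Nat.eq_of_mul_eq_mul_left hzpos
      rw [← hC', ← hzN] at *
      nlinarith [hB, cZ']
    exact num_main _ n m hnm hn2 hm3 hne hsum
  · exfalso
    push_neg at hm3
    obtain ⟨ω, hω⟩ := hm3
    apply index_two_contra ρ hprim (Quotient.out ω).1 (S ω) (hSfix ω)
    calc Nat.card G = Nat.card (S ω) * m ω := (e2 ω).symm
      _ ≤ Nat.card (S ω) * 2 := Nat.mul_le_mul_left _ (by omega)
      _ = 2 * Nat.card (S ω) := mul_comm _ _

end Cfsg.Agent.Helper12.D2
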