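import Mathlib
import Cfsg.Agent.Helper14.Basic
import Cfsg.Agent.Helper14.Subnormal
import Cfsg.Agent.S0566

set_option autoImplicit false
open scoped Pointwise commutatorElement

namespace Cfsg.Agent.Helper12.KW

universe u

section basic

variable {G : Type*} [Group G]

theorem mem_conj_smul (g z : G) (Y : Subgroup G) :
    z ∈ (MulAut.conj g • Y : Subgroup G) ↔ g⁻¹ * z * g ∈ Y := by
  rw [Subgroup.mem_pointwise_smul_iff_inv_smul_mem]
  simp [MulAut.smul_def]

theorem conj_smul_smul (g h : G) (Y : Subgroup G) :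
    (MulAut.conj g • (MulAut.conj h • Y) : Subgroup G) = MulAut.conj (g * h) • Y := by
  rw [map_mul, mul_smul]

theorem isPGroup_conj_smul {p : ℕ} {Y : Subgroup G} (hY : IsPGroup p Y) (g : G) :
    IsPGroup p (MulAut.conj g • Y : Subgroup G) := by
  rw [Subgroup.pointwise_smul_def]; exact hY.map _

/-- the set product of two subgroups is (the carrier of) a subgroup -/
def SP (X Y : Subgroup G) : Prop :=
  ∃ S : Subgroup G, (S : Set G) = (X : Set G) * (Y : Set G)

theorem sp_left {X Y S : Subgroup G} (hS : (S : Set G) = (X : Set G) * (Y : Set G)) : X ≤ S := by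
  intro x hx
  have : x ∈ (S : Set G) := by
    rw [hS]; exact Set.mem_mul.mpr ⟨x, hx, 1, Y.one_mem, mul_one x⟩
  exact this

theorem sp_right {X Y S : Subgroup G} (hS : (S : Set G) = (X : Set G) * (Y : Set G)) : Y ≤ S := by
  intro y hy
  have : y ∈ (S : Set G) := by
    rw [hS]; exact Set.mem_mul.mpr ⟨1, X.one_mem, y, hy, one_mul y⟩
  exact this

theorem sp_dec {X Y S : Subgroup G} (hS : (S : Set G) = (X : Set G) * (Y : Set G)) {z : G}
    (hz : z ∈ S) : ∃ x ∈ X, ∃ y ∈ Y, x * y = z := by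
  have : z ∈ (S : Set G) := hz
  rw [hS] at this
  exact Set.mem_mul.mp this

theorem SP.conj {X Y : Subgroup G} (h : SP X Y) (g : G) :
    SP (MulAut.conj g • X) (MulAut.conj g • Y) := by
  obtain ⟨S, hS⟩ := h
  refine ⟨MulAut.conj g • S, ?_⟩
  ext z
  rw [SetLike.mem_coe, mem_conj_smul, Set.mem_mul]
  constructor
  · intro hz
    obtain ⟨x, hx, y, hy, hxy⟩ := sp_dec hS hz
    refine ⟨g * x * g⁻¹, ?_, g * y * g⁻¹, ?_, ?_⟩
    · rw [SetLike.mem_coe, mem_conj_smul]
      have e : g⁻¹ * (g * x * g⁻¹) * g = x := by group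
      rw [e]; exact hx
    · rw [SetLike.mem_coe, mem_conj_smul]
      have e : g⁻¹ * (g * y * g⁻¹) * g = y := by group
      rw [e]; exact hy
    · calc g * x * g⁻¹ * (g * y * g⁻¹) = g * (x * y) * g⁻¹ := by group
        _ = g * (g⁻¹ * z * g) * g⁻¹ := by rw [hxy]
        _ = z := by group
  · rintro ⟨x, hx, y, hy, rfl⟩
    rw [SetLike.mem_coe, mem_conj_smul] at hx hy
    have h1 := S.mul_mem (sp_left hS hx) (sp_right hS hy)
    have e : g⁻¹ * (x * y) * g = g⁻¹ * x * g * (g⁻¹ * y * g) := by group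
    rw [e]; exact h1

theorem SP.symm {X Y : Subgroup G} (h : SP X Y) : SP Y X := by
  obtain ⟨S, hS⟩ := h
  refine ⟨S, ?_⟩
  ext z
  rw [SetLike.mem_coe, Set.mem_mul]
  constructor
  · intro hz
    obtain ⟨x, hx, y, hy, hxy⟩ := sp_dec hS (S.inv_mem hz)
    refine ⟨y⁻¹, Y.inv_mem hy, x⁻¹, X.inv_mem hx, ?_⟩
    rw [← mul_inv_rev, hxy, inv_inv]
  · rintro ⟨y, hy, x, hx, rfl⟩
    exact S.mul_mem (sp_right hS hy) (sp_left hS hx)

theorem SP.subgroupOf {X Y : Subgroup G} (h : SP X Y) (M : Subgroup G) (hXM : X ≤ M) :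
    SP (X.subgroupOf M) (Y.subgroupOf M) := by
  obtain ⟨S, hS⟩ := h
  refine ⟨S.subgroupOf M, ?_⟩
  ext z
  rw [SetLike.mem_coe, Subgroup.mem_subgroupOf, Set.mem_mul]
  constructor
  · intro hz
    obtain ⟨x, hx, y, hy, hxy⟩ := sp_dec hS hz
    have hyM : y ∈ M := by
      have e : y = x⁻¹ * (z : G) := by rw [← hxy]; group
      rw [e]; exact M.mul_mem (M.inv_mem (hXM hx)) z.2
    refine ⟨⟨x, hXM hx⟩, ?_, ⟨y, hyM⟩, ?_, ?_⟩
    · exact Subgroup.mem_subgroupOf.mpr hx
    · exact Subgroup.mem_subgroupOf.mpr hy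
    · exact Subtype.ext hxy
  · rintro ⟨x, hx, y, hy, rfl⟩
    have hx' : (x : G) ∈ X := Subgroup.mem_subgroupOf.mp hx
    have hy' : (y : G) ∈ Y := Subgroup.mem_subgroupOf.mp hy
    exact S.mul_mem (sp_left hS hx') (sp_right hS hy')

theorem SP.map {H : Type*} [Group H] {X Y : Subgroup G} (h : SP X Y) (f : G →* H) :
    SP (X.map f) (Y.map f) := by
  obtain ⟨S, hS⟩ := h
  refine ⟨S.map f, ?_⟩
  rw [Subgroup.coe_map, Subgroup.coe_map, Subgroup.coe_map, hS, Set.image_mul]

theorem conj_smul_subgroupOf (M Y : Subgroup G) (m : M) :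
    (MulAut.conj m • (Y.subgroupOf M) : Subgroup M) = (MulAut.conj (m : G) • Y).subgroupOf M := by
  ext z
  rw [mem_conj_smul, Subgroup.mem_subgroupOf, Subgroup.mem_subgroupOf, mem_conj_smul]
  rfl

theorem conj_smul_map {H : Type*} [Group H] (f : G →* H) (g : G) (Y : Subgroup G) :
    (MulAut.conj (f g) • (Y.map f) : Subgroup H) = (MulAut.conj g • Y).map f := by
  ext z
  rw [mem_conj_smul, Subgroup.mem_map, Subgroup.mem_map]
  constructor
  · rintro ⟨y, hy, hyz⟩
    refine ⟨g * y * g⁻¹, ?_, ?_⟩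
    · rw [mem_conj_smul]
      have e : g⁻¹ * (g * y * g⁻¹) * g = y := by group
      rw [e]; exact hy
    · rw [map_mul, map_mul, hyz, map_inv]; group
  · rintro ⟨w, hw, rfl⟩
    rw [mem_conj_smul] at hw
    refine ⟨g⁻¹ * w * g, hw, ?_⟩
    rw [map_mul, map_mul, map_inv]

theorem conj_smul_eq_self (A X : Subgroup G) (hXA : ∀ a ∈ A, ∀ x ∈ X, a * x * a⁻¹ ∈ X) {a : G}
    (ha : a ∈ A) : (MulAut.conj a • X : Subgroup G) = X := by
  ext z
  rw [mem_conj_smul]
  constructor
  · intro h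
    have h1 := hXA a ha _ h
    have e : a * (a⁻¹ * z * a) * a⁻¹ = z := by group
    rw [e] at h1; exact h1
  · intro h
    have h1 := hXA a⁻¹ (A.inv_mem ha) z h
    rw [inv_inv] at h1; exact h1

/-- If `G = X * Y` with `X`, `Y` `p`-subgroups then `G` is a `p`-group. -/
theorem isPGroup_of_prod [Finite G] {p : ℕ} [Fact p.Prime] {X Y : Subgroup G}
    (hX : IsPGroup p X) (hY : IsPGroup p Y)
    (h : ∀ g : G, ∃ x ∈ X, ∃ y ∈ Y, x * y = g) : IsPGroup p G := by
  obtain ⟨P, hXP⟩ := hX.exists_le_sylow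
  obtain ⟨Q, hYQ⟩ := hY.exists_le_sylow
  obtain ⟨g, hg⟩ := MulAction.exists_smul_eq G P Q
  obtain ⟨x, hx, y, hy, hxy⟩ := h g⁻¹
  have hYP : Y ≤ (P : Subgroup G) := by
    intro w hw
    have h1 : y⁻¹ * w * y ∈ (Q : Subgroup G) := hYQ (Y.mul_mem (Y.mul_mem (Y.inv_mem hy) hw) hy)
    rw [← hg, Sylow.coe_subgroup_smul, mem_conj_smul] at h1
    have e : g⁻¹ * (y⁻¹ * w * y) * g = x * w * x⁻¹ := by
      have eg : g = y⁻¹ * x⁻¹ := by rw [← mul_inv_rev, hxy, inv_inv]
      rw [← hxy, eg]; group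
    rw [e] at h1
    have h2 := (P : Subgroup G).mul_mem ((P : Subgroup G).mul_mem
      ((P : Subgroup G).inv_mem (hXP hx)) h1) (hXP hx)
    have e2 : x⁻¹ * (x * w * x⁻¹) * x = w := by group
    rw [e2] at h2; exact h2
  intro g'
  obtain ⟨x', hx', y', hy', rfl⟩ := h g'
  have hmem : x' * y' ∈ (P : Subgroup G) := (P : Subgroup G).mul_mem (hXP hx') (hYP hy')
  obtain ⟨k, hk⟩ := P.isPGroup' ⟨x' * y', hmem⟩
  exact ⟨k, congrArg Subtype.val hk⟩

/-- the `p`-elements of a commutative subgroup -/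
def pPart (p : ℕ) (Z : Subgroup G) (hZc : ∀ a ∈ Z, ∀ b ∈ Z, a * b = b * a) : Subgroup G where
  carrier := {z | z ∈ Z ∧ ∃ k : ℕ, z ^ p ^ k = 1}
  one_mem' := ⟨Z.one_mem, 0, one_pow _⟩
  mul_mem' := by
    rintro a b ⟨ha, ka, hka⟩ ⟨hb, kb, hkb⟩
    refine ⟨Z.mul_mem ha hb, ka + kb, ?_⟩
    have hc : Commute a b := hZc a ha b hb
    rw [hc.mul_pow, pow_add, pow_mul, hka, one_pow, mul_comm (p ^ ka) (p ^ kb), pow_mul, hkb,
      one_pow, mul_one]
  inv_mem' := by
    rintro a ⟨ha, ka, hka⟩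
    exact ⟨Z.inv_mem ha, ka, by rw [inv_pow, hka, inv_one]⟩

theorem mem_pPart {p : ℕ} {Z : Subgroup G} {hZc : ∀ a ∈ Z, ∀ b ∈ Z, a * b = b * a} {z : G} :
    z ∈ pPart p Z hZc ↔ z ∈ Z ∧ ∃ k : ℕ, z ^ p ^ k = 1 := Iff.rfl

theorem mem_pCore_of_abelian_normal {p : ℕ} (Z : Subgroup G) (hZn : Z.Normal)
    (hZc : ∀ a ∈ Z, ∀ b ∈ Z, a * b = b * a) {y : G} (hy : y ∈ Z) {k : ℕ} (hk : y ^ p ^ k = 1) :
    y ∈ Cfsg.pCore p G := by
  have hNn : (pPart p Z hZc).Normal := by
    constructor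
    intro a ha g
    obtain ⟨ha, ka, hka⟩ := mem_pPart.mp ha
    refine mem_pPart.mpr ⟨hZn.conj_mem a ha g, ka, ?_⟩
    rw [conj_pow, hka, mul_one, mul_inv_cancel]
  have hNp : IsPGroup p (pPart p Z hZc) := by
    rintro ⟨a, ha⟩
    obtain ⟨-, ka, hka⟩ := mem_pPart.mp ha
    exact ⟨ka, Subtype.ext hka⟩
  exact Helper14.le_pCore hNn hNp (mem_pPart.mpr ⟨hy, k, hk⟩)

theorem central_pelement_mem_pCore {p : ℕ} (K : Subgroup G) (hK : K.Normal) {y : G} (hyK : y ∈ K)
    (hyc : ∀ z ∈ K, z * y = y * z) {k : ℕ} (hk : y ^ p ^ k = 1) : y ∈ Cfsg.pCore p G := by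
  have hZc : ∀ a ∈ K ⊓ Subgroup.centralizer (K : Set G),
      ∀ b ∈ K ⊓ Subgroup.centralizer (K : Set G), a * b = b * a := by
    intro a ha b hb
    exact (Subgroup.mem_centralizer_iff.mp (Subgroup.mem_inf.mp hb).2) a (Subgroup.mem_inf.mp ha).1
  have hZn : (K ⊓ Subgroup.centralizer (K : Set G)).Normal := by
    constructor
    intro z hz g
    obtain ⟨hz1, hz2⟩ := Subgroup.mem_inf.mp hz
    refine Subgroup.mem_inf.mpr ⟨hK.conj_mem z hz1 g, ?_⟩
    rw [Subgroup.mem_centralizer_iff]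
    intro w hw
    have hw' : g⁻¹ * w * g ∈ K := by
      have := hK.conj_mem w hw g⁻¹
      rwa [inv_inv] at this
    have h1 := (Subgroup.mem_centralizer_iff.mp hz2) (g⁻¹ * w * g) hw'
    calc w * (g * z * g⁻¹) = g * (g⁻¹ * w * g * z) * g⁻¹ := by group
      _ = g * (z * (g⁻¹ * w * g)) * g⁻¹ := by rw [h1]
      _ = g * z * g⁻¹ * w := by group
  have hyZ : y ∈ K ⊓ Subgroup.centralizer (K : Set G) := by
    refine Subgroup.mem_inf.mpr ⟨hyK, ?_⟩
    rw [Subgroup.mem_centralizer_iff]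
    intro w hw
    exact hyc w hw
  exact mem_pCore_of_abelian_normal _ hZn hZc hyZ hk

theorem map_le_pCore {p : ℕ} (M : Subgroup G) (hM : M.Normal) (N' : Subgroup M) (hN' : N'.Normal)
    (hp : IsPGroup p N') : N'.map M.subtype ≤ Cfsg.pCore p G := by
  apply Helper14.subnormal_pgroup_le_pCore
  · refine Subgroup.IsSubnormal.step _ M (Subgroup.map_subtype_le N') hM.isSubnormal ?_
    have e : (N'.map M.subtype).subgroupOf M = N' :=
      Subgroup.comap_map_eq_self_of_injective (Subgroup.subtype_injective M) N'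
    rw [e]; exact hN'
  · exact hp.map M.subtype

theorem card_quot_lt {G : Type*} [Group G] [Finite G] (N : Subgroup G) [N.Normal] (hN : N ≠ ⊥) :
    Nat.card (G ⧸ N) < Nat.card G := by
  have h1 := Subgroup.card_eq_card_quotient_mul_card_subgroup N
  have h2 : 1 < Nat.card N := (Subgroup.one_lt_card_iff_ne_bot N).mpr hN
  have h3 : 0 < Nat.card (G ⧸ N) := Nat.card_pos
  rw [h1]
  exact lt_mul_of_one_lt_right h3 h2

end basic

theorem lemmaS_core (p : ℕ) [Fact p.Prime] (G : Type u) [Group G] [Finite G]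
    (ih : ∀ (M : Type u) [Group M] [Finite M], Nat.card M < Nat.card G →
      ∀ (X Y : Subgroup M), IsPGroup p X → IsPGroup p Y →
      (∀ g : M, SP X (MulAut.conj g • Y)) → ⁅X, Y⁆ ≤ Cfsg.pCore p M)
    (hO : Cfsg.pCore p G = ⊥)
    (X Y : Subgroup G) (hX : IsPGroup p X) (hY : IsPGroup p Y)
    (h : ∀ g : G, SP X (MulAut.conj g • Y))
    (M : Subgroup G) (hMn : M.Normal) (hMt : M ≠ ⊤) (hXM : X ≤ M) :
    ∀ x ∈ X, ∀ y ∈ Y, x * y = y * x := by
  haveI := hMn
  have hcardM : Nat.card M < Nat.card G :=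
    lt_of_le_of_ne (Subgroup.card_le_card_group M)
      (fun e => hMt ((Subgroup.card_eq_iff_eq_top M).mp e))
  have hOM : Cfsg.pCore p M = ⊥ := by
    have h1 := map_le_pCore (p := p) M hMn (Cfsg.pCore p M) (Helper14.pCore_normal p M)
      (Helper14.pCore_isPGroup p M)
    rw [hO] at h1
    rw [eq_bot_iff]
    intro z hz
    have h2 : (z : G) ∈ (⊥ : Subgroup G) := h1 (Subgroup.mem_map_of_mem M.subtype hz)
    rw [Subgroup.mem_bot] at h2 ⊢
    exact Subtype.ext h2
  have hstar : ∀ g : G, ∀ x ∈ X, ∀ y ∈ (MulAut.conj g • Y : Subgroup G), y ∈ M →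
      x * y = y * x := by
    intro g x hx y hy hyM
    have hih := ih M hcardM (X.subgroupOf M) ((MulAut.conj g • Y : Subgroup G).subgroupOf M)
      hX.comap_subtype (isPGroup_conj_smul hY g).comap_subtype (by
        intro m
        rw [conj_smul_subgroupOf, conj_smul_smul]
        exact (h (m * g)).subgroupOf M hXM)
    rw [hOM] at hih
    have hc : ⁅(⟨x, hXM hx⟩ : ↥M), (⟨y, hyM⟩ : ↥M)⁆ ∈ (⊥ : Subgroup ↥M) :=
      hih (Subgroup.commutator_mem_commutator (Subgroup.mem_subgroupOf.mpr hx)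
        (Subgroup.mem_subgroupOf.mpr hy))
    rw [Subgroup.mem_bot, commutatorElement_def] at hc
    have hc' : x * y * x⁻¹ * y⁻¹ = 1 := congrArg Subtype.val hc
    calc x * y = (x * y * x⁻¹ * y⁻¹) * (y * x) := by group
      _ = y * x := by rw [hc', one_mul]
  have hMX_le : Subgroup.normalClosure (X : Set G) ≤ M := Subgroup.normalClosure_le_normal hXM
  have hcent : ∀ g : G, ∀ y ∈ (MulAut.conj g • Y : Subgroup G), y ∈ M →
      ∀ z ∈ Subgroup.normalClosure (X : Set G), z * y = y * z := by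
    intro g y hy hyM z hz
    have hle : Subgroup.closure (Group.conjugatesOfSet (X : Set G)) ≤ Subgroup.centralizer {y} := by
      rw [Subgroup.closure_le]
      intro w hw
      rw [Group.mem_conjugatesOfSet_iff] at hw
      obtain ⟨a, ha, hconj⟩ := hw
      rw [isConj_iff] at hconj
      obtain ⟨c, rfl⟩ := hconj
      rw [SetLike.mem_coe, Subgroup.mem_centralizer_iff]
      intro y' hy'
      rw [Set.mem_singleton_iff] at hy'
      subst hy'
      have hy2 : c⁻¹ * y' * c ∈ (MulAut.conj (c⁻¹ * g) • Y : Subgroup G) := by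
        rw [mem_conj_smul] at hy ⊢
        have e : (c⁻¹ * g)⁻¹ * (c⁻¹ * y' * c) * (c⁻¹ * g) = g⁻¹ * y' * g := by group
        rw [e]; exact hy
      have hy2M : c⁻¹ * y' * c ∈ M := by
        have := hMn.conj_mem y' hyM c⁻¹
        rwa [inv_inv] at this
      have h3 := hstar (c⁻¹ * g) a ha (c⁻¹ * y' * c) hy2 hy2M
      calc y' * (c * a * c⁻¹) = c * (c⁻¹ * y' * c * a) * c⁻¹ := by group
        _ = c * (a * (c⁻¹ * y' * c)) * c⁻¹ := by rw [h3]
        _ = c * a * c⁻¹ * y' := by group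
    have h4 := hle hz
    rw [Subgroup.mem_centralizer_iff] at h4
    exact (h4 y (Set.mem_singleton y)).symm
  have hnorm : ∀ g : G, ∀ y ∈ (MulAut.conj g • Y : Subgroup G), ∀ x ∈ X, y * x * y⁻¹ ∈ X := by
    intro g y hy x hx
    obtain ⟨S, hS⟩ := h g
    have hxMX : x ∈ Subgroup.normalClosure (X : Set G) := Subgroup.subset_normalClosure hx
    have hcMX : x⁻¹ * (y * x * y⁻¹) ∈ Subgroup.normalClosure (X : Set G) :=
      Subgroup.mul_mem _ (Subgroup.inv_mem _ hxMX)
        (Subgroup.normalClosure_normal.conj_mem x hxMX y)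
    have hcS : x⁻¹ * (y * x * y⁻¹) ∈ S :=
      S.mul_mem (S.inv_mem (sp_left hS hx))
        (S.mul_mem (S.mul_mem (sp_right hS hy) (sp_left hS hx)) (S.inv_mem (sp_right hS hy)))
    obtain ⟨x1, hx1, y1, hy1, hxy⟩ := sp_dec hS hcS
    have hy1MX : y1 ∈ Subgroup.normalClosure (X : Set G) := by
      have e : y1 = x1⁻¹ * (x⁻¹ * (y * x * y⁻¹)) := by rw [← hxy]; group
      rw [e]
      exact Subgroup.mul_mem _ (Subgroup.inv_mem _ (Subgroup.subset_normalClosure hx1)) hcMX
    have hy1M : y1 ∈ M := hMX_le hy1MX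
    obtain ⟨k, hk⟩ := (isPGroup_conj_smul hY g) ⟨y1, hy1⟩
    have hk' : y1 ^ p ^ k = 1 := congrArg Subtype.val hk
    have hy1O : y1 ∈ Cfsg.pCore p G :=
      central_pelement_mem_pCore (Subgroup.normalClosure (X : Set G))
        Subgroup.normalClosure_normal hy1MX (fun z hz => hcent g y1 hy1 hy1M z hz) hk'
    rw [hO, Subgroup.mem_bot] at hy1O
    have hcX : x⁻¹ * (y * x * y⁻¹) ∈ X := by rw [← hxy, hy1O, mul_one]; exact hx1
    have e : y * x * y⁻¹ = x * (x⁻¹ * (y * x * y⁻¹)) := by group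
    rw [e]; exact X.mul_mem hx hcX
  have hYG : ∀ n ∈ Subgroup.normalClosure (Y : Set G), ∀ x ∈ X, n * x * n⁻¹ ∈ X := by
    have hle : Subgroup.closure (Group.conjugatesOfSet (Y : Set G)) ≤
        Subgroup.normalizer (X : Set G) := by
      rw [Subgroup.closure_le]
      intro w hw
      rw [Group.mem_conjugatesOfSet_iff] at hw
      obtain ⟨b, hb, hconj⟩ := hw
      rw [isConj_iff] at hconj
      obtain ⟨c, rfl⟩ := hconj
      have hw1 : c * b * c⁻¹ ∈ (MulAut.conj c • Y : Subgroup G) := by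
        rw [mem_conj_smul]
        have e : c⁻¹ * (c * b * c⁻¹) * c = b := by group
        rw [e]; exact hb
      rw [SetLike.mem_coe, Subgroup.mem_normalizer_iff]
      intro x
      constructor
      · intro hx; exact hnorm c _ hw1 x hx
      · intro hx
        have h5 := hnorm c _ (Subgroup.inv_mem _ hw1) _ hx
        have e : (c * b * c⁻¹)⁻¹ * ((c * b * c⁻¹) * x * (c * b * c⁻¹)⁻¹) * (c * b * c⁻¹)⁻¹⁻¹ = x := by
          group
        rw [e] at h5; exact h5
    intro n hn x hx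
    exact (Subgroup.mem_normalizer_iff.mp (hle hn) x).mp hx
  have hD : ∀ d ∈ X, d ∈ Subgroup.normalClosure (Y : Set G) → d = 1 := by
    intro d hdX hdY
    have hNn : ((X ⊓ Subgroup.normalClosure (Y : Set G)).subgroupOf
        (Subgroup.normalClosure (Y : Set G))).Normal := by
      constructor
      intro a ha n
      rw [Subgroup.mem_subgroupOf] at ha ⊢
      obtain ⟨ha1, ha2⟩ := Subgroup.mem_inf.mp ha
      refine Subgroup.mem_inf.mpr ⟨?_, ?_⟩
      · exact hYG n n.2 a ha1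
      · exact (n * a * n⁻¹).2
    have hNp : IsPGroup p ((X ⊓ Subgroup.normalClosure (Y : Set G)).subgroupOf
        (Subgroup.normalClosure (Y : Set G))) := by
      have h1 : IsPGroup p (X ⊓ Subgroup.normalClosure (Y : Set G) : Subgroup G) :=
        hX.to_le inf_le_left
      exact h1.comap_subtype
    have h2 := map_le_pCore (p := p) (Subgroup.normalClosure (Y : Set G))
      Subgroup.normalClosure_normal _ hNn hNp
    rw [hO] at h2
    have h3 : d ∈ (⊥ : Subgroup G) := by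
      apply h2
      refine Subgroup.mem_map.mpr ⟨⟨d, hdY⟩, ?_, rfl⟩
      exact Subgroup.mem_subgroupOf.mpr (Subgroup.mem_inf.mpr ⟨hdX, hdY⟩)
    exact Subgroup.mem_bot.mp h3
  intro x hx y hy
  have hy' : y ∈ (MulAut.conj (1 : G) • Y : Subgroup G) := by
    rw [mem_conj_smul]
    have e : (1 : G)⁻¹ * y * 1 = y := by group
    rw [e]; exact hy
  have h1 : y * x⁻¹ * y⁻¹ ∈ X := hnorm 1 y hy' x⁻¹ (X.inv_mem hx)
  have hcX : x * (y * x⁻¹ * y⁻¹) ∈ X := X.mul_mem hx h1
  have hyYG : y ∈ Subgroup.normalClosure (Y : Set G) := Subgroup.subset_normalClosure hy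
  have hcY : x * (y * x⁻¹ * y⁻¹) ∈ Subgroup.normalClosure (Y : Set G) := by
    have e : x * (y * x⁻¹ * y⁻¹) = (x * y * x⁻¹) * y⁻¹ := by group
    rw [e]
    exact Subgroup.mul_mem _ (Subgroup.normalClosure_normal.conj_mem y hyYG x)
      (Subgroup.inv_mem _ hyYG)
  have h2 := hD _ hcX hcY
  calc x * y = (x * (y * x⁻¹ * y⁻¹)) * (y * x) := by group
    _ = y * x := by rw [h2, one_mul]

theorem lemmaS_aux (p : ℕ) [Fact p.Prime] : ∀ (n : ℕ) (G : Type u) [Group G] [Finite G],
    Nat.card G = n → ∀ (X Y : Subgroup G), IsPGroup p X → IsPGroup p Y →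
    (∀ g : G, SP X (MulAut.conj g • Y)) → ⁅X, Y⁆ ≤ Cfsg.pCore p G := by
  intro n
  induction n using Nat.strong_induction_on with
  | _ n ih =>
    intro G _ _ hn X Y hX hY h
    by_cases hO : Cfsg.pCore p G = ⊥
    · have hcomm : ∀ x ∈ X, ∀ y ∈ Y, x * y = y * x := by
        by_cases hXb : X = ⊥
        · intro x hx y hy
          rw [hXb, Subgroup.mem_bot] at hx
          rw [hx, one_mul, mul_one]
        by_cases hYb : Y = ⊥
        · intro x hx y hy
          rw [hYb, Subgroup.mem_bot] at hy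
          rw [hy, one_mul, mul_one]
        have hnotp : ¬ IsPGroup p G := by
          intro hG
          have h1 : (⊤ : Subgroup G) ≤ Cfsg.pCore p G :=
            Helper14.le_pCore inferInstance (hG.to_subgroup ⊤)
          rw [hO] at h1
          exact hXb (eq_bot_iff.mpr (le_top.trans h1))
        have h566 : ∀ g : G, ∃ S : Subgroup G, S ≠ ⊤ ∧
            (S : Set G) = (X : Set G) * ((MulAut.conj g • Y : Subgroup G) : Set G) := by
          intro g
          obtain ⟨S, hS⟩ := h g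
          refine ⟨S, ?_, hS⟩
          intro hST
          apply hnotp
          apply isPGroup_of_prod hX (isPGroup_conj_smul hY g)
          intro z
          exact sp_dec hS (by rw [hST]; exact Subgroup.mem_top z)
        obtain ⟨M, hMn, hMt, hM⟩ := Cfsg.Agent.S0566.result X Y hXb hYb h566
        have ih' : ∀ (M : Type u) [Group M] [Finite M], Nat.card M < Nat.card G →
            ∀ (X Y : Subgroup M), IsPGroup p X → IsPGroup p Y →
            (∀ g : M, SP X (MulAut.conj g • Y)) → ⁅X, Y⁆ ≤ Cfsg.pCore p M := by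
          intro M _ _ hlt X' Y' hX' hY' h'
          exact ih (Nat.card M) (by rw [← hn]; exact hlt) M rfl X' Y' hX' hY' h'
        rcases hM with hM | hM
        · exact lemmaS_core p G ih' hO X Y hX hY h M hMn hMt hM
        · have hsw : ∀ g : G, SP Y (MulAut.conj g • X) := by
            intro g
            have h1 := ((h g⁻¹).conj g).symm
            rw [conj_smul_smul, mul_inv_cancel, map_one, one_smul] at h1
            exact h1
          have h2 := lemmaS_core p G ih' hO Y X hY hX hsw M hMn hMt hM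
          intro x hx y hy
          exact (h2 y hy x hx).symm
      rw [hO, Subgroup.commutator_le]
      intro x hx y hy
      rw [Subgroup.mem_bot, commutatorElement_def, hcomm x hx y hy]
      group
    · have hNn : (Cfsg.pCore p G).Normal := Helper14.pCore_normal p G
      have hlt : Nat.card (G ⧸ Cfsg.pCore p G) < n := by rw [← hn]; exact card_quot_lt _ hO
      have hq := ih _ hlt (G ⧸ Cfsg.pCore p G) rfl
        (X.map (QuotientGroup.mk' (Cfsg.pCore p G))) (Y.map (QuotientGroup.mk' (Cfsg.pCore p G)))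
        (hX.map _) (hY.map _) (by
          intro gbar
          obtain ⟨g, rfl⟩ := QuotientGroup.mk'_surjective (Cfsg.pCore p G) gbar
          rw [conj_smul_map]
          exact (h g).map _)
      rw [← Subgroup.map_commutator, Subgroup.map_le_iff_le_comap] at hq
      refine hq.trans ?_
      apply Helper14.le_pCore
      · exact Subgroup.Normal.comap (Helper14.pCore_normal p _) _
      · apply IsPGroup.comap_of_ker_isPGroup (Helper14.pCore_isPGroup p _)
        rw [QuotientGroup.ker_mk']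
        exact Helper14.pCore_isPGroup p G

/-- **Lemma S** (Kegel): if `X`, `Y` are `p`-subgroups of a finite group with `X * Y^g` a subgroup
for every `g`, then `[X, Y] ≤ O_p(G)`. -/
theorem lemmaS {G : Type u} [Group G] [Finite G] (p : ℕ) [Fact p.Prime] (X Y : Subgroup G)
    (hX : IsPGroup p X) (hY : IsPGroup p Y) (h : ∀ g : G, SP X (MulAut.conj g • Y)) :
    ⁅X, Y⁆ ≤ Cfsg.pCore p G :=
  lemmaS_aux p _ G rfl X Y hX hY h

end Cfsg.Agent.Helper12.KW
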