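import Mathlib
import Cfsg.Agent.Helper12.KWLemmaS
import Cfsg.Agent.S0560

set_option autoImplicit false
open scoped Pointwise commutatorElement

namespace Cfsg.Agent.Helper12.KW

universe u

theorem nilpotent_map {G H : Type*} [Group G] [Group H] (f : G →* H) (A : Subgroup G)
    (hA : Group.IsNilpotent A) : Group.IsNilpotent (A.map f) :=
  Group.nilpotent_of_surjective (f.subgroupMap A) (f.subgroupMap_surjective A)

theorem sylow_normal_of_nilpotent {G : Type*} [Group G] [Finite G] (hG : Group.IsNilpotent G)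
    (p : ℕ) [Fact p.Prime] (P : Sylow p G) : (P : Subgroup G).Normal := by
  have h := (Group.isNilpotent_of_finite_tfae (G := G)).out 0 3
  exact h.mp hG p inferInstance P

theorem coatom_normal_of_nilpotent {G : Type*} [Group G] [Finite G] (hG : Group.IsNilpotent G)
    (M : Subgroup G) (hM : IsCoatom M) : M.Normal := by
  have h := (Group.isNilpotent_of_finite_tfae (G := G)).out 0 2
  exact h.mp hG M hM

theorem fact_map {G H : Type*} [Group G] [Group H] (f : G →* H) (hf : Function.Surjective f)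
    (A B : Subgroup G) (hAB : ∀ g : G, ∃ a ∈ A, ∃ b ∈ B, g = a * b) :
    ∀ h : H, ∃ a ∈ A.map f, ∃ b ∈ B.map f, h = a * b := by
  intro h
  obtain ⟨g, rfl⟩ := hf h
  obtain ⟨a, ha, b, hb, rfl⟩ := hAB g
  exact ⟨f a, Subgroup.mem_map_of_mem f ha, f b, Subgroup.mem_map_of_mem f hb, map_mul f a b⟩

theorem kw_step {G : Type u} [Group G] [Finite G] (p : ℕ) [Fact p.Prime]
    (A B : Subgroup G) (hAB : ∀ g : G, ∃ a ∈ A, ∃ b ∈ B, g = a * b)
    (X Y : Subgroup G) (hX : IsPGroup p X) (hY : IsPGroup p Y)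
    (hXA : ∀ a ∈ A, ∀ x ∈ X, a * x * a⁻¹ ∈ X) (hYB : ∀ b ∈ B, ∀ y ∈ Y, b * y * b⁻¹ ∈ Y)
    (hXY : SP X Y) (hO : Cfsg.pCore p G = ⊥) :
    ∀ n1 ∈ Subgroup.normalClosure (X : Set G), ∀ n2 ∈ Subgroup.normalClosure (Y : Set G),
      n1 * n2 = n2 * n1 := by
  have hSP : ∀ g : G, SP X (MulAut.conj g • Y) := by
    intro g
    obtain ⟨a, ha, b, hb, rfl⟩ := hAB g
    have h1 := hXY.conj a
    rw [conj_smul_eq_self A X hXA ha] at h1
    rw [← conj_smul_smul, conj_smul_eq_self B Y hYB hb]
    exact h1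
  have hcomm : ∀ g₀ : G, ∀ x ∈ X, ∀ y ∈ (MulAut.conj g₀ • Y : Subgroup G), x * y = y * x := by
    intro g₀ x hx y hy
    have h1 := lemmaS p X (MulAut.conj g₀ • Y) hX (isPGroup_conj_smul hY g₀)
      (fun g => by rw [conj_smul_smul]; exact hSP (g * g₀))
    rw [hO] at h1
    have h2 : ⁅x, y⁆ ∈ (⊥ : Subgroup G) := h1 (Subgroup.commutator_mem_commutator hx hy)
    rw [Subgroup.mem_bot, commutatorElement_def] at h2
    calc x * y = (x * y * x⁻¹ * y⁻¹) * (y * x) := by group
      _ = y * x := by rw [h2, one_mul]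
  have hcc : ∀ x ∈ X, ∀ y ∈ Y, ∀ c d : G,
      (c * x * c⁻¹) * (d * y * d⁻¹) = (d * y * d⁻¹) * (c * x * c⁻¹) := by
    intro x hx y hy c d
    have hy' : c⁻¹ * d * y * d⁻¹ * c ∈ (MulAut.conj (c⁻¹ * d) • Y : Subgroup G) := by
      rw [mem_conj_smul]
      have e : (c⁻¹ * d)⁻¹ * (c⁻¹ * d * y * d⁻¹ * c) * (c⁻¹ * d) = y := by group
      rw [e]; exact hy
    have h1 := hcomm (c⁻¹ * d) x hx _ hy'
    calc (c * x * c⁻¹) * (d * y * d⁻¹) = c * (x * (c⁻¹ * d * y * d⁻¹ * c)) * c⁻¹ := by group
      _ = c * ((c⁻¹ * d * y * d⁻¹ * c) * x) * c⁻¹ := by rw [h1]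
      _ = (d * y * d⁻¹) * (c * x * c⁻¹) := by group
  have hle2 : ∀ w ∈ Group.conjugatesOfSet (X : Set G),
      Subgroup.closure (Group.conjugatesOfSet (Y : Set G)) ≤ Subgroup.centralizer {w} := by
    intro w hw
    rw [Group.mem_conjugatesOfSet_iff] at hw
    obtain ⟨x, hx, hconj⟩ := hw
    rw [isConj_iff] at hconj
    obtain ⟨c, rfl⟩ := hconj
    rw [Subgroup.closure_le]
    intro v hv
    rw [Group.mem_conjugatesOfSet_iff] at hv
    obtain ⟨y, hy, hconj⟩ := hv
    rw [isConj_iff] at hconj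
    obtain ⟨d, rfl⟩ := hconj
    rw [SetLike.mem_coe, Subgroup.mem_centralizer_iff]
    intro w' hw'
    rw [Set.mem_singleton_iff] at hw'
    subst hw'
    exact hcc x hx y hy c d
  have hle1 : Subgroup.closure (Group.conjugatesOfSet (X : Set G)) ≤
      Subgroup.centralizer (Subgroup.normalClosure (Y : Set G) : Set G) := by
    rw [Subgroup.closure_le]
    intro w hw
    rw [SetLike.mem_coe, Subgroup.mem_centralizer_iff]
    intro v hv
    have h3 := hle2 w hw hv
    rw [Subgroup.mem_centralizer_iff] at h3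
    exact (h3 w (Set.mem_singleton w)).symm
  intro n1 hn1 n2 hn2
  have h4 := hle1 hn1
  rw [Subgroup.mem_centralizer_iff] at h4
  exact (h4 n2 hn2).symm

/-- Kegel–Wielandt in general, from the coprime case `hW`. -/
theorem kw_aux
    (hW : ∀ (G : Type u) [Group G] [Finite G] (A B : Subgroup G), Group.IsNilpotent A →
      Group.IsNilpotent B → (Nat.card A).Coprime (Nat.card B) →
      (∀ g : G, ∃ a ∈ A, ∃ b ∈ B, g = a * b) → Group.IsSolvable G) :
    ∀ (n : ℕ) (G : Type u) [Group G] [Finite G], Nat.card G = n → ∀ (A B : Subgroup G),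
      Group.IsNilpotent A → Group.IsNilpotent B → (∀ g : G, ∃ a ∈ A, ∃ b ∈ B, g = a * b) →
      Group.IsSolvable G := by
  intro n
  induction n using Nat.strong_induction_on with
  | _ n ih =>
    intro G _ _ hn A B hA hB hAB
    have hquot : ∀ (N : Subgroup G) [N.Normal], N ≠ ⊥ → Group.IsSolvable (G ⧸ N) := by
      intro N _ hN
      have hlt : Nat.card (G ⧸ N) < n := by rw [← hn]; exact card_quot_lt N hN
      exact ih _ hlt (G ⧸ N) rfl (A.map (QuotientGroup.mk' N)) (B.map (QuotientGroup.mk' N))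
        (nilpotent_map _ A hA) (nilpotent_map _ B hB)
        (fact_map _ (QuotientGroup.mk'_surjective N) A B hAB)
    have hsolvN : ∀ (N : Subgroup G), N.Normal → N ≠ ⊥ → Group.IsSolvable N →
        Group.IsSolvable G := by
      intro N hNn hN hNs
      haveI := hNn
      haveI := hquot N hN
      haveI := hNs
      exact Group.isSolvable_of_ker_le_range N.subtype (QuotientGroup.mk' N)
        (le_of_eq (by rw [QuotientGroup.ker_mk', Subgroup.range_subtype]))
    by_cases hcop : (Nat.card A).Coprime (Nat.card B)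
    · exact hW G A B hA hB hcop hAB
    obtain ⟨p, hp, hpA, hpB⟩ := Nat.Prime.not_coprime_iff_dvd.mp hcop
    haveI : Fact p.Prime := ⟨hp⟩
    by_cases hO : Cfsg.pCore p G = ⊥
    swap
    · apply hsolvN (Cfsg.pCore p G) (Helper14.pCore_normal p G) hO
      haveI := (Helper14.pCore_isPGroup p G).isNilpotent
      infer_instance
    obtain ⟨P, Q, R, hR⟩ := Cfsg.Agent.S0560.result A B hAB p
    have hPn : (P : Subgroup A).Normal := sylow_normal_of_nilpotent hA p P
    have hQn : (Q : Subgroup B).Normal := sylow_normal_of_nilpotent hB p Q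
    have hXA : ∀ a ∈ A, ∀ x ∈ (P : Subgroup A).map A.subtype,
        a * x * a⁻¹ ∈ (P : Subgroup A).map A.subtype := by
      intro a ha x hx
      obtain ⟨x', hx', rfl⟩ := Subgroup.mem_map.mp hx
      exact Subgroup.mem_map.mpr ⟨⟨a, ha⟩ * x' * ⟨a, ha⟩⁻¹, hPn.conj_mem x' hx' ⟨a, ha⟩, rfl⟩
    have hYB : ∀ b ∈ B, ∀ y ∈ (Q : Subgroup B).map B.subtype,
        b * y * b⁻¹ ∈ (Q : Subgroup B).map B.subtype := by
      intro b hb y hy
      obtain ⟨y', hy', rfl⟩ := Subgroup.mem_map.mp hy
      exact Subgroup.mem_map.mpr ⟨⟨b, hb⟩ * y' * ⟨b, hb⟩⁻¹, hQn.conj_mem y' hy' ⟨b, hb⟩, rfl⟩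
    have hXne : (P : Subgroup A).map A.subtype ≠ ⊥ := by
      rw [Ne, Subgroup.map_eq_bot_iff_of_injective _ A.subtype_injective]
      exact P.ne_bot_of_dvd_card hpA
    have hYne : (Q : Subgroup B).map B.subtype ≠ ⊥ := by
      rw [Ne, Subgroup.map_eq_bot_iff_of_injective _ B.subtype_injective]
      exact Q.ne_bot_of_dvd_card hpB
    have hcomm := kw_step p A B hAB _ _ (P.isPGroup'.map A.subtype) (Q.isPGroup'.map B.subtype)
      hXA hYB ⟨R, hR⟩ hO
    have hN1 : Subgroup.normalClosure (((P : Subgroup A).map A.subtype : Subgroup G) : Set G) ≠ ⊥ :=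
      fun h => hXne (eq_bot_iff.mpr (h ▸ Subgroup.le_normalClosure))
    have hN2 : Subgroup.normalClosure (((Q : Subgroup B).map B.subtype : Subgroup G) : Set G) ≠ ⊥ :=
      fun h => hYne (eq_bot_iff.mpr (h ▸ Subgroup.le_normalClosure))
    by_cases hZ : Subgroup.normalClosure (((P : Subgroup A).map A.subtype : Subgroup G) : Set G) ⊓
        Subgroup.normalClosure (((Q : Subgroup B).map B.subtype : Subgroup G) : Set G) = ⊥
    · haveI := hquot _ hN1
      haveI := hquot _ hN2
      apply Group.isSolvable_of_isSolvable_injective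
        (f := (QuotientGroup.mk' (Subgroup.normalClosure
          (((P : Subgroup A).map A.subtype : Subgroup G) : Set G))).prod
          (QuotientGroup.mk' (Subgroup.normalClosure
          (((Q : Subgroup B).map B.subtype : Subgroup G) : Set G))))
      rw [injective_iff_map_eq_one]
      intro g hg
      rw [MonoidHom.prod_apply, Prod.mk_eq_one] at hg
      have h1 := (QuotientGroup.eq_one_iff g).mp hg.1
      have h2 := (QuotientGroup.eq_one_iff g).mp hg.2
      have h3 : g ∈ (⊥ : Subgroup G) := hZ ▸ Subgroup.mem_inf.mpr ⟨h1, h2⟩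
      exact Subgroup.mem_bot.mp h3
    · apply hsolvN _ inferInstance hZ
      apply Group.isSolvable_of_comm
      rintro ⟨a, ha⟩ ⟨b, hb⟩
      apply Subtype.ext
      exact hcomm a (Subgroup.mem_inf.mp ha).1 b (Subgroup.mem_inf.mp hb).2

theorem sup_eq_top_of_map_eq_top {G : Type*} [Group G] (N A : Subgroup G) [N.Normal]
    (e : A.map (QuotientGroup.mk' N) = ⊤) : A ⊔ N = ⊤ := by
  rw [eq_top_iff]
  intro g _
  have h1 : QuotientGroup.mk' N g ∈ A.map (QuotientGroup.mk' N) := by
    rw [e]; exact Subgroup.mem_top _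
  obtain ⟨a, ha, hag⟩ := Subgroup.mem_map.mp h1
  have h2 : a⁻¹ * g ∈ N := QuotientGroup.eq.mp hag
  have e2 : g = a * (a⁻¹ * g) := by group
  rw [e2]
  exact Subgroup.mul_mem_sup ha h2

theorem exists_normal_of_nilpotent {G : Type*} [Group G] [Finite G] (hG : Group.IsNilpotent G)
    (A : Subgroup G) (hA : A ≠ ⊤) : ∃ N : Subgroup G, N.Normal ∧ N ≠ ⊤ ∧ A ≤ N := by
  obtain ⟨M, hM, hAM⟩ := (eq_top_or_exists_le_coatom A).resolve_left hA
  exact ⟨M, coatom_normal_of_nilpotent hG M hM, hM.1, hAM⟩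

theorem exists_normal_abelian {G : Type*} [Group G] [hs : Group.IsSolvable G] [Nontrivial G] :
    ∃ D : Subgroup G, D.Normal ∧ D ≠ ⊥ ∧ ∀ a ∈ D, ∀ b ∈ D, a * b = b * a := by
  classical
  have hex : ∃ n, derivedSeries G n = ⊥ := hs.solvable
  obtain ⟨m, hm, hmin⟩ : ∃ m, derivedSeries G m = ⊥ ∧ ∀ j, derivedSeries G j = ⊥ → m ≤ j :=
    ⟨Nat.find hex, Nat.find_spec hex, fun j hj => Nat.find_min' hex hj⟩
  have hm0 : m ≠ 0 := by
    intro h0
    rw [h0, derivedSeries_zero] at hm
    exact top_ne_bot hm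
  obtain ⟨k, hk⟩ := Nat.exists_eq_succ_of_ne_zero hm0
  have hk1 : derivedSeries G k ≠ ⊥ := by
    intro h
    have := hmin k h
    omega
  refine ⟨derivedSeries G k, inferInstance, hk1, ?_⟩
  intro a ha b hb
  have h1 : ⁅a, b⁆ ∈ derivedSeries G (k + 1) := by
    rw [derivedSeries_succ]; exact Subgroup.commutator_mem_commutator ha hb
  rw [hk] at hm
  rw [hm, Subgroup.mem_bot, commutatorElement_def] at h1
  calc a * b = (a * b * a⁻¹ * b⁻¹) * (b * a) := by group
    _ = b * a := by rw [h1, one_mul]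

theorem exists_pCore_ne_bot {G : Type*} [Group G] [Finite G] [Group.IsSolvable G] [Nontrivial G] :
    ∃ p : ℕ, p.Prime ∧ Cfsg.pCore p G ≠ ⊥ := by
  obtain ⟨D, hDn, hDb, hDc⟩ := exists_normal_abelian (G := G)
  have hcard : Nat.card D ≠ 1 := by
    intro h
    exact hDb (Subgroup.card_eq_one.mp h)
  obtain ⟨p, hp, hpd⟩ := Nat.exists_prime_and_dvd hcard
  haveI : Fact p.Prime := ⟨hp⟩
  obtain ⟨x, hx⟩ := exists_prime_orderOf_dvd_card' p hpd
  refine ⟨p, hp, ?_⟩
  intro hbot
  have h1 : x ^ p = 1 := by rw [← hx]; exact pow_orderOf_eq_one x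
  have h2 : (x : G) ^ p ^ 1 = 1 := by rw [pow_one]; exact congrArg Subtype.val h1
  have hy : (x : G) ∈ Cfsg.pCore p G := mem_pCore_of_abelian_normal D hDn hDc x.2 h2
  rw [hbot, Subgroup.mem_bot] at hy
  have hx1 : x = 1 := Subtype.ext hy
  rw [hx1, orderOf_one] at hx
  exact hp.one_lt.ne hx

theorem card_dvd_of_sup_top {G : Type*} [Group G] [Finite G] (A N : Subgroup G) [N.Normal]
    (h : A ⊔ N = ⊤) : Nat.card G ∣ Nat.card A * Nat.card N := by
  have hsurj : Function.Surjective ((QuotientGroup.mk' N).comp A.subtype) := by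
    intro x
    obtain ⟨g, rfl⟩ := QuotientGroup.mk'_surjective N x
    have hg : g ∈ Subgroup.comap (QuotientGroup.mk' N) (Subgroup.map (QuotientGroup.mk' N) A) := by
      rw [QuotientGroup.comap_map_mk', sup_comm, h]; exact Subgroup.mem_top g
    obtain ⟨a, ha, hag⟩ := Subgroup.mem_map.mp (Subgroup.mem_comap.mp hg)
    exact ⟨⟨a, ha⟩, hag⟩
  have h1 := Subgroup.card_dvd_of_surjective _ hsurj
  rw [Subgroup.card_eq_card_quotient_mul_card_subgroup N]
  exact Nat.mul_dvd_mul_right h1 _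

theorem sylow_card_eq_of_sup_top {G : Type*} [Group G] [Finite G] {p q : ℕ} [Fact p.Prime]
    [Fact q.Prime] (hqp : q ≠ p) (A N : Subgroup G) [N.Normal] (hN : IsPGroup p N)
    (h : A ⊔ N = ⊤) (P : Sylow q A) (R : Sylow q G) :
    Nat.card (P : Subgroup A) = Nat.card (R : Subgroup G) := by
  rw [Sylow.card_eq_multiplicity, Sylow.card_eq_multiplicity]
  congr 1
  obtain ⟨k, hk⟩ := IsPGroup.iff_card.mp hN
  have h1 := card_dvd_of_sup_top A N h
  rw [hk] at h1
  have h2 : Nat.card A ∣ Nat.card G := Subgroup.card_subgroup_dvd_card A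
  have hA0 : Nat.card A ≠ 0 := Nat.card_pos.ne'
  have hG0 : Nat.card G ≠ 0 := Nat.card_pos.ne'
  have hp0 : p ^ k ≠ 0 := pow_ne_zero k (Fact.out : p.Prime).ne_zero
  apply le_antisymm
  · exact (Nat.factorization_le_iff_dvd hA0 hG0).mpr h2 q
  · have h3 := (Nat.factorization_le_iff_dvd hG0 (mul_ne_zero hA0 hp0)).mpr h1 q
    rw [Nat.factorization_mul hA0 hp0, Finsupp.add_apply, Nat.factorization_pow,
      Finsupp.smul_apply, (Fact.out : p.Prime).factorization, Finsupp.single_apply,
      if_neg (Ne.symm hqp)] at h3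
    simpa using h3

/-- proper normal subgroup containing a factor, from solvability of products of nilpotents `hS`. -/
theorem proper_aux
    (hS : ∀ (G : Type u) [Group G] [Finite G] (A B : Subgroup G), Group.IsNilpotent A →
      Group.IsNilpotent B → (∀ g : G, ∃ a ∈ A, ∃ b ∈ B, g = a * b) → Group.IsSolvable G) :
    ∀ (n : ℕ) (G : Type u) [Group G] [Finite G], Nat.card G = n → ∀ (A B : Subgroup G),
      Group.IsNilpotent A → Group.IsNilpotent B → (∀ g : G, ∃ a ∈ A, ∃ b ∈ B, g = a * b) →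
      (A ≠ ⊤ ∨ B ≠ ⊤) → ∃ N : Subgroup G, N.Normal ∧ N ≠ ⊤ ∧ (A ≤ N ∨ B ≤ N) := by
  intro n
  induction n using Nat.strong_induction_on with
  | _ n ih =>
    intro G _ _ hn A B hA hB hAB hproper
    by_cases hcase : ∃ N : Subgroup G, N.Normal ∧ N ≠ ⊥ ∧ (A ⊔ N ≠ ⊤ ∨ B ⊔ N ≠ ⊤)
    · obtain ⟨N, hNn, hNb, hN⟩ := hcase
      haveI := hNn
      have hlt : Nat.card (G ⧸ N) < n := by rw [← hn]; exact card_quot_lt N hNb
      have hpr : (A.map (QuotientGroup.mk' N) ≠ ⊤ ∨ B.map (QuotientGroup.mk' N) ≠ ⊤) := by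
        rcases hN with h | h
        · left; intro e; exact h (sup_eq_top_of_map_eq_top N A e)
        · right; intro e; exact h (sup_eq_top_of_map_eq_top N B e)
      obtain ⟨Nb, hNbn, hNbt, hNbAB⟩ := ih _ hlt (G ⧸ N) rfl _ _ (nilpotent_map _ A hA)
        (nilpotent_map _ B hB) (fact_map _ (QuotientGroup.mk'_surjective N) A B hAB) hpr
      refine ⟨Nb.comap (QuotientGroup.mk' N), hNbn.comap _, ?_, ?_⟩
      · intro e
        apply hNbt
        rw [eq_top_iff]
        intro x _
        obtain ⟨g, rfl⟩ := QuotientGroup.mk'_surjective N x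
        have h1 : g ∈ Nb.comap (QuotientGroup.mk' N) := by rw [e]; exact Subgroup.mem_top g
        exact h1
      · rcases hNbAB with h | h
        · left; exact Subgroup.map_le_iff_le_comap.mp h
        · right; exact Subgroup.map_le_iff_le_comap.mp h
    · have hcase' : ∀ N : Subgroup G, N.Normal → N ≠ ⊥ → A ⊔ N = ⊤ ∧ B ⊔ N = ⊤ := by
        intro N hNn hNb
        constructor
        · by_contra h; exact hcase ⟨N, hNn, hNb, Or.inl h⟩
        · by_contra h; exact hcase ⟨N, hNn, hNb, Or.inr h⟩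
      haveI hsolv : Group.IsSolvable G := hS G A B hA hB hAB
      have hnt : Nontrivial G := by
        by_contra hnt
        rw [not_nontrivial_iff_subsingleton] at hnt
        have hAt : A = ⊤ :=
          eq_top_iff.mpr fun g _ => by rw [Subsingleton.elim g 1]; exact A.one_mem
        have hBt : B = ⊤ :=
          eq_top_iff.mpr fun g _ => by rw [Subsingleton.elim g 1]; exact B.one_mem
        rcases hproper with h | h
        · exact h hAt
        · exact h hBt
      obtain ⟨p, hp, hpc⟩ := exists_pCore_ne_bot (G := G)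
      haveI : Fact p.Prime := ⟨hp⟩
      haveI hNn : (Cfsg.pCore p G).Normal := Helper14.pCore_normal p G
      have hNp := Helper14.pCore_isPGroup p G
      obtain ⟨hAN, hBN⟩ := hcase' (Cfsg.pCore p G) hNn hpc
      have hq : ∀ q : ℕ, q.Prime → q ∣ Nat.card G → q = p := by
        intro q hq hqd
        by_contra hqp
        haveI : Fact q.Prime := ⟨hq⟩
        obtain ⟨P, Q, R, hR⟩ := Cfsg.Agent.S0560.result A B hAB q
        have hPn : (P : Subgroup A).Normal := sylow_normal_of_nilpotent hA q P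
        have hQn : (Q : Subgroup B).Normal := sylow_normal_of_nilpotent hB q Q
        have hXR : (P : Subgroup A).map A.subtype = (R : Subgroup G) := by
          apply Subgroup.eq_of_le_of_card_ge (sp_left hR)
          rw [← sylow_card_eq_of_sup_top hqp A (Cfsg.pCore p G) hNp hAN P R]
          exact le_of_eq (Nat.card_congr
            (Subgroup.equivMapOfInjective _ _ A.subtype_injective).toEquiv)
        have hYR : (Q : Subgroup B).map B.subtype = (R : Subgroup G) := by
          apply Subgroup.eq_of_le_of_card_ge (sp_right hR)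
          rw [← sylow_card_eq_of_sup_top hqp B (Cfsg.pCore p G) hNp hBN Q R]
          exact le_of_eq (Nat.card_congr
            (Subgroup.equivMapOfInjective _ _ B.subtype_injective).toEquiv)
        have hRb : (R : Subgroup G) ≠ ⊥ := R.ne_bot_of_dvd_card hqd
        have hRn : (R : Subgroup G).Normal := by
          constructor
          intro r hr g
          obtain ⟨a, ha, b, hb, rfl⟩ := hAB g
          have h1 : b * r * b⁻¹ ∈ (R : Subgroup G) := by
            rw [← hYR] at hr ⊢
            obtain ⟨r', hr', rfl⟩ := Subgroup.mem_map.mp hr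
            exact Subgroup.mem_map.mpr
              ⟨⟨b, hb⟩ * r' * ⟨b, hb⟩⁻¹, hQn.conj_mem r' hr' ⟨b, hb⟩, rfl⟩
          have h2 : a * (b * r * b⁻¹) * a⁻¹ ∈ (R : Subgroup G) := by
            rw [← hXR] at h1 ⊢
            obtain ⟨r', hr', hrr⟩ := Subgroup.mem_map.mp h1
            rw [← hrr]
            exact Subgroup.mem_map.mpr
              ⟨⟨a, ha⟩ * r' * ⟨a, ha⟩⁻¹, hPn.conj_mem r' hr' ⟨a, ha⟩, rfl⟩
          have e : a * b * r * (a * b)⁻¹ = a * (b * r * b⁻¹) * a⁻¹ := by group
          rw [e]; exact h2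
        obtain ⟨hAR, hBR⟩ := hcase' (R : Subgroup G) hRn hRb
        have hRA : (R : Subgroup G) ≤ A := by rw [← hXR]; exact Subgroup.map_subtype_le _
        have hRB : (R : Subgroup G) ≤ B := by rw [← hYR]; exact Subgroup.map_subtype_le _
        rw [sup_eq_left.mpr hRA] at hAR
        rw [sup_eq_left.mpr hRB] at hBR
        rcases hproper with h | h
        · exact h hAR
        · exact h hBR
      have hGp : IsPGroup p G := by
        have hcard := Nat.eq_prime_pow_of_unique_prime_dvd (Nat.card_pos (α := G)).ne'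
          (fun {d} hd hdd => hq d hd hdd)
        exact IsPGroup.of_card hcard
      have hGnil : Group.IsNilpotent G := hGp.isNilpotent
      rcases hproper with h | h
      · obtain ⟨N, h1, h2, h3⟩ := exists_normal_of_nilpotent hGnil A h
        exact ⟨N, h1, h2, Or.inl h3⟩
      · obtain ⟨N, h1, h2, h3⟩ := exists_normal_of_nilpotent hGnil B h
        exact ⟨N, h1, h2, Or.inr h3⟩

end Cfsg.Agent.Helper12.KW
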