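import Mathlib
import Cfsg.Agent.Helper9.KW1

/-!
# Kegel–Wielandt, coprime case: reduction to a minimal simple counterexample, the final
contradiction from the TI property, and permutability of the Sylow subgroups of the factors
(helper12, pieces for helper9's S0563).
-/

set_option autoImplicit false
open scoped Pointwise

namespace Cfsg.Agent.Helper12.KWR

open Cfsg.Agent.Helper9.KW

universe u

theorem card_quot_lt {G : Type*} [Group G] [Finite G] (N : Subgroup G) [N.Normal] (hN : N ≠ ⊥) :
    Nat.card (G ⧸ N) < Nat.card G := by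
  have h1 := Subgroup.card_eq_card_quotient_mul_card_subgroup N
  have h2 : 1 < Nat.card N := (Subgroup.one_lt_card_iff_ne_bot N).mpr hN
  have h3 : 0 < Nat.card (G ⧸ N) := Nat.card_pos
  rw [h1]
  exact lt_mul_of_one_lt_right h3 h2

theorem card_lt_of_ne_top {G : Type*} [Group G] [Finite G] (H : Subgroup G) (hH : H ≠ ⊤) :
    Nat.card H < Nat.card G :=
  lt_of_le_of_ne (Subgroup.card_le_card_group H)
    (fun e => hH ((Subgroup.card_eq_iff_eq_top H).mp e))

theorem nilpotent_map {G H : Type*} [Group G] [Group H] (f : G →* H) (A : Subgroup G)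
    (hA : Group.IsNilpotent A) : Group.IsNilpotent (A.map f) :=
  Group.nilpotent_of_surjective (f.subgroupMap A) (f.subgroupMap_surjective A)

theorem card_map_dvd {G H : Type*} [Group G] [Group H] [Finite G] (f : G →* H) (A : Subgroup G) :
    Nat.card (A.map f) ∣ Nat.card A :=
  Subgroup.card_dvd_of_surjective (f.subgroupMap A) (f.subgroupMap_surjective A)

theorem fact_map {G H : Type*} [Group G] [Group H] (f : G →* H) (hf : Function.Surjective f)
    (A B : Subgroup G) (hAB : ∀ g : G, ∃ a ∈ A, ∃ b ∈ B, g = a * b) :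
    ∀ h : H, ∃ a ∈ A.map f, ∃ b ∈ B.map f, h = a * b := by
  intro h
  obtain ⟨g, rfl⟩ := hf h
  obtain ⟨a, ha, b, hb, rfl⟩ := hAB g
  exact ⟨f a, Subgroup.mem_map_of_mem f ha, f b, Subgroup.mem_map_of_mem f hb, map_mul f a b⟩

/-- A normal subgroup of a coprime product is the product of its intersections. -/
theorem mem_normal_of_fac {G : Type*} [Group G] [Finite G] (A B N : Subgroup G) [N.Normal]
    (hcop : (Nat.card A).Coprime (Nat.card B)) {a b : G} (ha : a ∈ A) (hb : b ∈ B)
    (hab : a * b ∈ N) : a ∈ N ∧ b ∈ N := by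
  have hpa : a ^ Nat.card A = 1 :=
    orderOf_dvd_iff_pow_eq_one.mp (Subgroup.orderOf_dvd_natCard A ha)
  have hpb : b ^ Nat.card B = 1 :=
    orderOf_dvd_iff_pow_eq_one.mp (Subgroup.orderOf_dvd_natCard B hb)
  have h1 : QuotientGroup.mk' N a * QuotientGroup.mk' N b = 1 := by
    rw [← map_mul]; exact (QuotientGroup.eq_one_iff (a * b)).mpr hab
  have h2 : (QuotientGroup.mk' N a) ^ Nat.card A = 1 := by rw [← map_pow, hpa, map_one]
  have h3 : (QuotientGroup.mk' N b) ^ Nat.card B = 1 := by rw [← map_pow, hpb, map_one]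
  have h4 : QuotientGroup.mk' N a = (QuotientGroup.mk' N b)⁻¹ := eq_inv_of_mul_eq_one_left h1
  have h5 : (QuotientGroup.mk' N a) ^ Nat.card B = 1 := by rw [h4, inv_pow, h3, inv_one]
  have h6 : orderOf (QuotientGroup.mk' N a) ∣ Nat.card A := orderOf_dvd_of_pow_eq_one h2
  have h7 : orderOf (QuotientGroup.mk' N a) ∣ Nat.card B := orderOf_dvd_of_pow_eq_one h5
  have h8 : QuotientGroup.mk' N a = 1 :=
    orderOf_eq_one_iff.mp (eq_one_of_dvd_of_coprime hcop h6 h7)
  have haN : a ∈ N := (QuotientGroup.eq_one_iff a).mp h8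
  refine ⟨haN, ?_⟩
  have e : b = a⁻¹ * (a * b) := by group
  rw [e]; exact N.mul_mem (N.inv_mem haN) hab

/-- **Reduction**: if no minimal (simple, non-solvable) counterexample exists, then every finite
product of two nilpotent subgroups of coprime orders is solvable. -/
theorem red
    (hno : ∀ (G : Type u) [Group G] [Finite G] (A B : Subgroup G), Cfsg.Agent.Helper9.KW.Min G → Fac A B → False) :
    ∀ (G : Type u) [Group G] [Finite G] (A B : Subgroup G), Group.IsNilpotent A →
      Group.IsNilpotent B → (Nat.card A).Coprime (Nat.card B) →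
      (∀ g : G, ∃ a ∈ A, ∃ b ∈ B, g = a * b) → Group.IsSolvable G := by
  have key : ∀ (n : ℕ) (G : Type u) [Group G] [Finite G], Nat.card G = n →
      ∀ (A B : Subgroup G), Group.IsNilpotent A → Group.IsNilpotent B →
      (Nat.card A).Coprime (Nat.card B) → (∀ g : G, ∃ a ∈ A, ∃ b ∈ B, g = a * b) →
      Group.IsSolvable G := by
    intro n
    induction n using Nat.strong_induction_on with
    | _ n ih =>
      intro G _ _ hn A B hA hB hcop hAB
      by_cases hsimp : ∀ N : Subgroup G, N.Normal → N = ⊥ ∨ N = ⊤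
      · by_contra hns
        refine hno G A B ⟨hsimp, hns, ?_⟩ ⟨hA, hB, hcop, hAB⟩
        intro H A' B' hH hA'H hB'H hA' hB' hcop' hfac
        have hlt : Nat.card H < n := by rw [← hn]; exact card_lt_of_ne_top H hH
        refine ih _ hlt H rfl (A'.subgroupOf H) (B'.subgroupOf H) ?_ ?_ ?_ ?_
        · haveI := hA'
          exact Group.nilpotent_of_mulEquiv (Subgroup.subgroupOfEquivOfLe hA'H).symm
        · haveI := hB'
          exact Group.nilpotent_of_mulEquiv (Subgroup.subgroupOfEquivOfLe hB'H).symm
        · rw [Nat.card_congr (Subgroup.subgroupOfEquivOfLe hA'H).toEquiv,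
            Nat.card_congr (Subgroup.subgroupOfEquivOfLe hB'H).toEquiv]
          exact hcop'
        · intro g
          obtain ⟨a, ha, b, hb, hg⟩ := hfac g.1 g.2
          exact ⟨⟨a, hA'H ha⟩, Subgroup.mem_subgroupOf.mpr ha, ⟨b, hB'H hb⟩,
            Subgroup.mem_subgroupOf.mpr hb, Subtype.ext hg⟩
      · push Not at hsimp
        obtain ⟨N, hNn, hNb, hNt⟩ := hsimp
        haveI := hNn
        haveI hQ : Group.IsSolvable (G ⧸ N) := by
          have hlt : Nat.card (G ⧸ N) < n := by rw [← hn]; exact card_quot_lt N hNb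
          refine ih _ hlt (G ⧸ N) rfl (A.map (QuotientGroup.mk' N)) (B.map (QuotientGroup.mk' N))
            (nilpotent_map _ A hA) (nilpotent_map _ B hB) ?_
            (fact_map _ (QuotientGroup.mk'_surjective N) A B hAB)
          exact Nat.Coprime.coprime_dvd_left (card_map_dvd _ A)
            (Nat.Coprime.coprime_dvd_right (card_map_dvd _ B) hcop)
        haveI hNs : Group.IsSolvable N := by
          have hlt : Nat.card N < n := by rw [← hn]; exact card_lt_of_ne_top N hNt
          refine ih _ hlt N rfl ((N ⊓ A).subgroupOf N) ((N ⊓ B).subgroupOf N) ?_ ?_ ?_ ?_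
          · haveI := nil_of_le hA (inf_le_right : N ⊓ A ≤ A)
            exact Group.nilpotent_of_mulEquiv
              (Subgroup.subgroupOfEquivOfLe (inf_le_left : N ⊓ A ≤ N)).symm
          · haveI := nil_of_le hB (inf_le_right : N ⊓ B ≤ B)
            exact Group.nilpotent_of_mulEquiv
              (Subgroup.subgroupOfEquivOfLe (inf_le_left : N ⊓ B ≤ N)).symm
          · rw [Nat.card_congr (Subgroup.subgroupOfEquivOfLe (inf_le_left : N ⊓ A ≤ N)).toEquiv,
              Nat.card_congr (Subgroup.subgroupOfEquivOfLe (inf_le_left : N ⊓ B ≤ N)).toEquiv]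
            exact Nat.Coprime.coprime_dvd_left (Subgroup.card_dvd_of_le inf_le_right)
              (Nat.Coprime.coprime_dvd_right (Subgroup.card_dvd_of_le inf_le_right) hcop)
          · intro g
            obtain ⟨a, ha, b, hb, hg⟩ := hAB g.1
            have hab : a * b ∈ N := by rw [← hg]; exact g.2
            obtain ⟨haN, hbN⟩ := mem_normal_of_fac A B N hcop ha hb hab
            exact ⟨⟨a, haN⟩, Subgroup.mem_subgroupOf.mpr (Subgroup.mem_inf.mpr ⟨haN, ha⟩),
              ⟨b, hbN⟩, Subgroup.mem_subgroupOf.mpr (Subgroup.mem_inf.mpr ⟨hbN, hb⟩),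
              Subtype.ext hg⟩
        exact Group.isSolvable_of_ker_le_range N.subtype (QuotientGroup.mk' N)
          (le_of_eq (by rw [QuotientGroup.ker_mk', Subgroup.range_subtype]))
  intro G _ _ A B hA hB hcop hAB
  exact key _ G rfl A B hA hB hcop hAB

theorem no_min_of_ti_lt {G : Type u} [Group G] [Finite G] (A B : Subgroup G) (hM : Cfsg.Agent.Helper9.KW.Min G)
    (h : Fac A B) (hlt : Nat.card B < Nat.card A)
    (hti : ∀ x ∈ A, (orderOf x).Prime → ∀ g : G, x ∈ MulAut.conj g • A →
      g ∈ Subgroup.normalizer (A : Set G)) : False := by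
  have hnorm : ∀ g : G, g ∈ Subgroup.normalizer (A : Set G) := by
    intro g
    have hne : A ⊓ MulAut.conj g • A ≠ ⊥ := by
      intro e
      have h1 : (A ⊓ MulAut.conj g • A).index ≤ A.index * (MulAut.conj g • A).index :=
        Subgroup.index_inf_le
      rw [e, Subgroup.index_bot, index_conj, h.index_eq, ← h.card_mul] at h1
      have hB0 : 0 < Nat.card B := Nat.card_pos
      exact absurd h1 (not_le.mpr (Nat.mul_lt_mul_of_pos_right hlt hB0))
    have hcard : Nat.card ↥(A ⊓ MulAut.conj g • A) ≠ 1 :=
      fun e => hne (Subgroup.card_eq_one.mp e)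
    obtain ⟨p, hp, hpd⟩ := Nat.exists_prime_and_dvd hcard
    haveI : Fact p.Prime := ⟨hp⟩
    obtain ⟨x, hx⟩ := exists_prime_orderOf_dvd_card' p hpd
    have hxo : orderOf (x : G) = p := by rw [Subgroup.orderOf_coe]; exact hx
    exact hti (x : G) (Subgroup.mem_inf.mp x.2).1 (by rw [hxo]; exact hp) g
      (Subgroup.mem_inf.mp x.2).2
  have hAn : A.Normal := Subgroup.normalizer_eq_top_iff.mp (eq_top_iff.mpr fun g _ => hnorm g)
  rcases hM.simple A hAn with e | e
  · subst e
    exact not_pgroup_fac hM h 2 IsPGroup.of_bot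
  · subst e
    have hB1 : Nat.card B = 1 := by
      have h1 := h.card_mul
      rw [Subgroup.card_top] at h1
      have hG0 : 0 < Nat.card G := Nat.card_pos
      exact Nat.eq_of_mul_eq_mul_left hG0 (by rw [h1, mul_one])
    have hB : B = ⊥ := Subgroup.card_eq_one.mp hB1
    subst hB
    exact not_pgroup_fac hM h.symm 2 IsPGroup.of_bot

/-- **Final contradiction**: a minimal counterexample cannot have the TI-type property. -/
theorem no_min_of_ti {G : Type u} [Group G] [Finite G] (A B : Subgroup G) (hM : Cfsg.Agent.Helper9.KW.Min G)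
    (h : Fac A B)
    (hti : ∀ (A B : Subgroup G), Fac A B → ∀ x ∈ A, (orderOf x).Prime → ∀ g : G,
      x ∈ MulAut.conj g • A → g ∈ Subgroup.normalizer (A : Set G)) : False := by
  rcases lt_trichotomy (Nat.card A) (Nat.card B) with hlt | heq | hgt
  · exact no_min_of_ti_lt B A hM h.symm hlt (hti B A h.symm)
  · have h1 : Nat.card A = 1 := by
      have h2 := h.cop
      rw [← heq] at h2
      exact (Nat.coprime_self _).mp h2
    have hA : A = ⊥ := Subgroup.card_eq_one.mp h1
    subst hA
    exact not_pgroup_fac hM h 2 IsPGroup.of_bot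
  · exact no_min_of_ti_lt A B hM h hgt (hti A B h)

theorem sylow_normal {G : Type*} [Group G] [Finite G] (hG : Group.IsNilpotent G) (p : ℕ)
    [Fact p.Prime] (P : Sylow p G) : (P : Subgroup G).Normal := by
  have q := (Group.isNilpotent_of_finite_tfae (G := G)).out 0 3
  exact q.mp hG p inferInstance P

theorem hall_cond {G : Type u} [Group G] [Finite G] {A B : Subgroup G} (h : Fac A B) (p : ℕ)
    [Fact p.Prime] (P : Sylow p A) :
    (Nat.card ((P : Subgroup A).map A.subtype)).Coprime
      ((P : Subgroup A).map A.subtype).index := by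
  have hX : IsPGroup p ((P : Subgroup A).map A.subtype) := P.isPGroup'.map A.subtype
  obtain ⟨k, hk⟩ := IsPGroup.iff_card.mp hX
  rw [hk]
  rcases Nat.eq_zero_or_pos k with hk0 | hk0
  · rw [hk0, pow_zero]; exact Nat.coprime_one_left _
  · apply Nat.Coprime.pow_left
    rw [Nat.Prime.coprime_iff_not_dvd Fact.out, Subgroup.index_map_subtype]
    intro hdvd
    have hpA : p ∣ Nat.card A := by
      have h1 : p ∣ Nat.card ((P : Subgroup A).map A.subtype) := by
        rw [hk]; exact dvd_pow_self p hk0.ne'
      exact h1.trans (Subgroup.card_dvd_of_le (Subgroup.map_subtype_le _))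
    rcases (Nat.Prime.dvd_mul Fact.out).mp hdvd with h1 | h1
    · exact P.not_dvd_index h1
    · rw [h.index_eq] at h1
      exact (Nat.Prime.coprime_iff_not_dvd Fact.out).mp
        (Nat.Coprime.coprime_dvd_left hpA h.cop) h1

/-- The second conjunct of S0563 (Sylow subgroups of the two factors permute), from solvability. -/
theorem sylow_prod {G : Type u} [Group G] [Finite G] [Group.IsSolvable G] (A B : Subgroup G)
    (hA : Group.IsNilpotent A) (hB : Group.IsNilpotent B)
    (hcop : (Nat.card A).Coprime (Nat.card B)) (hAB : ∀ g : G, ∃ a ∈ A, ∃ b ∈ B, g = a * b) :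
    ∀ (p q : ℕ) [Fact p.Prime] [Fact q.Prime] (P : Sylow p A) (Q : Sylow q B),
      ∃ S : Subgroup G, (S : Set G) = (((P : Subgroup A).map A.subtype : Subgroup G) : Set G) *
        (((Q : Subgroup B).map B.subtype : Subgroup G) : Set G) := by
  intro p q _ _ P Q
  have h : Fac A B := ⟨hA, hB, hcop, hAB⟩
  have hXn : (((P : Subgroup A).map A.subtype).subgroupOf A).Normal := by
    have e : ((P : Subgroup A).map A.subtype).subgroupOf A = (P : Subgroup A) :=
      Subgroup.comap_map_eq_self_of_injective (Subgroup.subtype_injective A) _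
    rw [e]; exact sylow_normal hA p P
  have hYn : (((Q : Subgroup B).map B.subtype).subgroupOf B).Normal := by
    have e : ((Q : Subgroup B).map B.subtype).subgroupOf B = (Q : Subgroup B) :=
      Subgroup.comap_map_eq_self_of_injective (Subgroup.subtype_injective B) _
    rw [e]; exact sylow_normal hB q Q
  obtain ⟨S, hS⟩ := Cfsg.Agent.S0561.result A B ((P : Subgroup A).map A.subtype)
    ((Q : Subgroup B).map B.subtype) hAB (Subgroup.map_subtype_le _) hXn
    (Subgroup.map_subtype_le _) hYn (hall_cond h p P) (hall_cond h.symm q Q) 1 1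
  rw [map_one, one_smul, one_smul] at hS
  exact ⟨S, hS⟩

end Cfsg.Agent.Helper12.KWR
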