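import Mathlib
import Cfsg.Agent.Helper24.CharLinear
import Cfsg.Agent.Helper24.CharComplete
import Cfsg.Agent.Helper22.Ito
import Cfsg.Agent.Helper22.FrobSchur2
import Cfsg.Agent.Helper5.PRes
import Cfsg.Agent.Helper12.Ord60

/-!
helper12: generic counting lemmas for characters of degree prime to `ℓ`.
-/

set_option autoImplicit false

namespace Cfsg.Agent.Helper12

open Cfsg

universe u

/-! ### indicator sums -/

/-- indicator of equality of naturals -/
def eqInd (a b : ℕ) : ℕ := if a = b then 1 else 0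

/-- indicator of non-divisibility -/
def ndInd (ℓ d : ℕ) : ℕ := if ℓ ∣ d then 0 else 1

theorem eqInd_self (a : ℕ) : eqInd a a = 1 := if_pos rfl
theorem eqInd_neg {a b : ℕ} (h : a ≠ b) : eqInd a b = 0 := if_neg h
theorem ndInd_pos {ℓ d : ℕ} (h : ℓ ∣ d) : ndInd ℓ d = 0 := if_pos h
theorem ndInd_neg {ℓ d : ℕ} (h : ¬ ℓ ∣ d) : ndInd ℓ d = 1 := if_neg h

theorem card_eq_sum_eqInd {α : Type*} [Fintype α] (f : α → ℕ) (d : ℕ) :
    Nat.card {a // f a = d} = ∑ a, eqInd (f a) d := by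
  classical
  rw [Nat.card_eq_fintype_card, Fintype.card_subtype, Finset.card_filter]
  refine Finset.sum_congr rfl fun a _ => ?_
  by_cases h : f a = d
  · rw [if_pos h, h, eqInd_self]
  · rw [if_neg h, eqInd_neg h]

theorem card_eq_sum_ndInd {α : Type*} [Fintype α] (f : α → ℕ) (ℓ : ℕ) :
    Nat.card {a // ¬ ℓ ∣ f a} = ∑ a, ndInd ℓ (f a) := by
  classical
  rw [Nat.card_eq_fintype_card, Fintype.card_subtype, Finset.card_filter]
  refine Finset.sum_congr rfl fun a _ => ?_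
  by_cases h : ℓ ∣ f a
  · rw [if_neg (not_not.mpr h), ndInd_pos h]
  · rw [if_pos h, ndInd_neg h]

theorem count6 {α : Type*} [Finite α] (f : α → ℕ) (ℓ d1 d2 d3 d4 d5 d6 : ℕ)
    (h12 : d1 ≠ d2) (h13 : d1 ≠ d3) (h14 : d1 ≠ d4) (h15 : d1 ≠ d5) (h16 : d1 ≠ d6)
    (h23 : d2 ≠ d3) (h24 : d2 ≠ d4) (h25 : d2 ≠ d5) (h26 : d2 ≠ d6)
    (h34 : d3 ≠ d4) (h35 : d3 ≠ d5) (h36 : d3 ≠ d6)
    (h45 : d4 ≠ d5) (h46 : d4 ≠ d6) (h56 : d5 ≠ d6)
    (hf : ∀ a, f a = d1 ∨ f a = d2 ∨ f a = d3 ∨ f a = d4 ∨ f a = d5 ∨ f a = d6) :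
    Nat.card {a // ¬ ℓ ∣ f a} =
      ndInd ℓ d1 * Nat.card {a // f a = d1} + ndInd ℓ d2 * Nat.card {a // f a = d2} +
      ndInd ℓ d3 * Nat.card {a // f a = d3} + ndInd ℓ d4 * Nat.card {a // f a = d4} +
      ndInd ℓ d5 * Nat.card {a // f a = d5} + ndInd ℓ d6 * Nat.card {a // f a = d6} := by
  haveI := Fintype.ofFinite α
  rw [card_eq_sum_ndInd, card_eq_sum_eqInd f d1, card_eq_sum_eqInd f d2, card_eq_sum_eqInd f d3,
    card_eq_sum_eqInd f d4, card_eq_sum_eqInd f d5, card_eq_sum_eqInd f d6,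
    Finset.mul_sum, Finset.mul_sum, Finset.mul_sum,
    Finset.mul_sum, Finset.mul_sum, Finset.mul_sum, ← Finset.sum_add_distrib,
    ← Finset.sum_add_distrib, ← Finset.sum_add_distrib, ← Finset.sum_add_distrib,
    ← Finset.sum_add_distrib]
  refine Finset.sum_congr rfl fun a _ => ?_
  rcases hf a with h | h | h | h | h | h
  · rw [h, eqInd_self, eqInd_neg h12, eqInd_neg h13, eqInd_neg h14, eqInd_neg h15, eqInd_neg h16]
    ring
  · rw [h, eqInd_neg h12.symm, eqInd_self, eqInd_neg h23, eqInd_neg h24, eqInd_neg h25,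
      eqInd_neg h26]
    ring
  · rw [h, eqInd_neg h13.symm, eqInd_neg h23.symm, eqInd_self, eqInd_neg h34, eqInd_neg h35,
      eqInd_neg h36]
    ring
  · rw [h, eqInd_neg h14.symm, eqInd_neg h24.symm, eqInd_neg h34.symm, eqInd_self, eqInd_neg h45,
      eqInd_neg h46]
    ring
  · rw [h, eqInd_neg h15.symm, eqInd_neg h25.symm, eqInd_neg h35.symm, eqInd_neg h45.symm,
      eqInd_self, eqInd_neg h56]
    ring
  · rw [h, eqInd_neg h16.symm, eqInd_neg h26.symm, eqInd_neg h36.symm, eqInd_neg h46.symm,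
      eqInd_neg h56.symm, eqInd_self]
    ring

/-! ### degrees -/

theorem charDegree_eq_iff {G : Type u} [Group G] [Finite G] (χ : IrrCharacter G) (d : ℕ) :
    charDegree (χ : G → ℂ) = d ↔ (χ : G → ℂ) 1 = (d : ℂ) := by
  have h := (Helper22.charDegree_irr χ).1
  constructor
  · intro h1; rw [← h, h1]
  · intro h1; rw [h1] at h; exact Nat.cast_injective h

/-! ### transport along isomorphisms -/

theorem isIrr_comp_equiv {A B : Type u} [Group A] [Group B] (e : A ≃* B) {θ : B → ℂ}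
    (hθ : IsIrrCharacter B θ) : IsIrrCharacter A (fun a => θ (e a)) := by
  obtain ⟨n, ρ, hρ, rfl⟩ := hθ
  exact ⟨n, MonoidHom.comp ρ e.toMonoidHom,
    (Helper24.isIrreducible_comp_iff _ e.surjective ρ).mpr hρ, rfl⟩

theorem count_congr {A B : Type u} [Group A] [Group B] (e : A ≃* B) (ℓ : ℕ) :
    Nat.card {χ : IrrCharacter A // ¬ ℓ ∣ charDegree (χ : A → ℂ)} =
      Nat.card {ψ : IrrCharacter B // ¬ ℓ ∣ charDegree (ψ : B → ℂ)} := by
  refine Nat.card_congr (Equiv.subtypeEquiv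
    { toFun := fun θ => ⟨fun b => (θ : A → ℂ) (e.symm b), isIrr_comp_equiv e.symm θ.2⟩
      invFun := fun θ => ⟨fun a => (θ : B → ℂ) (e a), isIrr_comp_equiv e θ.2⟩
      left_inv := fun θ => Subtype.ext (funext fun a => by simp)
      right_inv := fun θ => Subtype.ext (funext fun b => by simp) } ?_)
  intro θ
  have h : charDegree (fun b => (θ : A → ℂ) (e.symm b)) = charDegree (θ : A → ℂ) := by
    simp only [Cfsg.charDegree, map_one]
  show ¬ ℓ ∣ charDegree (θ : A → ℂ) ↔ ¬ ℓ ∣ charDegree (fun b => (θ : A → ℂ) (e.symm b))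
  rw [h]

theorem count_top {G : Type u} [Group G] (N : Subgroup G) (hN : N = ⊤) (ℓ : ℕ) :
    Nat.card {χ : IrrCharacter G // ¬ ℓ ∣ charDegree (χ : G → ℂ)} =
      Nat.card {ψ : IrrCharacter ↥N // ¬ ℓ ∣ charDegree (ψ : ↥N → ℂ)} := by
  subst hN
  exact (count_congr (Subgroup.topEquiv (G := G)) ℓ).symm

theorem count_map_equiv {G : Type u} [Group G] (f : G ≃* G) (H K : Subgroup G)
    (hK : K = H.map f.toMonoidHom) (ℓ : ℕ) :
    Nat.card {ψ : IrrCharacter ↥K // ¬ ℓ ∣ charDegree (ψ : ↥K → ℂ)} =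
      Nat.card {ψ : IrrCharacter ↥H // ¬ ℓ ∣ charDegree (ψ : ↥H → ℂ)} := by
  subst hK
  exact (count_congr (MulEquiv.subgroupMap f H) ℓ).symm

/-! ### abelian normal subgroups -/

theorem count_eq_classes_of_abelian {N : Type u} [Group N] [Finite N] (ℓ : ℕ) (H : Subgroup N)
    [H.Normal] (hab : ∀ a ∈ H, ∀ b ∈ H, a * b = b * a) (hℓ : ¬ ℓ ∣ H.index) :
    Nat.card {ψ : IrrCharacter N // ¬ ℓ ∣ charDegree (ψ : N → ℂ)} = Nat.card (ConjClasses N) := by
  rw [← Helper24.card_irr_eq_card_conjClasses]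
  refine Nat.card_congr (Equiv.subtypeUnivEquiv fun ψ => ?_)
  intro hdvd
  obtain ⟨d, hd, hdi⟩ := Helper22.ito ψ.2 H hab
  have h2 : charDegree (ψ : N → ℂ) = d := (charDegree_eq_iff ψ d).mpr hd
  rw [h2] at hdvd
  exact hℓ (hdvd.trans hdi)

theorem count_odd_of_index_two {N : Type u} [Group N] [Finite N] (H : Subgroup N) [H.Normal]
    (hab : ∀ a ∈ H, ∀ b ∈ H, a * b = b * a) (hidx : H.index = 2) :
    Nat.card N + 3 * Nat.card {ψ : IrrCharacter N // ¬ 2 ∣ charDegree (ψ : N → ℂ)} =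
      4 * Nat.card (ConjClasses N) := by
  have hdeg : ∀ ψ : IrrCharacter N, charDegree (ψ : N → ℂ) = 1 ∨ charDegree (ψ : N → ℂ) = 2 := by
    intro ψ
    obtain ⟨d, hd, hdi⟩ := Helper22.ito ψ.2 H hab
    have h2 : charDegree (ψ : N → ℂ) = d := (charDegree_eq_iff ψ d).mpr hd
    rw [h2]
    rw [hidx] at hdi
    exact (Nat.dvd_prime Nat.prime_two).mp hdi
  have h1 := Helper5.sum_charDegree_sq N
  have h2 : Nat.card (IrrCharacter N) = ∑ _ψ : IrrCharacter N, 1 := by
    rw [Nat.card_eq_fintype_card, Finset.sum_const, Finset.card_univ, smul_eq_mul, mul_one]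
  rw [← Helper24.card_irr_eq_card_conjClasses,
    card_eq_sum_ndInd (fun ψ : IrrCharacter N => charDegree (ψ : N → ℂ)) 2, ← h1, h2,
    Finset.mul_sum, Finset.mul_sum, ← Finset.sum_add_distrib]
  refine Finset.sum_congr rfl fun ψ _ => ?_
  rcases hdeg ψ with h3 | h3 <;> rw [h3] <;> decide

theorem count_odd_of_card_24 {N : Type u} [Group N] [Finite N] (hN : Nat.card N = 24)
    (hD : (commutator N).index = 3) :
    Nat.card {ψ : IrrCharacter N // ¬ 2 ∣ charDegree (ψ : N → ℂ)} = 4 := by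
  have h1 := Helper5.sum_charDegree_sq N
  rw [hN] at h1
  have hle : ∀ ψ : IrrCharacter N, charDegree (ψ : N → ℂ) ≤ 4 := by
    intro ψ
    have h2 : charDegree (ψ : N → ℂ) ^ 2 ≤ 24 := by
      rw [← h1]
      exact Finset.single_le_sum (f := fun ψ : IrrCharacter N => charDegree (ψ : N → ℂ) ^ 2)
        (fun _ _ => Nat.zero_le _) (Finset.mem_univ ψ)
    nlinarith
  have hpos : ∀ ψ : IrrCharacter N, 0 < charDegree (ψ : N → ℂ) :=
    fun ψ => (Helper22.charDegree_irr ψ).2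
  have hlin : Nat.card {ψ : IrrCharacter N // charDegree (ψ : N → ℂ) = 1} = 3 := by
    have h4 := Helper24.card_linear_irr (G := N)
    rw [hD] at h4
    refine (Nat.card_congr (Equiv.subtypeEquivRight fun ψ => ?_)).trans h4
    exact (charDegree_eq_iff ψ 1).trans (by rw [Nat.cast_one])
  rw [card_eq_sum_eqInd (fun ψ : IrrCharacter N => charDegree (ψ : N → ℂ)) 1] at hlin
  rw [card_eq_sum_ndInd (fun ψ : IrrCharacter N => charDegree (ψ : N → ℂ)) 2]
  have e1 : ∀ d : ℕ, 0 < d → d ≤ 4 →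
      d ^ 2 = eqInd d 1 + 9 * eqInd d 3 + 4 * (eqInd d 2 + 4 * eqInd d 4) := by
    intro d h0 h4
    interval_cases d <;> decide
  have e2 : ∀ d : ℕ, 0 < d → d ≤ 4 → ndInd 2 d = eqInd d 1 + eqInd d 3 := by
    intro d h0 h4
    interval_cases d <;> decide
  have s1 : (∑ ψ : IrrCharacter N, charDegree (ψ : N → ℂ) ^ 2) =
      (∑ ψ : IrrCharacter N, eqInd (charDegree (ψ : N → ℂ)) 1) +
      9 * (∑ ψ : IrrCharacter N, eqInd (charDegree (ψ : N → ℂ)) 3) +
      4 * (∑ ψ : IrrCharacter N,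
        (eqInd (charDegree (ψ : N → ℂ)) 2 + 4 * eqInd (charDegree (ψ : N → ℂ)) 4)) := by
    rw [Finset.mul_sum, Finset.mul_sum, ← Finset.sum_add_distrib, ← Finset.sum_add_distrib]
    exact Finset.sum_congr rfl fun ψ _ => e1 _ (hpos ψ) (hle ψ)
  have s2 : (∑ ψ : IrrCharacter N, ndInd 2 (charDegree (ψ : N → ℂ))) =
      (∑ ψ : IrrCharacter N, eqInd (charDegree (ψ : N → ℂ)) 1) +
      (∑ ψ : IrrCharacter N, eqInd (charDegree (ψ : N → ℂ)) 3) := by
    rw [← Finset.sum_add_distrib]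
    exact Finset.sum_congr rfl fun ψ _ => e2 _ (hpos ψ) (hle ψ)
  rw [s1] at h1
  rw [s2]
  omega

/-! ### a group of order 24 with a normal quaternion subgroup -/

theorem comm_index_three {N : Type u} [Group N] [Finite N] (hN : Nat.card N = 24)
    (S : Subgroup N) [S.Normal] (hS : Nat.card S = 8) (z : N)
    (hzc : ∀ g : N, g * z = z * g) (hz1 : z ≠ 1) (hzz : z * z = 1)
    (hinv : ∀ s ∈ S, s * s = 1 → s = 1 ∨ s = z)
    (hsq : ∀ s ∈ S, s * s = 1 ∨ s * s = z)
    (hcent : ∀ t : N, orderOf t = 3 → ¬ ∀ s ∈ S, t * s = s * t) :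
    (commutator N).index = 3 := by
  obtain ⟨t, ht⟩ := exists_prime_orderOf_dvd_card' 3 (by rw [hN]; norm_num : 3 ∣ Nat.card N)
  have ht3 : t ^ 3 = 1 := by rw [← ht]; exact pow_orderOf_eq_one t
  have hconj3 : ∀ s : N, t * (t * (t * s * t⁻¹) * t⁻¹) * t⁻¹ = s := by
    intro s
    have ht3' : t * t * t = 1 := by
      have h := ht3
      rw [pow_succ, pow_two] at h
      exact h
    have e : t * (t * (t * s * t⁻¹) * t⁻¹) * t⁻¹ = (t * t * t) * s * (t * t * t)⁻¹ := by group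
    rw [e, ht3', one_mul, inv_one, mul_one]
  have hzconj : ∀ s : N, t * (z * s) * t⁻¹ = z * (t * s * t⁻¹) := by
    intro s
    rw [← mul_assoc t z s, hzc t, mul_assoc z t s, mul_assoc z (t * s) t⁻¹]
  obtain ⟨s, hsS, hs1, hsz⟩ : ∃ s ∈ S, t * s * t⁻¹ * s⁻¹ ≠ 1 ∧ t * s * t⁻¹ * s⁻¹ ≠ z := by
    by_contra hcon
    push_neg at hcon
    apply hcent t ht
    intro s hsS
    by_cases h1 : t * s * t⁻¹ * s⁻¹ = 1
    · exact mul_inv_eq_iff_eq_mul.mp (mul_inv_eq_one.mp h1)
    · have h2 := hcon s hsS h1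
      have h3 : t * s * t⁻¹ = z * s := mul_inv_eq_iff_eq_mul.mp h2
      exfalso
      have h4 := hconj3 s
      rw [h3, hzconj, h3, ← mul_assoc z z s, hzz, one_mul, h3] at h4
      exact hz1 (by simpa using congrArg (· * s⁻¹) h4)
  obtain ⟨c, hc⟩ : ∃ c : N, c = t * s * t⁻¹ * s⁻¹ := ⟨_, rfl⟩
  rw [← hc] at hs1 hsz
  have hcS : c ∈ S := by
    rw [hc]
    exact S.mul_mem (Subgroup.Normal.conj_mem inferInstance s hsS t) (S.inv_mem hsS)
  have hcD : c ∈ commutator N := by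
    rw [hc, commutator_def, ← commutatorElement_def]
    exact Subgroup.commutator_mem_commutator (Subgroup.mem_top t) (Subgroup.mem_top s)
  have hcc : c * c = z := by
    rcases hsq c hcS with h | h
    · rcases hinv c hcS h with h' | h'
      · exact absurd h' hs1
      · exact absurd h' hsz
    · exact h
  have hsc : t * s * t⁻¹ = c * s := by rw [hc, inv_mul_cancel_right]
  have hc2 : c ^ 2 = z := by rw [pow_two]; exact hcc
  have hc4 : c ^ 4 = 1 := by
    have e : c ^ 4 = (c ^ 2) ^ 2 := pow_mul c 2 2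
    rw [e, hc2, pow_two, hzz]
  have hco : orderOf c = 4 := by
    have e : (4 : ℕ) = 2 ^ (1 + 1) := by norm_num
    rw [e]
    apply orderOf_eq_prime_pow
    · rw [pow_one, hc2]; exact hz1
    · rw [← e]; exact hc4
  have hc'D : t * c * t⁻¹ ∈ commutator N := Subgroup.Normal.conj_mem inferInstance c hcD t
  have hc'not : t * c * t⁻¹ ∉ Subgroup.zpowers c := by
    intro hmem
    obtain ⟨k, hk⟩ := Subgroup.mem_zpowers_iff.mp hmem
    have h4 : c ^ (k % ((orderOf c : ℕ) : ℤ)) = c ^ k := zpow_mod_orderOf c k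
    rw [hco] at h4
    obtain ⟨j, hj⟩ : ∃ j : ℕ, k % ((4 : ℕ) : ℤ) = (j : ℤ) :=
      ⟨(k % ((4 : ℕ) : ℤ)).toNat, by omega⟩
    have hj4 : j < 4 := by omega
    rw [hj, zpow_natCast, hk] at h4
    interval_cases j
    · rw [pow_zero] at h4
      exact hs1 (calc c = t⁻¹ * (t * c * t⁻¹) * t := by group
        _ = t⁻¹ * 1 * t := by rw [← h4]
        _ = 1 := by group)
    · rw [pow_one] at h4
      have h5 := hconj3 s
      have h6 : t * (c * s) * t⁻¹ = (t * c * t⁻¹) * (t * s * t⁻¹) := by group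
      rw [hsc, h6, ← h4, hsc, ← mul_assoc c c s, hcc, hzconj, hsc, ← mul_assoc z c s] at h5
      have h8 : z * c = 1 := by simpa using congrArg (· * s⁻¹) h5
      exact hsz ((eq_inv_of_mul_eq_one_right h8).trans (inv_eq_of_mul_eq_one_right hzz))
    · rw [hc2] at h4
      exact hsz (calc c = t⁻¹ * (t * c * t⁻¹) * t := by group
        _ = t⁻¹ * z * t := by rw [← h4]
        _ = z := by rw [hzc t⁻¹, inv_mul_cancel_right])
    · have h5 := hconj3 c
      rw [← h4, ← conj_pow, ← h4, ← pow_mul] at h5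
      have e9 : c ^ (3 * 3) = c := by
        have e : c ^ (3 * 3) = c ^ 4 * c ^ 4 * c := by group
        rw [e, hc4, one_mul, one_mul]
      rw [e9, ← h4] at h5
      have h6 : c ^ 2 * c = c := by rw [← pow_succ]; exact h5
      have h7 : c ^ 2 = 1 := by simpa using congrArg (· * c⁻¹) h6
      rw [hc2] at h7
      exact hz1 h7
  have hD_le : commutator N ≤ S := by
    have h3 : Nat.card (N ⧸ S) = 3 := by
      have h := Subgroup.card_eq_card_quotient_mul_card_subgroup S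
      rw [hN, hS] at h
      omega
    exact (Subgroup.Normal.quotient_commutative_iff_commutator_le (N := S)).mp
      ⟨⟨fun a b => comm_of_prime_card h3 a b⟩⟩
  have hzpD : Subgroup.zpowers c ≤ commutator N := by
    rw [Subgroup.zpowers_le]; exact hcD
  have hzpcard : Nat.card (Subgroup.zpowers c) = 4 := by rw [Nat.card_zpowers]; exact hco
  have hne : Subgroup.zpowers c ≠ commutator N := fun h => hc'not (by rw [h]; exact hc'D)
  have hd1 : 4 ∣ Nat.card (commutator N) := by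
    rw [← hzpcard]; exact Subgroup.card_dvd_of_le hzpD
  have hd2 : Nat.card (commutator N) ∣ 8 := by
    rw [← hS]; exact Subgroup.card_dvd_of_le hD_le
  have hd3 : Nat.card (commutator N) ≠ 4 := by
    intro h
    exact hne (Subgroup.eq_of_le_of_card_ge hzpD (by rw [h, hzpcard]))
  have hd4 : Nat.card (commutator N) = 8 := by
    obtain ⟨a, ha⟩ := hd1
    have hpos : 0 < Nat.card (commutator N) := Nat.card_pos
    have h8 : Nat.card (commutator N) ≤ 8 := Nat.le_of_dvd (by norm_num) hd2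
    omega
  have h := Subgroup.card_mul_index (commutator N)
  rw [hN, hd4] at h
  omega

end Cfsg.Agent.Helper12
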