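import Mathlib
import Cfsg.Agent.Helper12.SL2Odd
import Cfsg.Agent.S5016
import Cfsg.Prelude.Def_GeometricClasses

/-!
# Elements of prime order of `PSL₂(p)` and the normaliser of a quaternion subgroup (helper12)
-/

set_option autoImplicit false

open Cfsg

namespace Cfsg.Agent.Helper12

theorem q8_d1 : (QuaternionGroup.a 1 : QuaternionGroup 2) * QuaternionGroup.a 1 = QuaternionGroup.a 2 := by decide
theorem q8_d2 : (QuaternionGroup.xa 0 : QuaternionGroup 2) * QuaternionGroup.xa 0 = QuaternionGroup.a 2 := by decide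
theorem q8_d3 : (QuaternionGroup.a 1 : QuaternionGroup 2) * QuaternionGroup.xa 0 * QuaternionGroup.a 1 = QuaternionGroup.xa 0 := by decide
theorem q8_d4 : (QuaternionGroup.a 2 : QuaternionGroup 2) * QuaternionGroup.a 2 = 1 := by decide
theorem q8_d5 : (QuaternionGroup.a 2 : QuaternionGroup 2) ≠ 1 := by decide
theorem q8_d6 : (QuaternionGroup.a 2 : QuaternionGroup 2) * QuaternionGroup.a 1 = QuaternionGroup.a 1 * QuaternionGroup.a 2 := by decide
theorem q8_d6' : (QuaternionGroup.a 2 : QuaternionGroup 2) * QuaternionGroup.xa 0 = QuaternionGroup.xa 0 * QuaternionGroup.a 2 := by decide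
theorem q8_d7 : (QuaternionGroup.a 1 : QuaternionGroup 2) * QuaternionGroup.xa 0 ≠ QuaternionGroup.xa 0 * QuaternionGroup.a 1 := by decide

theorem q8_cases (q : QuaternionGroup 2) :
    (∃ k : ℕ, q = QuaternionGroup.a 1 ^ k) ∨ (∃ k : ℕ, q = QuaternionGroup.xa 0 * QuaternionGroup.a 1 ^ k) := by
  cases q with
  | a i => left; exact ⟨i.val, by rw [QuaternionGroup.a_one_pow, ZMod.natCast_zmod_val]⟩
  | xa i => right; exact ⟨i.val, by rw [QuaternionGroup.a_one_pow, QuaternionGroup.xa_mul_a, zero_add, ZMod.natCast_zmod_val]⟩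

theorem prime_ge_five (r : ℕ) (hrp : r.Prime) (h2 : r ≠ 2) (h3 : r ≠ 3) : 5 ≤ r := by
  have h1 := hrp.two_le
  by_contra hlt
  have h4 : r ≤ 4 := by omega
  interval_cases r
  · exact h2 rfl
  · exact h3 rfl
  · norm_num at hrp

theorem card_eight_aux (r c : ℕ) (hrp : r.Prime) (hr5 : 5 ≤ r) (hdvd : c ∣ 8) (hc1 : c ≠ 1) (hmod : r ∣ 8 - c) : c = 8 := by
  have hle : c ≤ 8 := Nat.le_of_dvd (by norm_num) hdvd
  interval_cases c <;> first
    | rfl
    | omega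
    | (exfalso; have h4 : r ≤ 4 := Nat.le_of_dvd (by norm_num) hmod; omega)
    | (exfalso; have h6 : r ≤ 6 := Nat.le_of_dvd (by norm_num) hmod; interval_cases r <;> first | omega | norm_num at hrp)

section mat2

variable {F : Type*} [Field F]

theorem smul_one_fin_two (z : F) : (z • (1 : (Matrix (Fin 2) (Fin 2) F))) = !![z, 0; 0, z] := by
  ext i j
  fin_cases i <;> fin_cases j <;> simp

theorem lin2 (s m a b c d : F) :
    s • (!![a, b; c, d] : (Matrix (Fin 2) (Fin 2) F)) - m • (1 : (Matrix (Fin 2) (Fin 2) F)) = !![s * a - m, s * b; s * c, s * d - m] := by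
  ext i j
  fin_cases i <;> fin_cases j <;> simp

theorem lin2' (s m a b c d : F) :
    s • (!![a, b; c, d] : (Matrix (Fin 2) (Fin 2) F)) + m • (1 : (Matrix (Fin 2) (Fin 2) F)) = !![s * a + m, s * b; s * c, s * d + m] := by
  ext i j
  fin_cases i <;> fin_cases j <;> simp

theorem ch2 (A : (Matrix (Fin 2) (Fin 2) F)) : A * A = A.trace • A - A.det • (1 : (Matrix (Fin 2) (Fin 2) F)) := by
  obtain ⟨a, b, c, d, rfl⟩ : ∃ a b c d : F, A = !![a, b; c, d] := ⟨_, _, _, _, Matrix.eta_fin_two A⟩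
  rw [Matrix.mul_fin_two, Matrix.trace_fin_two_of, Matrix.det_fin_two_of, lin2]
  apply S5016.mat2_ext <;> ring

/-- the centraliser of a non-scalar `2 × 2` matrix is commutative -/
theorem comm_of_nonscalar (A X Y : (Matrix (Fin 2) (Fin 2) F)) (hA : ¬ ∃ z : F, A = z • (1 : (Matrix (Fin 2) (Fin 2) F)))
    (hX : X * A = A * X) (hY : Y * A = A * Y) : X * Y = Y * X := by
  obtain ⟨a, b, c, d, rfl⟩ : ∃ a b c d : F, A = !![a, b; c, d] := ⟨_, _, _, _, Matrix.eta_fin_two A⟩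
  have key : ∀ X : (Matrix (Fin 2) (Fin 2) F), X * !![a, b; c, d] = !![a, b; c, d] * X →
      ∃ α β : F, X = !![α + β * a, β * b; β * c, α + β * d] := by
    intro X hX
    obtain ⟨x1, x2, x3, x4, rfl⟩ : ∃ x1 x2 x3 x4 : F, X = !![x1, x2; x3, x4] := ⟨_, _, _, _, Matrix.eta_fin_two X⟩
    rw [Matrix.mul_fin_two, Matrix.mul_fin_two] at hX
    obtain ⟨e1, e2, e3, e4⟩ := S5016.mat2_inj hX
    by_cases hb : b = 0
    · by_cases hc : c = 0
      · have had : a - d ≠ 0 := by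
          intro h
          apply hA
          refine ⟨a, ?_⟩
          rw [smul_one_fin_two, hb, hc, sub_eq_zero.mp h]
        have hx2 : x2 = 0 := by
          have h5 : x2 * (a - d) = 0 := by linear_combination (x1 - x4) * hb - e2
          exact (mul_eq_zero.mp h5).resolve_right had
        have hx3 : x3 = 0 := by
          have h5 : x3 * (a - d) = 0 := by linear_combination e3 - (x4 - x1) * hc
          exact (mul_eq_zero.mp h5).resolve_right had
        have hβ : (x1 - x4) / (a - d) * (a - d) = x1 - x4 := div_mul_cancel₀ _ had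
        refine ⟨x1 - (x1 - x4) / (a - d) * a, (x1 - x4) / (a - d), ?_⟩
        apply S5016.mat2_ext
        · ring
        · rw [hx2, hb, mul_zero]
        · rw [hx3, hc, mul_zero]
        · linear_combination hβ
      · have hβ : x3 / c * c = x3 := div_mul_cancel₀ _ hc
        have hx2 : x2 = 0 := by
          have h5 : x2 * c = 0 := by linear_combination e1 + x3 * hb
          exact (mul_eq_zero.mp h5).resolve_right hc
        refine ⟨x1 - x3 / c * a, x3 / c, ?_⟩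
        apply S5016.mat2_ext
        · ring
        · rw [hx2, hb, mul_zero]
        · exact hβ.symm
        · exact mul_right_cancel₀ hc (by linear_combination e3 + (a - d) * hβ)
    · have hβ : x2 / b * b = x2 := div_mul_cancel₀ _ hb
      refine ⟨x1 - x2 / b * a, x2 / b, ?_⟩
      apply S5016.mat2_ext
      · ring
      · exact hβ.symm
      · exact mul_right_cancel₀ hb (by linear_combination -e1 - c * hβ)
      · exact mul_right_cancel₀ hb (by linear_combination -e2 + (a - d) * hβ)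
  obtain ⟨α, β, rfl⟩ := key X hX
  obtain ⟨α', β', rfl⟩ := key Y hY
  rw [Matrix.mul_fin_two, Matrix.mul_fin_two]
  apply S5016.mat2_ext <;> ring

/-- trace and determinant of a non-scalar matrix from a quadratic relation -/
theorem tr_det_of_quad (A : (Matrix (Fin 2) (Fin 2) F)) (hA : ¬ ∃ z : F, A = z • (1 : (Matrix (Fin 2) (Fin 2) F))) (s m : F)
    (h : A * A = s • A + m • (1 : (Matrix (Fin 2) (Fin 2) F))) : A.trace = s ∧ A.det = -m := by
  obtain ⟨a, b, c, d, rfl⟩ : ∃ a b c d : F, A = !![a, b; c, d] := ⟨_, _, _, _, Matrix.eta_fin_two A⟩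
  rw [Matrix.mul_fin_two, lin2'] at h
  obtain ⟨e1, e2, e3, e4⟩ := S5016.mat2_inj h
  rw [Matrix.trace_fin_two_of, Matrix.det_fin_two_of]
  have hts : a + d = s := by
    by_contra hne
    apply hA
    have hne' : a + d - s ≠ 0 := sub_ne_zero.mpr hne
    have hb : b = 0 := by
      have h5 : b * (a + d - s) = 0 := by linear_combination e2
      exact (mul_eq_zero.mp h5).resolve_right hne'
    have hc : c = 0 := by
      have h5 : c * (a + d - s) = 0 := by linear_combination e3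
      exact (mul_eq_zero.mp h5).resolve_right hne'
    have had : a = d := by
      have h5 : (a - d) * (a + d - s) = 0 := by linear_combination e1 - e4
      exact sub_eq_zero.mp ((mul_eq_zero.mp h5).resolve_right hne')
    refine ⟨a, ?_⟩
    rw [smul_one_fin_two, hb, hc, ← had]
  refine ⟨hts, ?_⟩
  linear_combination a * hts - e1

theorem neg_one_ne_one_mat (h2 : (2 : F) ≠ 0) : (-1 : (Matrix (Fin 2) (Fin 2) F)) ≠ 1 := by
  intro h
  have h1 := congrFun (congrFun h 0) 0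
  rw [Matrix.neg_apply, Matrix.one_apply_eq] at h1
  exact h2 (by linear_combination -h1)

theorem quat_noncomm (I J : (Matrix (Fin 2) (Fin 2) F)) (hII : I * I = -1) (hJJ : J * J = -1) (hJI : J * I = -(I * J)) (h2 : (2 : F) ≠ 0) : I * J ≠ J * I := by
  intro hcomm
  have hc : I * J = -(I * J) := hcomm.trans hJI
  have h1 : I * (I * J) * J = 1 := by rw [← mul_assoc, hII, neg_one_mul, neg_mul, hJJ, neg_neg]
  have h1' : I * (I * J) * J = -1 := by rw [hc, mul_neg, neg_mul, h1]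
  exact neg_one_ne_one_mat h2 (h1'.symm.trans h1)

theorem quat_I_facts (I J : (Matrix (Fin 2) (Fin 2) F)) (hII : I * I = -1) (hJJ : J * J = -1) (hJI : J * I = -(I * J)) (h2 : (2 : F) ≠ 0) :
    (¬ ∃ z : F, I = z • (1 : (Matrix (Fin 2) (Fin 2) F))) ∧ I.trace = 0 ∧ I.det = 1 := by
  have hns : ¬ ∃ z : F, I = z • (1 : (Matrix (Fin 2) (Fin 2) F)) := by
    rintro ⟨z, hz⟩
    apply quat_noncomm I J hII hJJ hJI h2
    rw [hz, Matrix.smul_mul, one_mul, Matrix.mul_smul, mul_one]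
  obtain ⟨ht, hd⟩ := tr_det_of_quad I hns 0 (-1) (by rw [hII, zero_smul, zero_add, neg_one_smul])
  exact ⟨hns, ht, by rw [hd, neg_neg]⟩

theorem quat_omega (I J : (Matrix (Fin 2) (Fin 2) F)) (hII : I * I = -1) (hJJ : J * J = -1) (hJI : J * I = -(I * J)) (h2 : (2 : F) ≠ 0) :
    ∃ w : (Matrix (Fin 2) (Fin 2) F), w * w = -w - 1 ∧ w * I = I * J * w ∧ w * J = I * w := by
  have hII' : ∀ X : (Matrix (Fin 2) (Fin 2) F), I * (I * X) = -X := fun X => by rw [← mul_assoc, hII, neg_one_mul]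
  have hJJ' : ∀ X : (Matrix (Fin 2) (Fin 2) F), J * (J * X) = -X := fun X => by rw [← mul_assoc, hJJ, neg_one_mul]
  have hJI' : ∀ X : (Matrix (Fin 2) (Fin 2) F), J * (I * X) = -(I * (J * X)) := fun X => by rw [← mul_assoc, hJI, neg_mul, mul_assoc]
  obtain ⟨W, hW⟩ : ∃ W : (Matrix (Fin 2) (Fin 2) F), W = -1 + I + J + I * J := ⟨_, rfl⟩
  have w1 : W * W = -(W + W) - (1 + 1 + 1 + 1) := by
    rw [hW]
    simp only [mul_add, add_mul, mul_neg, neg_mul, mul_one, one_mul, mul_assoc, hII, hJJ, hJI, hII', hJJ', hJI', neg_neg] <;> abel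
  have w2 : W * I = I * J * W := by
    rw [hW]
    simp only [mul_add, add_mul, mul_neg, neg_mul, mul_one, one_mul, mul_assoc, hII, hJJ, hJI, hII', hJJ', hJI', neg_neg] <;> abel
  have w3 : W * J = I * W := by
    rw [hW]
    simp only [mul_add, add_mul, mul_neg, neg_mul, mul_one, one_mul, mul_assoc, hII, hJJ, hJI, hII', hJJ', hJI', neg_neg] <;> abel
  obtain ⟨c, hc⟩ : ∃ c : F, 2 * c = 1 := ⟨2⁻¹, mul_inv_cancel₀ h2⟩
  have e1 : c * c * 2 = c := by linear_combination c * hc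
  have e2 : c * c * 4 = 1 := by linear_combination (2 * c + 1) * hc
  have two : W + W = (2 : F) • W := (two_smul F W).symm
  have four : (1 : (Matrix (Fin 2) (Fin 2) F)) + 1 + 1 + 1 = (4 : F) • (1 : (Matrix (Fin 2) (Fin 2) F)) := by
    have h4 : (4 : F) = 2 + 2 := by norm_num
    rw [h4, add_smul, two_smul]
    abel
  refine ⟨c • W, ?_, ?_, ?_⟩
  · calc (c • W) * (c • W) = (c * c) • (W * W) := by rw [Matrix.smul_mul, Matrix.mul_smul, smul_smul]
      _ = (c * c) • (-((2 : F) • W) - (4 : F) • (1 : (Matrix (Fin 2) (Fin 2) F))) := by rw [w1, two, four]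
      _ = -(c • W) - 1 := by rw [smul_sub, smul_neg, smul_smul, smul_smul, e1, e2, one_smul]
  · rw [Matrix.smul_mul, w2, Matrix.mul_smul]
  · rw [Matrix.smul_mul, w3, Matrix.mul_smul]

end mat2

variable {F : Type*} [Field F] [Fintype F] [DecidableEq F]

theorem mem_sl_iff (x : (Matrix.GeneralLinearGroup (Fin 2) F)) : x ∈ Cfsg.Geo.specialLinear (Fin 2) F ↔ ((x : (Matrix.GeneralLinearGroup (Fin 2) F)) : (Matrix (Fin 2) (Fin 2) F)).det = 1 := by
  unfold Cfsg.Geo.specialLinear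
  rw [MonoidHom.mem_ker, Units.ext_iff]
  rfl

/-- generators of a quaternion subgroup of `GL₂` satisfy the quaternion relations as matrices -/
theorem q8_data (R : Subgroup (Matrix.GeneralLinearGroup (Fin 2) F)) (e : ↥R ≃* QuaternionGroup 2) (h2 : (2 : F) ≠ 0) :
    ∃ I J : (Matrix.GeneralLinearGroup (Fin 2) F), I ∈ R ∧ J ∈ R ∧ ((I : (Matrix.GeneralLinearGroup (Fin 2) F)) : (Matrix (Fin 2) (Fin 2) F)) * ((I : (Matrix.GeneralLinearGroup (Fin 2) F)) : (Matrix (Fin 2) (Fin 2) F)) = -1 ∧ ((J : (Matrix.GeneralLinearGroup (Fin 2) F)) : (Matrix (Fin 2) (Fin 2) F)) * ((J : (Matrix.GeneralLinearGroup (Fin 2) F)) : (Matrix (Fin 2) (Fin 2) F)) = -1 ∧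
      ((J : (Matrix.GeneralLinearGroup (Fin 2) F)) : (Matrix (Fin 2) (Fin 2) F)) * ((I : (Matrix.GeneralLinearGroup (Fin 2) F)) : (Matrix (Fin 2) (Fin 2) F)) = -(((I : (Matrix.GeneralLinearGroup (Fin 2) F)) : (Matrix (Fin 2) (Fin 2) F)) * ((J : (Matrix.GeneralLinearGroup (Fin 2) F)) : (Matrix (Fin 2) (Fin 2) F))) ∧
      ∀ y ∈ R, (∃ k : ℕ, y = I ^ k) ∨ (∃ k : ℕ, y = J * I ^ k) := by
  obtain ⟨Ir, hIr⟩ : ∃ Ir : ↥R, Ir = e.symm (QuaternionGroup.a 1) := ⟨_, rfl⟩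
  obtain ⟨Jr, hJr⟩ : ∃ Jr : ↥R, Jr = e.symm (QuaternionGroup.xa 0) := ⟨_, rfl⟩
  obtain ⟨Zr, hZr⟩ : ∃ Zr : ↥R, Zr = e.symm (QuaternionGroup.a 2) := ⟨_, rfl⟩
  have r1 : Ir * Ir = Zr := by rw [hIr, hZr, ← map_mul e.symm, q8_d1]
  have r2 : Jr * Jr = Zr := by rw [hJr, hZr, ← map_mul e.symm, q8_d2]
  have r3 : Ir * Jr * Ir = Jr := by rw [hIr, hJr, ← map_mul e.symm, ← map_mul e.symm, q8_d3]
  have r4 : Zr * Zr = 1 := by rw [hZr, ← map_mul e.symm, q8_d4, map_one]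
  have r5 : Zr ≠ 1 := by
    intro h
    apply q8_d5
    have h' := congrArg e h
    rw [hZr, e.apply_symm_apply, map_one] at h'
    exact h'
  have r6 : Ir * Zr = Zr * Ir := by rw [hIr, hZr, ← map_mul e.symm, ← map_mul e.symm, q8_d6]
  have r6' : Jr * Zr = Zr * Jr := by rw [hJr, hZr, ← map_mul e.symm, ← map_mul e.symm, q8_d6']
  have r7 : Ir * Jr ≠ Jr * Ir := by
    intro h
    apply q8_d7
    have h' := congrArg e h
    rw [hIr, hJr, map_mul, map_mul, e.apply_symm_apply, e.apply_symm_apply] at h'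
    exact h'
  have v1 : ((Ir : (Matrix.GeneralLinearGroup (Fin 2) F)) : (Matrix (Fin 2) (Fin 2) F)) * ((Ir : (Matrix.GeneralLinearGroup (Fin 2) F)) : (Matrix (Fin 2) (Fin 2) F)) = ((Zr : (Matrix.GeneralLinearGroup (Fin 2) F)) : (Matrix (Fin 2) (Fin 2) F)) := congrArg (fun t : ↥R => ((t : (Matrix.GeneralLinearGroup (Fin 2) F)) : (Matrix (Fin 2) (Fin 2) F))) r1
  have v2 : ((Jr : (Matrix.GeneralLinearGroup (Fin 2) F)) : (Matrix (Fin 2) (Fin 2) F)) * ((Jr : (Matrix.GeneralLinearGroup (Fin 2) F)) : (Matrix (Fin 2) (Fin 2) F)) = ((Zr : (Matrix.GeneralLinearGroup (Fin 2) F)) : (Matrix (Fin 2) (Fin 2) F)) := congrArg (fun t : ↥R => ((t : (Matrix.GeneralLinearGroup (Fin 2) F)) : (Matrix (Fin 2) (Fin 2) F))) r2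
  have v3 : ((Ir : (Matrix.GeneralLinearGroup (Fin 2) F)) : (Matrix (Fin 2) (Fin 2) F)) * ((Jr : (Matrix.GeneralLinearGroup (Fin 2) F)) : (Matrix (Fin 2) (Fin 2) F)) * ((Ir : (Matrix.GeneralLinearGroup (Fin 2) F)) : (Matrix (Fin 2) (Fin 2) F)) = ((Jr : (Matrix.GeneralLinearGroup (Fin 2) F)) : (Matrix (Fin 2) (Fin 2) F)) := congrArg (fun t : ↥R => ((t : (Matrix.GeneralLinearGroup (Fin 2) F)) : (Matrix (Fin 2) (Fin 2) F))) r3
  have v4 : ((Zr : (Matrix.GeneralLinearGroup (Fin 2) F)) : (Matrix (Fin 2) (Fin 2) F)) * ((Zr : (Matrix.GeneralLinearGroup (Fin 2) F)) : (Matrix (Fin 2) (Fin 2) F)) = 1 := congrArg (fun t : ↥R => ((t : (Matrix.GeneralLinearGroup (Fin 2) F)) : (Matrix (Fin 2) (Fin 2) F))) r4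
  have v5 : ((Zr : (Matrix.GeneralLinearGroup (Fin 2) F)) : (Matrix (Fin 2) (Fin 2) F)) ≠ 1 := fun h => r5 (Subtype.ext (Units.ext h))
  have v6 : ((Ir : (Matrix.GeneralLinearGroup (Fin 2) F)) : (Matrix (Fin 2) (Fin 2) F)) * ((Zr : (Matrix.GeneralLinearGroup (Fin 2) F)) : (Matrix (Fin 2) (Fin 2) F)) = ((Zr : (Matrix.GeneralLinearGroup (Fin 2) F)) : (Matrix (Fin 2) (Fin 2) F)) * ((Ir : (Matrix.GeneralLinearGroup (Fin 2) F)) : (Matrix (Fin 2) (Fin 2) F)) := congrArg (fun t : ↥R => ((t : (Matrix.GeneralLinearGroup (Fin 2) F)) : (Matrix (Fin 2) (Fin 2) F))) r6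
  have v6' : ((Jr : (Matrix.GeneralLinearGroup (Fin 2) F)) : (Matrix (Fin 2) (Fin 2) F)) * ((Zr : (Matrix.GeneralLinearGroup (Fin 2) F)) : (Matrix (Fin 2) (Fin 2) F)) = ((Zr : (Matrix.GeneralLinearGroup (Fin 2) F)) : (Matrix (Fin 2) (Fin 2) F)) * ((Jr : (Matrix.GeneralLinearGroup (Fin 2) F)) : (Matrix (Fin 2) (Fin 2) F)) := congrArg (fun t : ↥R => ((t : (Matrix.GeneralLinearGroup (Fin 2) F)) : (Matrix (Fin 2) (Fin 2) F))) r6'
  have v7 : ((Ir : (Matrix.GeneralLinearGroup (Fin 2) F)) : (Matrix (Fin 2) (Fin 2) F)) * ((Jr : (Matrix.GeneralLinearGroup (Fin 2) F)) : (Matrix (Fin 2) (Fin 2) F)) ≠ ((Jr : (Matrix.GeneralLinearGroup (Fin 2) F)) : (Matrix (Fin 2) (Fin 2) F)) * ((Ir : (Matrix.GeneralLinearGroup (Fin 2) F)) : (Matrix (Fin 2) (Fin 2) F)) := fun h => r7 (Subtype.ext (Units.ext h))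
  obtain ⟨z, hz⟩ : ∃ z : F, ((Zr : (Matrix.GeneralLinearGroup (Fin 2) F)) : (Matrix (Fin 2) (Fin 2) F)) = z • (1 : (Matrix (Fin 2) (Fin 2) F)) := by
    by_contra hns
    exact v7 (comm_of_nonscalar _ _ _ hns v6 v6')
  have hz1 : z ≠ 1 := by
    intro h
    apply v5
    rw [hz, h, one_smul]
  have hzz : z * z + 0 * 0 = 1 := by
    have h1 := v4
    rw [hz, smul_one_fin_two, Matrix.mul_fin_two, Matrix.one_fin_two] at h1
    exact (S5016.mat2_inj h1).1
  have hzm : z = -1 := by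
    have h5 : (z - 1) * (z + 1) = 0 := by linear_combination hzz
    rcases mul_eq_zero.mp h5 with h6 | h6
    · exact absurd (sub_eq_zero.mp h6) hz1
    · exact eq_neg_of_add_eq_zero_left h6
  have hZ : ((Zr : (Matrix.GeneralLinearGroup (Fin 2) F)) : (Matrix (Fin 2) (Fin 2) F)) = -1 := by rw [hz, hzm, neg_one_smul]
  have hII : ((Ir : (Matrix.GeneralLinearGroup (Fin 2) F)) : (Matrix (Fin 2) (Fin 2) F)) * ((Ir : (Matrix.GeneralLinearGroup (Fin 2) F)) : (Matrix (Fin 2) (Fin 2) F)) = -1 := v1.trans hZ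
  have hJJ : ((Jr : (Matrix.GeneralLinearGroup (Fin 2) F)) : (Matrix (Fin 2) (Fin 2) F)) * ((Jr : (Matrix.GeneralLinearGroup (Fin 2) F)) : (Matrix (Fin 2) (Fin 2) F)) = -1 := v2.trans hZ
  have hJI : ((Jr : (Matrix.GeneralLinearGroup (Fin 2) F)) : (Matrix (Fin 2) (Fin 2) F)) * ((Ir : (Matrix.GeneralLinearGroup (Fin 2) F)) : (Matrix (Fin 2) (Fin 2) F)) = -(((Ir : (Matrix.GeneralLinearGroup (Fin 2) F)) : (Matrix (Fin 2) (Fin 2) F)) * ((Jr : (Matrix.GeneralLinearGroup (Fin 2) F)) : (Matrix (Fin 2) (Fin 2) F))) := by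
    have h : ((Ir : (Matrix.GeneralLinearGroup (Fin 2) F)) : (Matrix (Fin 2) (Fin 2) F)) * (((Ir : (Matrix.GeneralLinearGroup (Fin 2) F)) : (Matrix (Fin 2) (Fin 2) F)) * ((Jr : (Matrix.GeneralLinearGroup (Fin 2) F)) : (Matrix (Fin 2) (Fin 2) F)) * ((Ir : (Matrix.GeneralLinearGroup (Fin 2) F)) : (Matrix (Fin 2) (Fin 2) F))) = ((Ir : (Matrix.GeneralLinearGroup (Fin 2) F)) : (Matrix (Fin 2) (Fin 2) F)) * ((Jr : (Matrix.GeneralLinearGroup (Fin 2) F)) : (Matrix (Fin 2) (Fin 2) F)) := by rw [v3]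
    have h' : ((Ir : (Matrix.GeneralLinearGroup (Fin 2) F)) : (Matrix (Fin 2) (Fin 2) F)) * (((Ir : (Matrix.GeneralLinearGroup (Fin 2) F)) : (Matrix (Fin 2) (Fin 2) F)) * ((Jr : (Matrix.GeneralLinearGroup (Fin 2) F)) : (Matrix (Fin 2) (Fin 2) F)) * ((Ir : (Matrix.GeneralLinearGroup (Fin 2) F)) : (Matrix (Fin 2) (Fin 2) F))) = -(((Jr : (Matrix.GeneralLinearGroup (Fin 2) F)) : (Matrix (Fin 2) (Fin 2) F)) * ((Ir : (Matrix.GeneralLinearGroup (Fin 2) F)) : (Matrix (Fin 2) (Fin 2) F))) := by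
      rw [mul_assoc ((Ir : (Matrix.GeneralLinearGroup (Fin 2) F)) : (Matrix (Fin 2) (Fin 2) F)) ((Jr : (Matrix.GeneralLinearGroup (Fin 2) F)) : (Matrix (Fin 2) (Fin 2) F)) ((Ir : (Matrix.GeneralLinearGroup (Fin 2) F)) : (Matrix (Fin 2) (Fin 2) F)), ← mul_assoc, hII, neg_one_mul]
    calc ((Jr : (Matrix.GeneralLinearGroup (Fin 2) F)) : (Matrix (Fin 2) (Fin 2) F)) * ((Ir : (Matrix.GeneralLinearGroup (Fin 2) F)) : (Matrix (Fin 2) (Fin 2) F)) = -(-(((Jr : (Matrix.GeneralLinearGroup (Fin 2) F)) : (Matrix (Fin 2) (Fin 2) F)) * ((Ir : (Matrix.GeneralLinearGroup (Fin 2) F)) : (Matrix (Fin 2) (Fin 2) F)))) := (neg_neg _).symm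
      _ = -(((Ir : (Matrix.GeneralLinearGroup (Fin 2) F)) : (Matrix (Fin 2) (Fin 2) F)) * (((Ir : (Matrix.GeneralLinearGroup (Fin 2) F)) : (Matrix (Fin 2) (Fin 2) F)) * ((Jr : (Matrix.GeneralLinearGroup (Fin 2) F)) : (Matrix (Fin 2) (Fin 2) F)) * ((Ir : (Matrix.GeneralLinearGroup (Fin 2) F)) : (Matrix (Fin 2) (Fin 2) F)))) := by rw [h']
      _ = -(((Ir : (Matrix.GeneralLinearGroup (Fin 2) F)) : (Matrix (Fin 2) (Fin 2) F)) * ((Jr : (Matrix.GeneralLinearGroup (Fin 2) F)) : (Matrix (Fin 2) (Fin 2) F))) := by rw [h]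
  refine ⟨(Ir : (Matrix.GeneralLinearGroup (Fin 2) F)), (Jr : (Matrix.GeneralLinearGroup (Fin 2) F)), Ir.2, Jr.2, hII, hJJ, hJI, ?_⟩
  intro y hy
  rcases q8_cases (e ⟨y, hy⟩) with ⟨k, hk⟩ | ⟨k, hk⟩
  · left
    refine ⟨k, ?_⟩
    have h1 : (⟨y, hy⟩ : ↥R) = Ir ^ k := by
      rw [hIr, ← map_pow e.symm, ← hk, e.symm_apply_apply]
    exact congrArg Subtype.val h1
  · right
    refine ⟨k, ?_⟩
    have h1 : (⟨y, hy⟩ : ↥R) = Jr * Ir ^ k := by
      rw [hIr, hJr, ← map_pow e.symm, ← map_mul e.symm, ← hk, e.symm_apply_apply]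
    exact congrArg Subtype.val h1

/-- an element of prime order at least `5` normalising a quaternion subgroup is scalar -/
theorem q8_forward (R : Subgroup (Matrix.GeneralLinearGroup (Fin 2) F)) (e : ↥R ≃* QuaternionGroup 2) (h2 : (2 : F) ≠ 0) (r : ℕ) [Fact r.Prime]
    (hr5 : 5 ≤ r) (x : (Matrix.GeneralLinearGroup (Fin 2) F)) (hx : x ∈ Subgroup.normalizer (R : Set (Matrix.GeneralLinearGroup (Fin 2) F))) (hxr : x ^ r = 1) :
    ∃ z : F, ((x : (Matrix.GeneralLinearGroup (Fin 2) F)) : (Matrix (Fin 2) (Fin 2) F)) = z • (1 : (Matrix (Fin 2) (Fin 2) F)) := by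
  classical
  have hrp : r.Prime := Fact.out
  obtain ⟨I, J, hI, hJ, hII, hJJ, hJI, hcases⟩ := q8_data R e h2
  by_contra hns
  haveI : Fintype ↥R := Fintype.ofFinite _
  let σ : Equiv.Perm ↥R :=
    { toFun := fun y => ⟨x * y * x⁻¹, (Subgroup.mem_normalizer_iff.mp hx y).mp y.2⟩
      invFun := fun y => ⟨x⁻¹ * y * x, (Subgroup.mem_normalizer_iff''.mp hx y).mp y.2⟩
      left_inv := fun y => Subtype.ext (by
        show x⁻¹ * (x * (y : (Matrix.GeneralLinearGroup (Fin 2) F)) * x⁻¹) * x = y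
        group)
      right_inv := fun y => Subtype.ext (by
        show x * (x⁻¹ * (y : (Matrix.GeneralLinearGroup (Fin 2) F)) * x) * x⁻¹ = y
        group) }
  have hσ : ∀ y : ↥R, ((σ y : ↥R) : (Matrix.GeneralLinearGroup (Fin 2) F)) = x * y * x⁻¹ := fun y => rfl
  have hpow : ∀ (k : ℕ) (y : ↥R), (((σ ^ k) y : ↥R) : (Matrix.GeneralLinearGroup (Fin 2) F)) = x ^ k * y * (x ^ k)⁻¹ := by
    intro k
    induction k with
    | zero =>
      intro y
      rw [pow_zero σ, pow_zero x, Equiv.Perm.one_apply, one_mul, inv_one, mul_one]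
    | succ k ih =>
      intro y
      rw [pow_succ σ k, Equiv.Perm.mul_apply, ih, hσ, pow_succ x k, mul_inv_rev]
      simp only [mul_assoc]
  have hσr : σ ^ r ^ 1 = 1 := by
    rw [pow_one]
    refine Equiv.ext (fun y => Subtype.ext ?_)
    rw [hpow, hxr, one_mul, inv_one, mul_one, Equiv.Perm.one_apply]
  have hmod := Equiv.Perm.card_compl_support_modEq (p := r) (n := 1) hσr
  have hCmem : ∀ y : ↥R, y ∈ (Subgroup.centralizer ({x} : Set (Matrix.GeneralLinearGroup (Fin 2) F))).subgroupOf R ↔ (y : (Matrix.GeneralLinearGroup (Fin 2) F)) * x = x * y := fun y => by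
    rw [Subgroup.mem_subgroupOf]
    exact Subgroup.mem_centralizer_singleton_iff
  have hcardC : Nat.card ↥((Subgroup.centralizer ({x} : Set (Matrix.GeneralLinearGroup (Fin 2) F))).subgroupOf R) = σ.supportᶜ.card := by
    rw [Nat.card_eq_fintype_card]
    apply Fintype.card_of_subtype
    intro y
    rw [Finset.mem_compl, Equiv.Perm.mem_support, not_not, hCmem]
    constructor
    · intro h
      have h1 : x * (y : (Matrix.GeneralLinearGroup (Fin 2) F)) * x⁻¹ = y := congrArg Subtype.val h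
      exact (mul_inv_eq_iff_eq_mul.mp h1).symm
    · intro h
      apply Subtype.ext
      show x * (y : (Matrix.GeneralLinearGroup (Fin 2) F)) * x⁻¹ = y
      rw [← h, mul_inv_cancel_right]
  have hR8 : Nat.card ↥R = 8 := by
    rw [Nat.card_congr e.toEquiv, Nat.card_eq_fintype_card, QuaternionGroup.card]
  rw [← Nat.card_eq_fintype_card, hR8, ← hcardC] at hmod
  have hdvd : Nat.card ↥((Subgroup.centralizer ({x} : Set (Matrix.GeneralLinearGroup (Fin 2) F))).subgroupOf R) ∣ 8 := by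
    rw [← hR8]
    exact Subgroup.card_subgroup_dvd_card _
  have hne1 : (-1 : (Matrix (Fin 2) (Fin 2) F)) ≠ 1 := neg_one_ne_one_mat h2
  have hc1 : Nat.card ↥((Subgroup.centralizer ({x} : Set (Matrix.GeneralLinearGroup (Fin 2) F))).subgroupOf R) ≠ 1 := by
    intro h
    have hbot := Subgroup.eq_bot_of_card_eq _ h
    have hz : (⟨I * I, R.mul_mem hI hI⟩ : ↥R) ∈ (Subgroup.centralizer ({x} : Set (Matrix.GeneralLinearGroup (Fin 2) F))).subgroupOf R := by
      rw [hCmem]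
      apply Units.ext
      show ((I : (Matrix.GeneralLinearGroup (Fin 2) F)) : (Matrix (Fin 2) (Fin 2) F)) * ((I : (Matrix.GeneralLinearGroup (Fin 2) F)) : (Matrix (Fin 2) (Fin 2) F)) * ((x : (Matrix.GeneralLinearGroup (Fin 2) F)) : (Matrix (Fin 2) (Fin 2) F)) = ((x : (Matrix.GeneralLinearGroup (Fin 2) F)) : (Matrix (Fin 2) (Fin 2) F)) * (((I : (Matrix.GeneralLinearGroup (Fin 2) F)) : (Matrix (Fin 2) (Fin 2) F)) * ((I : (Matrix.GeneralLinearGroup (Fin 2) F)) : (Matrix (Fin 2) (Fin 2) F)))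
      rw [hII, neg_one_mul, mul_neg_one]
    rw [hbot, Subgroup.mem_bot] at hz
    apply hne1
    have h5 : ((I : (Matrix.GeneralLinearGroup (Fin 2) F)) : (Matrix (Fin 2) (Fin 2) F)) * ((I : (Matrix.GeneralLinearGroup (Fin 2) F)) : (Matrix (Fin 2) (Fin 2) F)) = 1 := congrArg (fun t : ↥R => ((t : (Matrix.GeneralLinearGroup (Fin 2) F)) : (Matrix (Fin 2) (Fin 2) F))) hz
    rw [← hII, h5]
  have hle : Nat.card ↥((Subgroup.centralizer ({x} : Set (Matrix.GeneralLinearGroup (Fin 2) F))).subgroupOf R) ≤ 8 := Nat.le_of_dvd (by norm_num) hdvd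
  have h8 := card_eight_aux r _ hrp hr5 hdvd hc1 ((Nat.modEq_iff_dvd' hle).mp hmod)
  have htop : (Subgroup.centralizer ({x} : Set (Matrix.GeneralLinearGroup (Fin 2) F))).subgroupOf R = ⊤ :=
    Subgroup.eq_top_of_card_eq _ (h8.trans hR8.symm)
  have hIx : (I : (Matrix.GeneralLinearGroup (Fin 2) F)) * x = x * I := (hCmem ⟨I, hI⟩).mp (by rw [htop]; exact Subgroup.mem_top _)
  have hJx : (J : (Matrix.GeneralLinearGroup (Fin 2) F)) * x = x * J := (hCmem ⟨J, hJ⟩).mp (by rw [htop]; exact Subgroup.mem_top _)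
  have hIx' : ((I : (Matrix.GeneralLinearGroup (Fin 2) F)) : (Matrix (Fin 2) (Fin 2) F)) * ((x : (Matrix.GeneralLinearGroup (Fin 2) F)) : (Matrix (Fin 2) (Fin 2) F)) = ((x : (Matrix.GeneralLinearGroup (Fin 2) F)) : (Matrix (Fin 2) (Fin 2) F)) * ((I : (Matrix.GeneralLinearGroup (Fin 2) F)) : (Matrix (Fin 2) (Fin 2) F)) := congrArg Units.val hIx
  have hJx' : ((J : (Matrix.GeneralLinearGroup (Fin 2) F)) : (Matrix (Fin 2) (Fin 2) F)) * ((x : (Matrix.GeneralLinearGroup (Fin 2) F)) : (Matrix (Fin 2) (Fin 2) F)) = ((x : (Matrix.GeneralLinearGroup (Fin 2) F)) : (Matrix (Fin 2) (Fin 2) F)) * ((J : (Matrix.GeneralLinearGroup (Fin 2) F)) : (Matrix (Fin 2) (Fin 2) F)) := congrArg Units.val hJx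
  exact quat_noncomm ((I : (Matrix.GeneralLinearGroup (Fin 2) F)) : (Matrix (Fin 2) (Fin 2) F)) ((J : (Matrix.GeneralLinearGroup (Fin 2) F)) : (Matrix (Fin 2) (Fin 2) F)) hII hJJ hJI h2 (comm_of_nonscalar ((x : (Matrix.GeneralLinearGroup (Fin 2) F)) : (Matrix (Fin 2) (Fin 2) F)) ((I : (Matrix.GeneralLinearGroup (Fin 2) F)) : (Matrix (Fin 2) (Fin 2) F)) ((J : (Matrix.GeneralLinearGroup (Fin 2) F)) : (Matrix (Fin 2) (Fin 2) F)) hns hIx' hJx')

/-- an element of order three (modulo scalars) normalising a quaternion subgroup -/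
theorem q8_order_three (R : Subgroup (Matrix.GeneralLinearGroup (Fin 2) F)) (I J : (Matrix.GeneralLinearGroup (Fin 2) F)) (hI : I ∈ R) (hJ : J ∈ R)
    (hII : ((I : (Matrix.GeneralLinearGroup (Fin 2) F)) : (Matrix (Fin 2) (Fin 2) F)) * ((I : (Matrix.GeneralLinearGroup (Fin 2) F)) : (Matrix (Fin 2) (Fin 2) F)) = -1) (hJJ : ((J : (Matrix.GeneralLinearGroup (Fin 2) F)) : (Matrix (Fin 2) (Fin 2) F)) * ((J : (Matrix.GeneralLinearGroup (Fin 2) F)) : (Matrix (Fin 2) (Fin 2) F)) = -1) (hJI : ((J : (Matrix.GeneralLinearGroup (Fin 2) F)) : (Matrix (Fin 2) (Fin 2) F)) * ((I : (Matrix.GeneralLinearGroup (Fin 2) F)) : (Matrix (Fin 2) (Fin 2) F)) = -(((I : (Matrix.GeneralLinearGroup (Fin 2) F)) : (Matrix (Fin 2) (Fin 2) F)) * ((J : (Matrix.GeneralLinearGroup (Fin 2) F)) : (Matrix (Fin 2) (Fin 2) F))))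
    (hcases : ∀ y ∈ R, (∃ k : ℕ, y = I ^ k) ∨ (∃ k : ℕ, y = J * I ^ k)) (h2 : (2 : F) ≠ 0) :
    ∃ n : (Matrix.GeneralLinearGroup (Fin 2) F), n ∈ Subgroup.normalizer (R : Set (Matrix.GeneralLinearGroup (Fin 2) F)) ∧ ((n : (Matrix.GeneralLinearGroup (Fin 2) F)) : (Matrix (Fin 2) (Fin 2) F)).trace = -1 ∧ ((n : (Matrix.GeneralLinearGroup (Fin 2) F)) : (Matrix (Fin 2) (Fin 2) F)).det = 1 := by
  obtain ⟨w, m1, m2, m3⟩ := quat_omega ((I : (Matrix.GeneralLinearGroup (Fin 2) F)) : (Matrix (Fin 2) (Fin 2) F)) ((J : (Matrix.GeneralLinearGroup (Fin 2) F)) : (Matrix (Fin 2) (Fin 2) F)) hII hJJ hJI h2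
  have hne1 : (-1 : (Matrix (Fin 2) (Fin 2) F)) ≠ 1 := neg_one_ne_one_mat h2
  have hw3 : w * (w * w) = 1 := by
    rw [m1, mul_sub, mul_neg, mul_one, m1]
    abel
  have hw3' : (w * w) * w = 1 := by rw [mul_assoc]; exact hw3
  have hwns : ¬ ∃ z : F, w = z • (1 : (Matrix (Fin 2) (Fin 2) F)) := by
    rintro ⟨z, hz⟩
    by_cases hz0 : z = 0
    · have m1' := m1
      rw [hz, hz0, zero_smul, zero_mul] at m1'
      simp at m1'
    · have h6 := m3
      rw [hz, Matrix.smul_mul, one_mul, Matrix.mul_smul, mul_one] at h6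
      have h7 : ((J : (Matrix.GeneralLinearGroup (Fin 2) F)) : (Matrix (Fin 2) (Fin 2) F)) = ((I : (Matrix.GeneralLinearGroup (Fin 2) F)) : (Matrix (Fin 2) (Fin 2) F)) := smul_right_injective _ hz0 h6
      have h8 := hJI
      rw [h7, hII, neg_neg] at h8
      exact hne1 h8
  obtain ⟨htr, hdet⟩ := tr_det_of_quad w hwns (-1) (-1) (by rw [m1, neg_one_smul, neg_one_smul, sub_eq_add_neg])
  obtain ⟨n, hn⟩ : ∃ n : (Matrix.GeneralLinearGroup (Fin 2) F), ((n : (Matrix.GeneralLinearGroup (Fin 2) F)) : (Matrix (Fin 2) (Fin 2) F)) = w := ⟨⟨w, w * w, hw3, hw3'⟩, rfl⟩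
  have hnI : n * I * n⁻¹ = I * J := mul_inv_eq_of_eq_mul (Units.ext (by
    show ((n : (Matrix.GeneralLinearGroup (Fin 2) F)) : (Matrix (Fin 2) (Fin 2) F)) * ((I : (Matrix.GeneralLinearGroup (Fin 2) F)) : (Matrix (Fin 2) (Fin 2) F)) = ((I : (Matrix.GeneralLinearGroup (Fin 2) F)) : (Matrix (Fin 2) (Fin 2) F)) * ((J : (Matrix.GeneralLinearGroup (Fin 2) F)) : (Matrix (Fin 2) (Fin 2) F)) * ((n : (Matrix.GeneralLinearGroup (Fin 2) F)) : (Matrix (Fin 2) (Fin 2) F))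
    rw [hn]
    exact m2))
  have hnJ : n * J * n⁻¹ = I := mul_inv_eq_of_eq_mul (Units.ext (by
    show ((n : (Matrix.GeneralLinearGroup (Fin 2) F)) : (Matrix (Fin 2) (Fin 2) F)) * ((J : (Matrix.GeneralLinearGroup (Fin 2) F)) : (Matrix (Fin 2) (Fin 2) F)) = ((I : (Matrix.GeneralLinearGroup (Fin 2) F)) : (Matrix (Fin 2) (Fin 2) F)) * ((n : (Matrix.GeneralLinearGroup (Fin 2) F)) : (Matrix (Fin 2) (Fin 2) F))
    rw [hn]
    exact m3))
  have hmem : n ∈ Subgroup.normalizer (R : Set (Matrix.GeneralLinearGroup (Fin 2) F)) := by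
    apply Subgroup.mem_normalizer_fintype
    intro y hy
    rcases hcases y hy with ⟨k, rfl⟩ | ⟨k, rfl⟩
    · rw [← conj_pow, hnI]
      exact R.pow_mem (R.mul_mem hI hJ) k
    · have e1 : n * (J * I ^ k) * n⁻¹ = (n * J * n⁻¹) * (n * I ^ k * n⁻¹) := by group
      rw [e1, ← conj_pow, hnI, hnJ]
      exact R.mul_mem hI (R.pow_mem (R.mul_mem hI hJ) k)
  refine ⟨n, hmem, ?_, ?_⟩
  · rw [hn]
    exact htr
  · rw [hn, hdet, neg_neg]

theorem sl_conj_of_trace (hodd : Odd (Fintype.card F)) (x n : (Matrix.GeneralLinearGroup (Fin 2) F)) (hx : ((x : (Matrix.GeneralLinearGroup (Fin 2) F)) : (Matrix (Fin 2) (Fin 2) F)).det = 1) (hn : ((n : (Matrix.GeneralLinearGroup (Fin 2) F)) : (Matrix (Fin 2) (Fin 2) F)).det = 1)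
    (ht : ((n : (Matrix.GeneralLinearGroup (Fin 2) F)) : (Matrix (Fin 2) (Fin 2) F)).trace = ((x : (Matrix.GeneralLinearGroup (Fin 2) F)) : (Matrix (Fin 2) (Fin 2) F)).trace) (h4 : ((n : (Matrix.GeneralLinearGroup (Fin 2) F)) : (Matrix (Fin 2) (Fin 2) F)).trace ^ 2 ≠ 4) :
    ∃ g : (Matrix.GeneralLinearGroup (Fin 2) F), ((g : (Matrix.GeneralLinearGroup (Fin 2) F)) : (Matrix (Fin 2) (Fin 2) F)).det = 1 ∧ g⁻¹ * x * g = n := by
  obtain ⟨c, hc⟩ := isConj_iff.mp (sl2_odd_isConj_of_trace hodd (⟨((n : (Matrix.GeneralLinearGroup (Fin 2) F)) : (Matrix (Fin 2) (Fin 2) F)), hn⟩ : (Matrix.SpecialLinearGroup (Fin 2) F)) ⟨((x : (Matrix.GeneralLinearGroup (Fin 2) F)) : (Matrix (Fin 2) (Fin 2) F)), hx⟩ ht h4)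
  refine ⟨Matrix.SpecialLinearGroup.toGL c, c.det_coe, ?_⟩
  have h1 : Matrix.SpecialLinearGroup.toGL c * n * (Matrix.SpecialLinearGroup.toGL c)⁻¹ = x := by
    apply Units.ext
    rw [← map_inv Matrix.SpecialLinearGroup.toGL c]
    exact congrArg Subtype.val hc
  rw [← h1]
  group

theorem q8_backward (hodd : Odd (Fintype.card F)) (h3 : (3 : F) ≠ 0) (R : Subgroup (Matrix.GeneralLinearGroup (Fin 2) F)) (e : ↥R ≃* QuaternionGroup 2)
    (r : ℕ) (hr : r = 2 ∨ r = 3) (x : (Matrix.GeneralLinearGroup (Fin 2) F)) (hx : ((x : (Matrix.GeneralLinearGroup (Fin 2) F)) : (Matrix (Fin 2) (Fin 2) F)).det = 1)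
    (hsc : ∃ z : F, ((x ^ r : (Matrix.GeneralLinearGroup (Fin 2) F)) : (Matrix (Fin 2) (Fin 2) F)) = z • (1 : (Matrix (Fin 2) (Fin 2) F))) (hns : ∀ z : F, ((x : (Matrix.GeneralLinearGroup (Fin 2) F)) : (Matrix (Fin 2) (Fin 2) F)) ≠ z • (1 : (Matrix (Fin 2) (Fin 2) F))) :
    ∃ g : (Matrix.GeneralLinearGroup (Fin 2) F), ((g : (Matrix.GeneralLinearGroup (Fin 2) F)) : (Matrix (Fin 2) (Fin 2) F)).det = 1 ∧ g⁻¹ * x * g ∈ Subgroup.normalizer (R : Set (Matrix.GeneralLinearGroup (Fin 2) F)) := by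
  have h2 : (2 : F) ≠ 0 := two_ne_zero_of_odd hodd
  have h4 : (4 : F) ≠ 0 := by
    have e4 : (4 : F) = 2 * 2 := by norm_num
    rw [e4]
    exact mul_ne_zero h2 h2
  obtain ⟨I, J, hI, hJ, hII, hJJ, hJI, hcases⟩ := q8_data R e h2
  have hns' : ¬ ∃ z : F, ((x : (Matrix.GeneralLinearGroup (Fin 2) F)) : (Matrix (Fin 2) (Fin 2) F)) = z • (1 : (Matrix (Fin 2) (Fin 2) F)) := fun ⟨z, hz⟩ => hns z hz
  obtain ⟨hIns, htI, hdI⟩ := quat_I_facts ((I : (Matrix.GeneralLinearGroup (Fin 2) F)) : (Matrix (Fin 2) (Fin 2) F)) ((J : (Matrix.GeneralLinearGroup (Fin 2) F)) : (Matrix (Fin 2) (Fin 2) F)) hII hJJ hJI h2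
  obtain ⟨z, hz⟩ := hsc
  rcases hr with rfl | rfl
  · have hxx : ((x : (Matrix.GeneralLinearGroup (Fin 2) F)) : (Matrix (Fin 2) (Fin 2) F)) * ((x : (Matrix.GeneralLinearGroup (Fin 2) F)) : (Matrix (Fin 2) (Fin 2) F)) = (0 : F) • ((x : (Matrix.GeneralLinearGroup (Fin 2) F)) : (Matrix (Fin 2) (Fin 2) F)) + z • (1 : (Matrix (Fin 2) (Fin 2) F)) := by
      rw [zero_smul, zero_add, ← hz, pow_two, Units.val_mul]
    obtain ⟨htx, -⟩ := tr_det_of_quad ((x : (Matrix.GeneralLinearGroup (Fin 2) F)) : (Matrix (Fin 2) (Fin 2) F)) hns' 0 z hxx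
    obtain ⟨g, hg, hgx⟩ := sl_conj_of_trace hodd x I hx hdI (by rw [htI, htx]) (by
      rw [htI]
      intro h
      apply h4
      linear_combination -h)
    refine ⟨g, hg, ?_⟩
    rw [hgx]
    exact Subgroup.le_normalizer hI
  · have hxxx : ((x : (Matrix.GeneralLinearGroup (Fin 2) F)) : (Matrix (Fin 2) (Fin 2) F)) * ((x : (Matrix.GeneralLinearGroup (Fin 2) F)) : (Matrix (Fin 2) (Fin 2) F)) * ((x : (Matrix.GeneralLinearGroup (Fin 2) F)) : (Matrix (Fin 2) (Fin 2) F)) = z • (1 : (Matrix (Fin 2) (Fin 2) F)) := by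
      rw [← hz, pow_succ, pow_two, Units.val_mul, Units.val_mul]
    have hch : ((x : (Matrix.GeneralLinearGroup (Fin 2) F)) : (Matrix (Fin 2) (Fin 2) F)) * ((x : (Matrix.GeneralLinearGroup (Fin 2) F)) : (Matrix (Fin 2) (Fin 2) F)) = ((x : (Matrix.GeneralLinearGroup (Fin 2) F)) : (Matrix (Fin 2) (Fin 2) F)).trace • ((x : (Matrix.GeneralLinearGroup (Fin 2) F)) : (Matrix (Fin 2) (Fin 2) F)) - 1 := by rw [ch2, hx, one_smul]
    have ht : ((x : (Matrix.GeneralLinearGroup (Fin 2) F)) : (Matrix (Fin 2) (Fin 2) F)).trace = 1 ∨ ((x : (Matrix.GeneralLinearGroup (Fin 2) F)) : (Matrix (Fin 2) (Fin 2) F)).trace = -1 := by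
      by_contra hne
      have hne' : ((x : (Matrix.GeneralLinearGroup (Fin 2) F)) : (Matrix (Fin 2) (Fin 2) F)).trace * ((x : (Matrix.GeneralLinearGroup (Fin 2) F)) : (Matrix (Fin 2) (Fin 2) F)).trace - 1 ≠ 0 := by
        intro h0
        apply hne
        have h5 : (((x : (Matrix.GeneralLinearGroup (Fin 2) F)) : (Matrix (Fin 2) (Fin 2) F)).trace - 1) * (((x : (Matrix.GeneralLinearGroup (Fin 2) F)) : (Matrix (Fin 2) (Fin 2) F)).trace + 1) = 0 := by linear_combination h0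
        rcases mul_eq_zero.mp h5 with h6 | h6
        · exact Or.inl (sub_eq_zero.mp h6)
        · exact Or.inr (eq_neg_of_add_eq_zero_left h6)
      have h3' := hxxx
      rw [hch, sub_mul, one_mul, Matrix.smul_mul, hch, smul_sub, smul_smul] at h3'
      have h5 : (((x : (Matrix.GeneralLinearGroup (Fin 2) F)) : (Matrix (Fin 2) (Fin 2) F)).trace * ((x : (Matrix.GeneralLinearGroup (Fin 2) F)) : (Matrix (Fin 2) (Fin 2) F)).trace - 1) • ((x : (Matrix.GeneralLinearGroup (Fin 2) F)) : (Matrix (Fin 2) (Fin 2) F)) = (z + ((x : (Matrix.GeneralLinearGroup (Fin 2) F)) : (Matrix (Fin 2) (Fin 2) F)).trace) • (1 : (Matrix (Fin 2) (Fin 2) F)) := by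
        rw [sub_smul, one_smul, add_smul, ← h3']
        abel
      apply hns ((z + ((x : (Matrix.GeneralLinearGroup (Fin 2) F)) : (Matrix (Fin 2) (Fin 2) F)).trace) / (((x : (Matrix.GeneralLinearGroup (Fin 2) F)) : (Matrix (Fin 2) (Fin 2) F)).trace * ((x : (Matrix.GeneralLinearGroup (Fin 2) F)) : (Matrix (Fin 2) (Fin 2) F)).trace - 1))
      calc ((x : (Matrix.GeneralLinearGroup (Fin 2) F)) : (Matrix (Fin 2) (Fin 2) F)) = (((x : (Matrix.GeneralLinearGroup (Fin 2) F)) : (Matrix (Fin 2) (Fin 2) F)).trace * ((x : (Matrix.GeneralLinearGroup (Fin 2) F)) : (Matrix (Fin 2) (Fin 2) F)).trace - 1)⁻¹ • ((((x : (Matrix.GeneralLinearGroup (Fin 2) F)) : (Matrix (Fin 2) (Fin 2) F)).trace * ((x : (Matrix.GeneralLinearGroup (Fin 2) F)) : (Matrix (Fin 2) (Fin 2) F)).trace - 1) • ((x : (Matrix.GeneralLinearGroup (Fin 2) F)) : (Matrix (Fin 2) (Fin 2) F))) := by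
            rw [smul_smul, inv_mul_cancel₀ hne', one_smul]
        _ = (((x : (Matrix.GeneralLinearGroup (Fin 2) F)) : (Matrix (Fin 2) (Fin 2) F)).trace * ((x : (Matrix.GeneralLinearGroup (Fin 2) F)) : (Matrix (Fin 2) (Fin 2) F)).trace - 1)⁻¹ • ((z + ((x : (Matrix.GeneralLinearGroup (Fin 2) F)) : (Matrix (Fin 2) (Fin 2) F)).trace) • (1 : (Matrix (Fin 2) (Fin 2) F))) := by rw [h5]
        _ = ((z + ((x : (Matrix.GeneralLinearGroup (Fin 2) F)) : (Matrix (Fin 2) (Fin 2) F)).trace) / (((x : (Matrix.GeneralLinearGroup (Fin 2) F)) : (Matrix (Fin 2) (Fin 2) F)).trace * ((x : (Matrix.GeneralLinearGroup (Fin 2) F)) : (Matrix (Fin 2) (Fin 2) F)).trace - 1)) • (1 : (Matrix (Fin 2) (Fin 2) F)) := by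
            rw [smul_smul, div_eq_mul_inv, mul_comm (z + ((x : (Matrix.GeneralLinearGroup (Fin 2) F)) : (Matrix (Fin 2) (Fin 2) F)).trace) _]
    obtain ⟨n, hnN, htn, hdn⟩ := q8_order_three R I J hI hJ hII hJJ hJI hcases h2
    rcases ht with ht | ht
    · have hm : I * I * n ∈ Subgroup.normalizer (R : Set (Matrix.GeneralLinearGroup (Fin 2) F)) :=
        (Subgroup.normalizer (R : Set (Matrix.GeneralLinearGroup (Fin 2) F))).mul_mem (Subgroup.le_normalizer (R.mul_mem hI hI)) hnN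
      have hvm : ((I * I * n : (Matrix.GeneralLinearGroup (Fin 2) F)) : (Matrix (Fin 2) (Fin 2) F)) = -((n : (Matrix.GeneralLinearGroup (Fin 2) F)) : (Matrix (Fin 2) (Fin 2) F)) := by
        show ((I : (Matrix.GeneralLinearGroup (Fin 2) F)) : (Matrix (Fin 2) (Fin 2) F)) * ((I : (Matrix.GeneralLinearGroup (Fin 2) F)) : (Matrix (Fin 2) (Fin 2) F)) * ((n : (Matrix.GeneralLinearGroup (Fin 2) F)) : (Matrix (Fin 2) (Fin 2) F)) = -((n : (Matrix.GeneralLinearGroup (Fin 2) F)) : (Matrix (Fin 2) (Fin 2) F))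
        rw [hII, neg_one_mul]
      have hdm : ((I * I * n : (Matrix.GeneralLinearGroup (Fin 2) F)) : (Matrix (Fin 2) (Fin 2) F)).det = 1 := by
        show (((I : (Matrix.GeneralLinearGroup (Fin 2) F)) : (Matrix (Fin 2) (Fin 2) F)) * ((I : (Matrix.GeneralLinearGroup (Fin 2) F)) : (Matrix (Fin 2) (Fin 2) F)) * ((n : (Matrix.GeneralLinearGroup (Fin 2) F)) : (Matrix (Fin 2) (Fin 2) F))).det = 1
        rw [Matrix.det_mul, Matrix.det_mul, hdI, hdn, mul_one, mul_one]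
      obtain ⟨g, hg, hgx⟩ := sl_conj_of_trace hodd x (I * I * n) hx hdm
        (by rw [hvm, Matrix.trace_neg, htn, neg_neg, ht]) (by
          rw [hvm, Matrix.trace_neg, htn, neg_neg]
          intro h
          apply h3
          linear_combination -h)
      exact ⟨g, hg, by rw [hgx]; exact hm⟩
    · obtain ⟨g, hg, hgx⟩ := sl_conj_of_trace hodd x n hx hdn (by rw [htn, ht]) (by
          rw [htn]
          intro h
          apply h3
          linear_combination -h)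
      exact ⟨g, hg, by rw [hgx]; exact hnN⟩

theorem q8_main (hodd : Odd (Fintype.card F)) (h3 : (3 : F) ≠ 0) (R : Subgroup (Matrix.GeneralLinearGroup (Fin 2) F)) (e : ↥R ≃* QuaternionGroup 2)
    (r : ℕ) [Fact r.Prime]
    (hΩ : r ∣ (Cfsg.Geo.subgroupNormalizer R).relIndex (Cfsg.Geo.specialLinear (Fin 2) F)) :
    (∀ x ∈ Cfsg.Geo.specialLinear (Fin 2) F, (∃ z : F, ((x ^ r : (Matrix.GeneralLinearGroup (Fin 2) F)) : (Matrix (Fin 2) (Fin 2) F)) = z • (1 : (Matrix (Fin 2) (Fin 2) F))) →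
      (∀ z : F, ((x : (Matrix.GeneralLinearGroup (Fin 2) F)) : (Matrix (Fin 2) (Fin 2) F)) ≠ z • (1 : (Matrix (Fin 2) (Fin 2) F))) →
      ∃ g ∈ Cfsg.Geo.specialLinear (Fin 2) F, g⁻¹ * x * g ∈ Cfsg.Geo.subgroupNormalizer R) ↔ (r = 2 ∨ r = 3) := by
  have hrp : r.Prime := Fact.out
  have h2 : (2 : F) ≠ 0 := two_ne_zero_of_odd hodd
  constructor
  · intro hall
    by_contra hne
    have hr5 : 5 ≤ r := prime_ge_five r hrp (fun h => hne (Or.inl h)) (fun h => hne (Or.inr h))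
    have hdvd : r ∣ Nat.card ↥(Cfsg.Geo.specialLinear (Fin 2) F) := dvd_trans hΩ (Subgroup.relIndex_dvd_card _ _)
    obtain ⟨x₀, hx₀⟩ := exists_prime_orderOf_dvd_card' r hdvd
    have hxr : (x₀ : (Matrix.GeneralLinearGroup (Fin 2) F)) ^ r = 1 := by
      have h := pow_orderOf_eq_one x₀
      rw [hx₀] at h
      exact congrArg Subtype.val h
    have hxdet : ((x₀ : (Matrix.GeneralLinearGroup (Fin 2) F)) : (Matrix (Fin 2) (Fin 2) F)).det = 1 := (mem_sl_iff _).mp x₀.2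
    have hnons : ∀ z : F, ((x₀ : (Matrix.GeneralLinearGroup (Fin 2) F)) : (Matrix (Fin 2) (Fin 2) F)) ≠ z • (1 : (Matrix (Fin 2) (Fin 2) F)) := by
      intro z hz
      have hz2 : z ^ 2 = 1 := by
        have hd := hxdet
        rw [hz, Matrix.det_smul, Matrix.det_one, Fintype.card_fin, mul_one] at hd
        exact hd
      have hxx : (x₀ : (Matrix.GeneralLinearGroup (Fin 2) F)) * (x₀ : (Matrix.GeneralLinearGroup (Fin 2) F)) = 1 := by
        apply Units.ext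
        show ((x₀ : (Matrix.GeneralLinearGroup (Fin 2) F)) : (Matrix (Fin 2) (Fin 2) F)) * ((x₀ : (Matrix.GeneralLinearGroup (Fin 2) F)) : (Matrix (Fin 2) (Fin 2) F)) = 1
        rw [hz, Matrix.smul_mul, Matrix.mul_smul, mul_one, smul_smul, ← pow_two, hz2, one_smul]
      have hx0 : x₀ ^ 2 = 1 := Subtype.ext (by rw [pow_two]; exact hxx)
      have h5 := orderOf_dvd_of_pow_eq_one hx0
      rw [hx₀] at h5
      have h6 := Nat.le_of_dvd (by norm_num) h5
      omega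
    obtain ⟨g, hg, hgN⟩ := hall (x₀ : (Matrix.GeneralLinearGroup (Fin 2) F)) x₀.2 ⟨1, by rw [hxr, one_smul, Units.val_one]⟩ hnons
    have hx'r : (g⁻¹ * (x₀ : (Matrix.GeneralLinearGroup (Fin 2) F)) * g) ^ r = 1 := by
      have e1 : g⁻¹ * (x₀ : (Matrix.GeneralLinearGroup (Fin 2) F)) * g = g⁻¹ * (x₀ : (Matrix.GeneralLinearGroup (Fin 2) F)) * g⁻¹⁻¹ := by rw [inv_inv]
      rw [e1, conj_pow, hxr, mul_one, mul_inv_cancel]
    obtain ⟨z, hz⟩ := q8_forward R e h2 r hr5 _ hgN hx'r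
    apply hnons z
    have e2 : (x₀ : (Matrix.GeneralLinearGroup (Fin 2) F)) = g * (g⁻¹ * (x₀ : (Matrix.GeneralLinearGroup (Fin 2) F)) * g) * g⁻¹ := by group
    have e3 : ((x₀ : (Matrix.GeneralLinearGroup (Fin 2) F)) : (Matrix (Fin 2) (Fin 2) F)) = ((g : (Matrix.GeneralLinearGroup (Fin 2) F)) : (Matrix (Fin 2) (Fin 2) F)) * ((g⁻¹ * (x₀ : (Matrix.GeneralLinearGroup (Fin 2) F)) * g : (Matrix.GeneralLinearGroup (Fin 2) F)) : (Matrix (Fin 2) (Fin 2) F)) * ((g⁻¹ : (Matrix.GeneralLinearGroup (Fin 2) F)) : (Matrix (Fin 2) (Fin 2) F)) := congrArg Units.val e2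
    rw [e3, hz, Matrix.mul_smul, Matrix.smul_mul, mul_one, ← Units.val_mul, mul_inv_cancel, Units.val_one]
  · intro hr x hx hsc hns
    obtain ⟨g, hg, hgN⟩ := q8_backward hodd h3 R e r hr x ((mem_sl_iff x).mp hx) hsc hns
    exact ⟨g, (mem_sl_iff g).mpr hg, hgN⟩

end Cfsg.Agent.Helper12
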