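import Mathlib

set_option autoImplicit false
open Matrix Polynomial

namespace Cfsg.Agent.Helper12.S5998p6

/-- cube roots in a finite field with `9 ∣ q - 1`: every `z` with `z ^ 3 = 1` is a cube. -/
theorem exists_cube_root {F : Type*} [Field F] [Fintype F] (h9 : 9 ∣ Fintype.card F - 1)
    (z : F) (hz : z ^ 3 = 1) : ∃ ζ : F, ζ ≠ 0 ∧ ζ ^ 3 = z := by
  classical
  have hz0 : z ≠ 0 := by
    intro h
    rw [h] at hz
    simp at hz
  obtain ⟨g, hg⟩ := IsCyclic.exists_generator (α := Fˣ)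
  obtain ⟨a, ha⟩ := Subgroup.mem_zpowers_iff.mp (hg (Units.mk0 z hz0))
  have hord : orderOf g = Fintype.card F - 1 := by
    rw [orderOf_eq_card_of_forall_mem_zpowers hg, Nat.card_eq_fintype_card, Fintype.card_units]
  have h1 : g ^ (a * 3) = 1 := by
    rw [_root_.zpow_mul, ha]
    apply Units.ext
    simp [hz]
  have h2 : (orderOf g : ℤ) ∣ a * 3 := orderOf_dvd_iff_zpow_eq_one.mpr h1
  have h3 : (3 : ℤ) ∣ a := by
    rw [hord] at h2
    obtain ⟨c, hc⟩ := h9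
    rw [hc] at h2
    obtain ⟨e, he⟩ := h2
    push_cast at he
    exact ⟨(c : ℤ) * e, by linarith⟩
  obtain ⟨b, hb⟩ := h3
  refine ⟨((g ^ b : Fˣ) : F), Units.ne_zero _, ?_⟩
  have h4 : (g ^ b) ^ 3 = Units.mk0 z hz0 := by
    rw [← ha, hb, ← zpow_natCast, ← _root_.zpow_mul]
    congr 1
    ring
  have h5 := congrArg (fun u : Fˣ => (u : F)) h4
  simpa using h5

theorem three_ne_zero' {F : Type*} [Field F] [Fintype F] (h9 : 9 ∣ Fintype.card F - 1) :
    (3 : F) ≠ 0 := by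
  intro h0
  have h1 : addOrderOf (1 : F) ∣ 3 := by
    rw [addOrderOf_dvd_iff_nsmul_eq_zero, nsmul_one]
    exact_mod_cast h0
  have h2 : addOrderOf (1 : F) = 3 := by
    rcases (Nat.dvd_prime Nat.prime_three).mp h1 with h | h
    · rw [AddMonoid.addOrderOf_eq_one_iff] at h
      exact absurd h one_ne_zero
    · exact h
  have h3 : 3 ∣ Fintype.card F := by
    rw [← h2]
    exact addOrderOf_dvd_card
  have hpos : 0 < Fintype.card F := Fintype.card_pos
  obtain ⟨a, ha⟩ := h3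
  obtain ⟨b, hb⟩ := h9
  omega

/-- A matrix with `M ^ 3 = 1` has a basis of eigenvectors with eigenvalues `1, w, w²`. -/
theorem eigen_basis {F : Type*} [Field F] (h3 : (3 : F) ≠ 0) (w : F) (hw1 : w ≠ 1)
    (hw3 : w ^ 3 = 1) (M : Matrix (Fin 3) (Fin 3) F) (hM : M ^ 3 = 1) :
    ∃ (v : Fin 3 → (Fin 3 → F)) (a : Fin 3 → Fin 3), LinearIndependent F v ∧
      ∀ i, M *ᵥ v i = w ^ (a i : ℕ) • v i := by
  classical
  have hw : 1 + w + w ^ 2 = 0 := by
    have h : (w - 1) * (1 + w + w ^ 2) = 0 := by linear_combination hw3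
    rcases mul_eq_zero.mp h with h | h
    · exact absurd (sub_eq_zero.mp h) hw1
    · exact h
  have hC : (C w : F[X]) ^ 3 = 1 := by rw [← C_pow, hw3, C_1]
  have hC1 : (1 : F[X]) + C w + C w ^ 2 = 0 := by
    rw [← C_pow, ← C_1, ← C_add, ← C_add, hw, C_0]
  obtain ⟨q0, hq0⟩ : ∃ q0 : F[X], q0 = 1 + X + X ^ 2 := ⟨_, rfl⟩
  obtain ⟨q1, hq1⟩ : ∃ q1 : F[X], q1 = 1 + C w ^ 2 * X + C w * X ^ 2 := ⟨_, rfl⟩
  obtain ⟨q2, hq2⟩ : ∃ q2 : F[X], q2 = 1 + C w * X + C w ^ 2 * X ^ 2 := ⟨_, rfl⟩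
  have e0 : (X : F[X]) * q0 = C w ^ 0 * q0 + (X ^ 3 - 1) := by rw [hq0]; ring
  have e1 : (X : F[X]) * q1 = C w ^ 1 * q1 + C w * (X ^ 3 - 1) := by
    rw [hq1]; linear_combination (-(X : F[X])) * hC
  have e2 : (X : F[X]) * q2 = C w ^ 2 * q2 + C w ^ 2 * (X ^ 3 - 1) := by
    rw [hq2]; linear_combination (-(X + C w * X ^ 2 : F[X])) * hC
  have esum : q0 + q1 + q2 = C 3 := by
    rw [hq0, hq1, hq2]
    have : (C 3 : F[X]) = 3 := map_ofNat C 3
    rw [this]
    linear_combination (X + X ^ 2 : F[X]) * hC1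
  have hX3 : aeval M (X ^ 3 - 1 : F[X]) = 0 := by
    rw [map_sub, map_pow, aeval_X, map_one, hM, sub_self]
  -- eigenvector property
  have key : ∀ (j : ℕ) (q r : F[X]), (X : F[X]) * q = C w ^ j * q + r * (X ^ 3 - 1) →
      ∀ u : Fin 3 → F, M *ᵥ ((aeval M q) *ᵥ u) = w ^ j • ((aeval M q) *ᵥ u) := by
    intro j q r hq u
    have h1 : M * aeval M q = algebraMap F (Matrix (Fin 3) (Fin 3) F) (w ^ j) * aeval M q := by
      have h2 := congrArg (aeval M) hq
      rw [map_mul, aeval_X, map_add, map_mul, map_mul, hX3, mul_zero, add_zero, map_pow,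
        aeval_C, ← map_pow] at h2
      exact h2
    rw [Matrix.mulVec_mulVec, h1, Algebra.algebraMap_eq_smul_one, smul_mul_assoc, one_mul,
      Matrix.smul_mulVec]
  obtain ⟨t, ht⟩ : ∃ t : Set (Fin 3 → F),
      t = {u | ∃ j : Fin 3, M *ᵥ u = w ^ (j : ℕ) • u} := ⟨_, rfl⟩
  have hspan : Submodule.span F t = ⊤ := by
    rw [eq_top_iff]
    intro u _
    have h1 : (aeval M q0) *ᵥ u ∈ t := by
      rw [ht]; exact ⟨0, key 0 q0 1 (by rw [e0]; ring) u⟩
    have h2 : (aeval M q1) *ᵥ u ∈ t := by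
      rw [ht]; exact ⟨1, key 1 q1 (C w) (by rw [e1]) u⟩
    have h3' : (aeval M q2) *ᵥ u ∈ t := by
      rw [ht]; exact ⟨2, key 2 q2 (C w ^ 2) (by rw [e2]) u⟩
    have h4 : (aeval M q0) *ᵥ u + (aeval M q1) *ᵥ u + (aeval M q2) *ᵥ u = (3 : F) • u := by
      rw [← Matrix.add_mulVec, ← Matrix.add_mulVec, ← map_add, ← map_add, esum, aeval_C,
        Algebra.algebraMap_eq_smul_one, Matrix.smul_mulVec, Matrix.one_mulVec]
    have h5 : u = (3 : F)⁻¹ • ((aeval M q0) *ᵥ u + (aeval M q1) *ᵥ u + (aeval M q2) *ᵥ u) := by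
      rw [h4, smul_smul, inv_mul_cancel₀ h3, one_smul]
    rw [h5]
    exact Submodule.smul_mem _ _ (Submodule.add_mem _ (Submodule.add_mem _
      (Submodule.subset_span h1) (Submodule.subset_span h2)) (Submodule.subset_span h3'))
  obtain ⟨b, hbt, hbspan, hbli⟩ := exists_linearIndependent F t
  rw [hspan] at hbspan
  have hcard : Nat.card ↥b = 3 := by
    have B : Module.Basis ↥b F (Fin 3 → F) := Module.Basis.mk hbli (by
      rw [Subtype.range_coe_subtype]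
      exact hbspan.ge)
    have h1 := Module.finrank_eq_nat_card_basis B
    rw [Module.finrank_fintype_fun_eq_card, Fintype.card_fin] at h1
    exact h1.symm
  haveI : Finite ↥b := Nat.finite_of_card_ne_zero (by rw [hcard]; norm_num)
  have e : ↥b ≃ Fin 3 := Finite.equivFinOfCardEq hcard
  have hex : ∀ i : Fin 3, ∃ j : Fin 3, M *ᵥ ((e.symm i : ↥b) : Fin 3 → F) =
      w ^ (j : ℕ) • ((e.symm i : ↥b) : Fin 3 → F) := by
    intro i
    have h1 := hbt (e.symm i).2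
    rw [ht] at h1
    exact h1
  choose a ha using hex
  exact ⟨fun i => ((e.symm i : ↥b) : Fin 3 → F), a, hbli.comp e.symm e.symm.injective, ha⟩

theorem triple_lemma : ∀ a : Fin 3 → Fin 3, ¬ (a 0 = a 1 ∧ a 1 = a 2) →
    ∃ i j l : Fin 3, Function.Injective ![i, j, l] ∧
      ((a i = a j ∧ a l ≠ a i) ∨ (a i = 0 ∧ a j = 1 ∧ a l = 2)) := by decide

theorem pow_cases {F : Type*} [Field F] (w : F) (hw3 : w ^ 3 = 1) :
    ∀ α β : Fin 3, β ≠ α →
      w ^ (β : ℕ) = w ^ (α : ℕ) * w ∨ w ^ (β : ℕ) = w ^ (α : ℕ) * w ^ 2 := by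
  intro α β h
  fin_cases α <;> fin_cases β
  · exact absurd rfl h
  · left; show w ^ 1 = w ^ 0 * w; ring
  · right; show w ^ 2 = w ^ 0 * w ^ 2; ring
  · right; show w ^ 0 = w ^ 1 * w ^ 2; linear_combination (-1 : F) * hw3
  · exact absurd rfl h
  · left; show w ^ 2 = w ^ 1 * w; ring
  · left; show w ^ 0 = w ^ 2 * w; linear_combination (-1 : F) * hw3
  · right; show w ^ 1 = w ^ 2 * w ^ 2; linear_combination (-w) * hw3
  · exact absurd rfl h

/-- (p6 of S5998) normal form of a non-scalar `x ∈ SL_3(F)` with `x ^ 3` scalar, `9 ∣ q - 1`. -/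
theorem p6 {F : Type*} [Field F] [Fintype F] (h9 : 9 ∣ Fintype.card F - 1) (w : F) (hw1 : w ≠ 1) (hw3 : w ^ 3 = 1) (x : GL (Fin 3) F) (hdet : (x : Matrix (Fin 3) (Fin 3) F).det = 1) (z : F)
    (hx3 : ((x ^ 3 : GL (Fin 3) F) : Matrix (Fin 3) (Fin 3) F) = z • (1 : Matrix (Fin 3) (Fin 3) F))
    (hns : ∀ z : F, (x : Matrix (Fin 3) (Fin 3) F) ≠ z • (1 : Matrix (Fin 3) (Fin 3) F)) :
    ∃ (k : GL (Fin 3) F) (c : F),
      (x : Matrix (Fin 3) (Fin 3) F) * (k : Matrix (Fin 3) (Fin 3) F) = c • ((k : Matrix (Fin 3) (Fin 3) F) * !![1,0,0; 0,w,0; 0,0,w^2]) ∨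
      (x : Matrix (Fin 3) (Fin 3) F) * (k : Matrix (Fin 3) (Fin 3) F) = c • ((k : Matrix (Fin 3) (Fin 3) F) * !![1,0,0; 0,1,0; 0,0,w]) ∨
      (x : Matrix (Fin 3) (Fin 3) F) * (k : Matrix (Fin 3) (Fin 3) F) = c • ((k : Matrix (Fin 3) (Fin 3) F) * !![1,0,0; 0,1,0; 0,0,w^2]) := by
  classical
  have hX3 : (x : Matrix (Fin 3) (Fin 3) F) ^ 3 = z • 1 := by
    rw [← hx3]
    simp
  obtain ⟨X, hX⟩ : ∃ X : Matrix (Fin 3) (Fin 3) F, X = (x : Matrix (Fin 3) (Fin 3) F) :=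
    ⟨_, rfl⟩
  rw [← hX] at hdet hns hX3 ⊢
  have hz3 : z ^ 3 = 1 := by
    have h1 := congrArg Matrix.det hX3
    rw [Matrix.det_pow, hdet, one_pow, Matrix.det_smul, Matrix.det_one, mul_one,
      Fintype.card_fin] at h1
    exact h1.symm
  have hz0 : z ≠ 0 := by
    intro h
    rw [h] at hz3
    simp at hz3
  obtain ⟨ζ, hζ0, hζ3⟩ := exists_cube_root h9 z hz3
  have h3 := three_ne_zero' h9
  obtain ⟨Mn, hMn⟩ : ∃ Mn : Matrix (Fin 3) (Fin 3) F, Mn = ζ⁻¹ • X := ⟨_, rfl⟩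
  have hXM : X = ζ • Mn := by rw [hMn, smul_smul, mul_inv_cancel₀ hζ0, one_smul]
  have hM3 : Mn ^ 3 = 1 := by
    rw [hMn, _root_.smul_pow, hX3, smul_smul, inv_pow, hζ3, inv_mul_cancel₀ hz0, one_smul]
  obtain ⟨v, a, hli, hev⟩ := eigen_basis h3 w hw1 hw3 Mn hM3
  have hevX : ∀ i, X *ᵥ v i = (ζ * w ^ (a i : ℕ)) • v i := by
    intro i
    rw [hXM, Matrix.smul_mulVec, hev, smul_smul]
  have hna : ¬ (a 0 = a 1 ∧ a 1 = a 2) := by
    rintro ⟨h01, h12⟩
    apply hns (ζ * w ^ (a 0 : ℕ))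
    have hall : ∀ i, a i = a 0 := by
      intro i
      fin_cases i
      · rfl
      · exact h01.symm
      · exact (h01.trans h12).symm
    have hc : Fintype.card (Fin 3) = Module.finrank F (Fin 3 → F) := by
      rw [Module.finrank_fintype_fun_eq_card]
    have hlin : Matrix.toLin' X = (ζ * w ^ (a 0 : ℕ)) • LinearMap.id := by
      apply (basisOfLinearIndependentOfCardEqFinrank hli hc).ext
      intro i
      rw [coe_basisOfLinearIndependentOfCardEqFinrank, Matrix.toLin'_apply, hevX, hall i,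
        LinearMap.smul_apply, LinearMap.id_apply]
    apply Matrix.toLin'.injective
    rw [hlin, map_smul, Matrix.toLin'_one]
  obtain ⟨i, j, l, hinj, hcase⟩ := triple_lemma a hna
  obtain ⟨Kc, hKc⟩ : ∃ Kc : Fin 3 → (Fin 3 → F), Kc = v ∘ ![i, j, l] := ⟨_, rfl⟩
  have hKli : LinearIndependent F Kc := by
    rw [hKc]
    exact hli.comp _ hinj
  obtain ⟨K, hK⟩ : ∃ K : Matrix (Fin 3) (Fin 3) F, K = Matrix.of (fun r s => Kc s r) :=
    ⟨_, rfl⟩
  have hKrs : ∀ r s, K r s = Kc s r := by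
    intro r s
    rw [hK]
    rfl
  have hKdet : K.det ≠ 0 := by
    have h1 : LinearIndependent F K.col := by
      have h0 : K.col = Kc := by
        funext s
        funext r
        exact hKrs r s
      rw [h0]
      exact hKli
    have h2 := Matrix.linearIndependent_cols_iff_isUnit.mp h1
    exact ((Matrix.isUnit_iff_isUnit_det K).mp h2).ne_zero
  have hXK : ∀ (s : Fin 3) (c : F), X *ᵥ Kc s = c • Kc s → ∀ r, (X * K) r s = c * K r s := by
    intro s c hs r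
    have h1 : (X * K) r s = (X *ᵥ Kc s) r := by
      simp only [Matrix.mul_apply, Matrix.mulVec, dotProduct, hKrs]
    rw [h1, hs, hKrs]
    rfl
  have hK0 : Kc 0 = v i := by rw [hKc]; rfl
  have hK1 : Kc 1 = v j := by rw [hKc]; rfl
  have hK2 : Kc 2 = v l := by rw [hKc]; rfl
  refine ⟨Matrix.GeneralLinearGroup.mkOfDetNeZero K hKdet, ?_⟩
  have hkK : ((Matrix.GeneralLinearGroup.mkOfDetNeZero K hKdet : GL (Fin 3) F) :
      Matrix (Fin 3) (Fin 3) F) = K := rfl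
  rw [hkK]
  rcases hcase with ⟨hij, hl⟩ | ⟨hi0, hj1, hl2⟩
  · have c0 : ∀ r, (X * K) r 0 = (ζ * w ^ (a i : ℕ)) * K r 0 :=
      hXK 0 _ (by rw [hK0]; exact hevX i)
    have c1 : ∀ r, (X * K) r 1 = (ζ * w ^ (a i : ℕ)) * K r 1 :=
      hXK 1 _ (by rw [hK1, hevX j, hij])
    rcases pow_cases w hw3 (a i) (a l) hl with hp | hp
    · have c2 : ∀ r, (X * K) r 2 = (ζ * w ^ (a i : ℕ) * w) * K r 2 :=
        hXK 2 _ (by rw [hK2, hevX l, hp, mul_assoc])
      refine ⟨ζ * w ^ (a i : ℕ), Or.inr (Or.inl ?_)⟩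
      ext r s
      fin_cases s
      · show (X * K) r 0 = _
        rw [c0]
        simp [Matrix.mul_apply, Fin.sum_univ_three]
      · show (X * K) r 1 = _
        rw [c1]
        simp [Matrix.mul_apply, Fin.sum_univ_three]
      · show (X * K) r 2 = _
        rw [c2]
        simp [Matrix.mul_apply, Fin.sum_univ_three]
        ring
    · have c2 : ∀ r, (X * K) r 2 = (ζ * w ^ (a i : ℕ) * w ^ 2) * K r 2 :=
        hXK 2 _ (by rw [hK2, hevX l, hp, mul_assoc])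
      refine ⟨ζ * w ^ (a i : ℕ), Or.inr (Or.inr ?_)⟩
      ext r s
      fin_cases s
      · show (X * K) r 0 = _
        rw [c0]
        simp [Matrix.mul_apply, Fin.sum_univ_three]
      · show (X * K) r 1 = _
        rw [c1]
        simp [Matrix.mul_apply, Fin.sum_univ_three]
      · show (X * K) r 2 = _
        rw [c2]
        simp [Matrix.mul_apply, Fin.sum_univ_three]
        ring
  · have c0 : ∀ r, (X * K) r 0 = ζ * K r 0 :=
      hXK 0 _ (by rw [hK0, hevX i, hi0]; simp)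
    have c1 : ∀ r, (X * K) r 1 = (ζ * w) * K r 1 :=
      hXK 1 _ (by rw [hK1, hevX j, hj1]; simp)
    have c2 : ∀ r, (X * K) r 2 = (ζ * w ^ 2) * K r 2 :=
      hXK 2 _ (by rw [hK2, hevX l, hl2]; simp)
    refine ⟨ζ, Or.inl ?_⟩
    ext r s
    fin_cases s
    · show (X * K) r 0 = _
      rw [c0]
      simp [Matrix.mul_apply, Fin.sum_univ_three]
    · show (X * K) r 1 = _
      rw [c1]
      simp [Matrix.mul_apply, Fin.sum_univ_three]
      ring
    · show (X * K) r 2 = _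
      rw [c2]
      simp [Matrix.mul_apply, Fin.sum_univ_three]
      ring

end Cfsg.Agent.Helper12.S5998p6
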