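import Mathlib
import Cfsg.Agent.Helper12.DegGraph
import Cfsg.Agent.Helper12.SL2Unip
import Cfsg.Agent.Helper12.GL2Char
import Cfsg.Agent.Helper22.BlkCover
import Cfsg.Agent.Helper5.BlkOrth2
import Cfsg.Prelude.Def_Blocks

/-!
# The `p`-blocks of `SL₂(q)` in the defining characteristic, `q` odd (helper12)
-/

set_option autoImplicit false

open Cfsg

namespace Cfsg.Agent.Helper12

theorem central_index' {G : Type*} [Group G] (z : G) (hz : ∀ x : G, x * z = z * x) :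
    (Subgroup.centralizer ({z} : Set G)).index = 1 := by
  rw [Subgroup.index_eq_one, Subgroup.eq_top_iff']
  intro x
  rw [Subgroup.mem_centralizer_iff]
  intro h hh
  rw [Set.mem_singleton_iff] at hh
  rw [hh]
  exact (hz x).symm

theorem cc_central {G : Type*} [Group G] (χ : G → ℂ) (z : G) (hz : ∀ x : G, x * z = z * x) :
    Cfsg.centralChar χ z = χ z / χ 1 := by
  unfold Cfsg.centralChar
  rw [central_index' z hz, Nat.cast_one, one_mul]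

theorem cc_one {G : Type*} [Group G] (χ : G → ℂ) (h : χ 1 ≠ 0) : Cfsg.centralChar χ 1 = 1 := by
  rw [cc_central χ 1 (fun x => by rw [mul_one, one_mul]), div_self h]

theorem cc_mem_ideal {G : Type*} [Group G] [Finite G] {p : ℕ} {M : Ideal Cfsg.AlgInt} (hM : Cfsg.IsPModular p M)
    (χ : Cfsg.IrrCharacter G) (n : ℕ) (hn : (χ : G → ℂ) 1 = (n : ℂ)) (hpn : ¬ p ∣ n) (g : G)
    (hg : p ∣ (Subgroup.centralizer ({g} : Set G)).index) :
    Cfsg.MemLocalIdeal M (Cfsg.centralChar (χ : G → ℂ) g) := by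
  haveI := hM.2.1.isPrime
  obtain ⟨k, hk⟩ := hg
  have e : Cfsg.centralChar (χ : G → ℂ) g = ((n : ℂ)⁻¹ * ((k : ℂ) * (χ : G → ℂ) g)) * (p : ℂ) := by
    unfold Cfsg.centralChar
    rw [hk, hn]
    push_cast
    ring
  rw [e]
  exact Helper5.memLocalIdeal_mul_left (Helper5.mem_locRing.mp ((Helper5.locRing M).mul_mem
    (Helper5.mem_locRing.mpr (Helper5.natCast_inv_memLocalRing hM hpn))
    ((Helper5.locRing M).mul_mem (Helper5.mem_locRing.mpr (Helper5.natCast_memLocalRing k))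
      (Helper5.mem_locRing.mpr (Helper5.integral_mem_locRing (Helper24.irr_isIntegral χ g))))))
    (Helper5.prime_memLocalIdeal hM)

theorem half_unit {p : ℕ} {M : Ideal Cfsg.AlgInt} (hM : Cfsg.IsPModular p M) (hp : p ≠ 2) (z : ℂ)
    (hz : Cfsg.MemLocalIdeal M z) :
    Cfsg.MemLocalRing M ((2 : ℂ)⁻¹ - z) ∧ ¬ Cfsg.MemLocalIdeal M ((2 : ℂ)⁻¹ - z) := by
  haveI := hM.2.1.isPrime
  have hpp := hM.1
  have h2 : ¬ p ∣ 2 := fun h => hp ((Nat.prime_dvd_prime_iff_eq hpp Nat.prime_two).mp h)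
  have h3 : Cfsg.MemLocalRing M (((2 : ℕ) : ℂ)⁻¹) := Helper5.natCast_inv_memLocalRing hM h2
  rw [Nat.cast_ofNat] at h3
  constructor
  · exact Helper5.mem_locRing.mp ((Helper5.locRing M).sub_mem (Helper5.mem_locRing.mpr h3)
      (Helper5.mem_locRing.mpr (Helper5.memLocalIdeal_memLocalRing hz)))
  · intro h
    have h4 := Helper22.memLocalIdeal_add hM.2.1.isPrime h hz
    rw [sub_add_cancel] at h4
    have h5 := Helper5.memLocalIdeal_mul_left (Helper5.natCast_memLocalRing (M := M) 2) h4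
    rw [Nat.cast_ofNat, mul_inv_cancel₀ two_ne_zero] at h5
    exact Helper5.not_memLocalIdeal_one h5

theorem sylow_defect {G : Type*} [Group G] {p : ℕ} {M : Ideal Cfsg.AlgInt} (B : Set (Cfsg.IrrCharacter G))
    (h : Cfsg.IsDefectClass M B 1) (P : Sylow p G) : Cfsg.IsDefectGroup p M B (P : Subgroup G) := by
  have hle : (P : Subgroup G) ≤ Subgroup.centralizer ({1} : Set G) := by
    intro x _
    rw [Subgroup.mem_centralizer_iff]
    intro y hy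
    rw [Set.mem_singleton_iff.mp hy, one_mul, mul_one]
  refine ⟨1, h, P.subtype hle, ?_⟩
  rw [Sylow.coe_subtype, Subgroup.map_subgroupOf_eq_of_le hle]

variable {F : Type*} [Field F] [Fintype F] [DecidableEq F]

/-- `-1 = bel (-1) 0` in `SL₂`. -/
theorem neg_one_eq_bel : (-1 : (Matrix.SpecialLinearGroup (Fin 2) F)) = (bel (-1 : Fˣ) (0 : F)) := by
  apply Subtype.ext
  rw [bel_val, Matrix.SpecialLinearGroup.coe_neg, Matrix.SpecialLinearGroup.coe_one, inv_neg_one, Units.val_neg, Units.val_one]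
  ext i j
  fin_cases i <;> fin_cases j <;> simp

theorem odd_card_of_char (p : ℕ) [Fact p.Prime] [CharP F p] (hp : p ≠ 2) : Odd (Fintype.card F) := by
  obtain ⟨a, hpp, hqa⟩ := FiniteField.card F p
  rw [hqa]
  exact (hpp.odd_of_ne_two hp).pow

theorem char_dvd_card (p : ℕ) [Fact p.Prime] [CharP F p] : p ∣ Fintype.card F := by
  obtain ⟨a, -, hqa⟩ := FiniteField.card F p
  rw [hqa]
  exact dvd_pow_self p a.ne_zero

theorem two_ne_zero_of_char (p : ℕ) [Fact p.Prime] [CharP F p] (hp : p ≠ 2) : (2 : F) ≠ 0 := by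
  intro h
  have h2 : ((2 : ℕ) : F) = 0 := by rw [Nat.cast_ofNat]; exact h
  have h3 := (CharP.cast_eq_zero_iff F p 2).mp h2
  have hpp : p.Prime := Fact.out
  exact hp ((Nat.prime_dvd_prime_iff_eq hpp Nat.prime_two).mp h3)

theorem sl2_sign (χ : (Cfsg.IrrCharacter (Matrix.SpecialLinearGroup (Fin 2) F))) : (χ : (Matrix.SpecialLinearGroup (Fin 2) F) → ℂ) (bel (-1 : Fˣ) (0 : F)) = (χ : (Matrix.SpecialLinearGroup (Fin 2) F) → ℂ) 1 ∨ (χ : (Matrix.SpecialLinearGroup (Fin 2) F) → ℂ) (bel (-1 : Fˣ) (0 : F)) = -(χ : (Matrix.SpecialLinearGroup (Fin 2) F) → ℂ) 1 := by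
  have h := irr_central_mul χ (bel (-1 : Fˣ) (0 : F)) bel_neg_one_central (bel (-1 : Fˣ) (0 : F))
  rw [bel_neg_one_sq] at h
  have h0 := Helper24.irr_one_ne_zero χ
  rw [eq_div_iff h0] at h
  have h2 : ((χ : (Matrix.SpecialLinearGroup (Fin 2) F) → ℂ) (bel (-1 : Fˣ) (0 : F)) - (χ : (Matrix.SpecialLinearGroup (Fin 2) F) → ℂ) 1) * ((χ : (Matrix.SpecialLinearGroup (Fin 2) F) → ℂ) (bel (-1 : Fˣ) (0 : F)) + (χ : (Matrix.SpecialLinearGroup (Fin 2) F) → ℂ) 1) = 0 := by linear_combination -h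
  rcases mul_eq_zero.mp h2 with h3 | h3
  · exact Or.inl (sub_eq_zero.mp h3)
  · exact Or.inr (eq_neg_of_add_eq_zero_left h3)

theorem sl2_deg_dich (p : ℕ) [Fact p.Prime] [CharP F p] (χ : (Cfsg.IrrCharacter (Matrix.SpecialLinearGroup (Fin 2) F))) :
    (χ : (Matrix.SpecialLinearGroup (Fin 2) F) → ℂ) 1 = (Fintype.card F : ℂ) ∨ ∃ n : ℕ, (χ : (Matrix.SpecialLinearGroup (Fin 2) F) → ℂ) 1 = (n : ℂ) ∧ ¬ p ∣ n := by
  have hpp : p.Prime := Fact.out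
  obtain ⟨m, hm⟩ : ∃ m : ℕ, Fintype.card F = m + 1 := ⟨Fintype.card F - 1, by have := Fintype.card_pos (α := F); omega⟩
  have hpq : p ∣ m + 1 := by
    rw [← hm]
    exact char_dvd_card p
  obtain ⟨n, hn⟩ := Helper24.irr_one_eq_natCast χ
  have h1 : ∀ k : ℕ, p ∣ k → p ∣ k + 1 → False := by
    intro k h1 h2
    exact hpp.one_lt.ne' (Nat.dvd_one.mp ((Nat.dvd_add_right h1).mp h2))
  rcases sl2_types χ m n hm hn with (h | ⟨h, -⟩) | ⟨h, -⟩ | ⟨h, -⟩ | ⟨h, -⟩ | ⟨h, -⟩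
  · right
    refine ⟨n, hn, fun hd => h1 m (by rw [← h]; exact hd) hpq⟩
  · right
    refine ⟨n, hn, fun hd => h1 m (by rw [← h]; exact Dvd.dvd.mul_left hd 2) hpq⟩
  · right
    refine ⟨n, hn, fun hd => h1 (m + 1) hpq ?_⟩
    have e : m + 1 + 1 = n := by omega
    rw [e]
    exact hd
  · right
    refine ⟨n, hn, fun hd => ?_⟩
    rw [h] at hd
    exact hpp.one_lt.ne' (Nat.dvd_one.mp hd)
  · left
    rw [hn, h, hm]
  · right
    refine ⟨n, hn, fun hd => h1 (m + 1) hpq ?_⟩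
    have e : m + 1 + 1 = 2 * n := by omega
    rw [e]
    exact Dvd.dvd.mul_left hd 2

theorem sl2_St_formula (χ : (Cfsg.IrrCharacter (Matrix.SpecialLinearGroup (Fin 2) F))) (h : (χ : (Matrix.SpecialLinearGroup (Fin 2) F) → ℂ) 1 = (Fintype.card F : ℂ)) :
    ∀ g : (Matrix.SpecialLinearGroup (Fin 2) F), (χ : (Matrix.SpecialLinearGroup (Fin 2) F) → ℂ) g = Cfsg.indFun (Cfsg.upperTriangularGL 2 F) (fun _ => (1 : ℂ)) (Matrix.SpecialLinearGroup.toGL g) - 1 := by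
  obtain ⟨m, hm⟩ : ∃ m : ℕ, Fintype.card F = m + 1 := ⟨Fintype.card F - 1, by have := Fintype.card_pos (α := F); omega⟩
  have h1 : 1 < Fintype.card F := Fintype.one_lt_card
  have hn : (χ : (Matrix.SpecialLinearGroup (Fin 2) F) → ℂ) 1 = ((m + 1 : ℕ) : ℂ) := by rw [h, hm]
  rcases sl2_types χ m (m + 1) hm hn with (h | ⟨h, -⟩) | ⟨h, -⟩ | ⟨h, -⟩ | ⟨-, h⟩ | ⟨h, -⟩
  · omega
  · omega
  · omega
  · omega
  · exact h
  · omega

theorem sl2_St_unique (χ ψ : (Cfsg.IrrCharacter (Matrix.SpecialLinearGroup (Fin 2) F))) (h1 : (χ : (Matrix.SpecialLinearGroup (Fin 2) F) → ℂ) 1 = (Fintype.card F : ℂ)) (h2 : (ψ : (Matrix.SpecialLinearGroup (Fin 2) F) → ℂ) 1 = (Fintype.card F : ℂ)) : χ = ψ := by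
  apply Subtype.ext
  funext g
  rw [sl2_St_formula χ h1 g, sl2_St_formula ψ h2 g]

theorem sl2_St_neg (χ : (Cfsg.IrrCharacter (Matrix.SpecialLinearGroup (Fin 2) F))) (h1 : (χ : (Matrix.SpecialLinearGroup (Fin 2) F) → ℂ) 1 = (Fintype.card F : ℂ)) : (χ : (Matrix.SpecialLinearGroup (Fin 2) F) → ℂ) (bel (-1 : Fˣ) (0 : F)) = (Fintype.card F : ℂ) := by
  obtain ⟨St, hSt1, hStc⟩ := central_St (F := F)
  have e := sl2_St_unique χ St h1 hSt1
  rw [e, hStc (bel (-1 : Fˣ) (0 : F)) (Subgroup.mem_center_iff.mpr (fun x => bel_neg_one_central x)), hSt1]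

theorem sl2_index_dvd (p : ℕ) [Fact p.Prime] [CharP F p] (hp : p ≠ 2) (g : (Matrix.SpecialLinearGroup (Fin 2) F)) (ht : ((g : (Matrix.SpecialLinearGroup (Fin 2) F)) : (Matrix (Fin 2) (Fin 2) F)).trace ^ 2 ≠ 4) :
    p ∣ (Subgroup.centralizer ({g} : Set (Matrix.SpecialLinearGroup (Fin 2) F))).index := by
  have hpq : p ∣ Fintype.card F := char_dvd_card p
  rw [index_centralizer_eq_card_carrier g, sl2_odd_card_carrier (odd_card_of_char p hp) g ht]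
  exact Dvd.dvd.add (Dvd.dvd.mul_right hpq _) (Dvd.dvd.mul_left hpq _)

theorem sl2_order_trace_two (p : ℕ) [Fact p.Prime] [CharP F p] (hp : p ≠ 2) (g : (Matrix.SpecialLinearGroup (Fin 2) F))
    (htr : ((g : (Matrix.SpecialLinearGroup (Fin 2) F)) : (Matrix (Fin 2) (Fin 2) F)).trace = 2) (hg : g ≠ 1) : orderOf g = p := by
  obtain ⟨b, hb, hconj⟩ := sl2_exists_conj_sl2U (two_ne_zero_of_char p hp) g htr hg
  obtain ⟨c, hc⟩ := isConj_iff.mp hconj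
  have h := MulEquiv.orderOf_eq (MulAut.conj c) g
  rw [MulAut.conj_apply, hc, orderOf_sl2U p hb] at h
  exact h.symm

theorem sl2_p_dvd_order (p : ℕ) [Fact p.Prime] [CharP F p] (hp : p ≠ 2) (g : (Matrix.SpecialLinearGroup (Fin 2) F))
    (htr : ((g : (Matrix.SpecialLinearGroup (Fin 2) F)) : (Matrix (Fin 2) (Fin 2) F)).trace ^ 2 = 4) (hg : g ≠ 1) (hg' : g ≠ (bel (-1 : Fˣ) (0 : F))) : p ∣ orderOf g := by
  have hpp : p.Prime := Fact.out
  have h2 : (((g : (Matrix.SpecialLinearGroup (Fin 2) F)) : (Matrix (Fin 2) (Fin 2) F)).trace - 2) * (((g : (Matrix.SpecialLinearGroup (Fin 2) F)) : (Matrix (Fin 2) (Fin 2) F)).trace + 2) = 0 := by linear_combination htr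
  rcases mul_eq_zero.mp h2 with h | h
  · rw [sl2_order_trace_two p hp g (sub_eq_zero.mp h) hg]
  · have htr' : (((bel (-1 : Fˣ) (0 : F)) * g : (Matrix.SpecialLinearGroup (Fin 2) F)) : (Matrix (Fin 2) (Fin 2) F)).trace = 2 := by
      rw [← neg_one_eq_bel, neg_mul, one_mul, Matrix.SpecialLinearGroup.coe_neg, Matrix.trace_neg]
      linear_combination -h
    have hne : (bel (-1 : Fˣ) (0 : F)) * g ≠ 1 := by
      intro h1
      apply hg'
      have h3 : (bel (-1 : Fˣ) (0 : F)) * ((bel (-1 : Fˣ) (0 : F)) * g) = (bel (-1 : Fˣ) (0 : F)) := by rw [h1, mul_one]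
      rw [← mul_assoc, bel_neg_one_sq, one_mul] at h3
      exact h3
    have ho := sl2_order_trace_two p hp ((bel (-1 : Fˣ) (0 : F)) * g) htr' hne
    have hsq : ((bel (-1 : Fˣ) (0 : F)) * g) ^ 2 = g ^ 2 := by
      rw [Commute.mul_pow (show Commute (bel (-1 : Fˣ) (0 : F)) g from (bel_neg_one_central g).symm), pow_two (bel (-1 : Fˣ) (0 : F)), bel_neg_one_sq, one_mul]
    have hcop : (orderOf ((bel (-1 : Fˣ) (0 : F)) * g)).Coprime 2 := by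
      rw [ho]
      exact (Nat.coprime_primes hpp Nat.prime_two).mpr hp
    have h4 : orderOf (((bel (-1 : Fˣ) (0 : F)) * g) ^ 2) = p := by rw [hcop.orderOf_pow, ho]
    rw [hsq] at h4
    rw [← h4]
    exact orderOf_pow_dvd 2

theorem sl2_regular_cases (p : ℕ) [Fact p.Prime] [CharP F p] (hp : p ≠ 2) (g : (Matrix.SpecialLinearGroup (Fin 2) F)) (hg : ¬ p ∣ orderOf g) :
    g = 1 ∨ g = (bel (-1 : Fˣ) (0 : F)) ∨ p ∣ (Subgroup.centralizer ({g} : Set (Matrix.SpecialLinearGroup (Fin 2) F))).index := by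
  by_cases h1 : g = 1
  · exact Or.inl h1
  by_cases h2 : g = (bel (-1 : Fˣ) (0 : F))
  · exact Or.inr (Or.inl h2)
  right; right
  by_cases ht : ((g : (Matrix.SpecialLinearGroup (Fin 2) F)) : (Matrix (Fin 2) (Fin 2) F)).trace ^ 2 = 4
  · exact absurd (sl2_p_dvd_order p hp g ht h1 h2) hg
  · exact sl2_index_dvd p hp g ht

theorem sl2_sameBlock (p : ℕ) [Fact p.Prime] [CharP F p] (hp : p ≠ 2) {M : Ideal Cfsg.AlgInt} (hM : Cfsg.IsPModular p M)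
    (χ₁ χ₂ : (Cfsg.IrrCharacter (Matrix.SpecialLinearGroup (Fin 2) F))) (h1 : (χ₁ : (Matrix.SpecialLinearGroup (Fin 2) F) → ℂ) 1 ≠ (Fintype.card F : ℂ)) (h2 : (χ₂ : (Matrix.SpecialLinearGroup (Fin 2) F) → ℂ) 1 ≠ (Fintype.card F : ℂ))
    (hs : (χ₁ : (Matrix.SpecialLinearGroup (Fin 2) F) → ℂ) (bel (-1 : Fˣ) (0 : F)) / (χ₁ : (Matrix.SpecialLinearGroup (Fin 2) F) → ℂ) 1 = (χ₂ : (Matrix.SpecialLinearGroup (Fin 2) F) → ℂ) (bel (-1 : Fˣ) (0 : F)) / (χ₂ : (Matrix.SpecialLinearGroup (Fin 2) F) → ℂ) 1) :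
    Cfsg.SameBlock M (χ₁ : (Matrix.SpecialLinearGroup (Fin 2) F) → ℂ) (χ₂ : (Matrix.SpecialLinearGroup (Fin 2) F) → ℂ) := by
  haveI := hM.2.1.isPrime
  obtain ⟨n₁, hn₁, hpn₁⟩ := (sl2_deg_dich p χ₁).resolve_left h1
  obtain ⟨n₂, hn₂, hpn₂⟩ := (sl2_deg_dich p χ₂).resolve_left h2
  refine Helper22.sameBlock_of_regular hM χ₁ χ₂ (fun g hg => ?_)
  rcases sl2_regular_cases p hp g hg with h | h | h
  · rw [h, cc_one _ (Helper24.irr_one_ne_zero χ₁), cc_one _ (Helper24.irr_one_ne_zero χ₂), sub_self]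
    exact Helper22.memLocalIdeal_zero hM.2.1.ne_top
  · rw [h, cc_central (χ₁ : (Matrix.SpecialLinearGroup (Fin 2) F) → ℂ) _ bel_neg_one_central, cc_central (χ₂ : (Matrix.SpecialLinearGroup (Fin 2) F) → ℂ) _ bel_neg_one_central, hs, sub_self]
    exact Helper22.memLocalIdeal_zero hM.2.1.ne_top
  · exact Helper5.memLocalIdeal_sub (cc_mem_ideal hM χ₁ n₁ hn₁ hpn₁ g h) (cc_mem_ideal hM χ₂ n₂ hn₂ hpn₂ g h)

theorem sl2_not_sameBlock (p : ℕ) [Fact p.Prime] [CharP F p] (hp : p ≠ 2) {M : Ideal Cfsg.AlgInt} (hM : Cfsg.IsPModular p M)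
    (χ₁ χ₂ : (Cfsg.IrrCharacter (Matrix.SpecialLinearGroup (Fin 2) F))) (hs1 : (χ₁ : (Matrix.SpecialLinearGroup (Fin 2) F) → ℂ) (bel (-1 : Fˣ) (0 : F)) = (χ₁ : (Matrix.SpecialLinearGroup (Fin 2) F) → ℂ) 1) (hs2 : (χ₂ : (Matrix.SpecialLinearGroup (Fin 2) F) → ℂ) (bel (-1 : Fˣ) (0 : F)) = -(χ₂ : (Matrix.SpecialLinearGroup (Fin 2) F) → ℂ) 1) :
    ¬ Cfsg.SameBlock M (χ₁ : (Matrix.SpecialLinearGroup (Fin 2) F) → ℂ) (χ₂ : (Matrix.SpecialLinearGroup (Fin 2) F) → ℂ) := by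
  haveI := hM.2.1.isPrime
  have hpp : p.Prime := Fact.out
  intro h
  have h1 : Cfsg.MemLocalIdeal M (Cfsg.centralChar (χ₁ : (Matrix.SpecialLinearGroup (Fin 2) F) → ℂ) (bel (-1 : Fˣ) (0 : F)) - Cfsg.centralChar (χ₂ : (Matrix.SpecialLinearGroup (Fin 2) F) → ℂ) (bel (-1 : Fˣ) (0 : F))) := h (bel (-1 : Fˣ) (0 : F))
  rw [cc_central (χ₁ : (Matrix.SpecialLinearGroup (Fin 2) F) → ℂ) _ bel_neg_one_central, cc_central (χ₂ : (Matrix.SpecialLinearGroup (Fin 2) F) → ℂ) _ bel_neg_one_central, hs1, hs2, neg_div,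
    div_self (Helper24.irr_one_ne_zero χ₁), div_self (Helper24.irr_one_ne_zero χ₂)] at h1
  have h2 : (1 : ℂ) - -1 = ((2 : ℕ) : ℂ) := by push_cast; ring
  rw [h2] at h1
  exact Helper22.not_memLocalIdeal_natCast hM ((Nat.coprime_primes Nat.prime_two hpp).mpr (Ne.symm hp)) h1

theorem sl2_St_block (p : ℕ) [Fact p.Prime] [CharP F p] (hp : p ≠ 2) {M : Ideal Cfsg.AlgInt} (hM : Cfsg.IsPModular p M)
    (χ : (Cfsg.IrrCharacter (Matrix.SpecialLinearGroup (Fin 2) F))) (h : (χ : (Matrix.SpecialLinearGroup (Fin 2) F) → ℂ) 1 = (Fintype.card F : ℂ)) : Cfsg.blockOf M (χ : (Matrix.SpecialLinearGroup (Fin 2) F) → ℂ) = {χ} := by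
  haveI := hM.2.1.isPrime
  have hpp : p.Prime := Fact.out
  have hpq : p ∣ Fintype.card F := char_dvd_card p
  apply (Helper5.defect_zero_iff hM χ).mp
  rw [charDegree_natCast _ (Fintype.card F) h, sl2_card, Nat.mul_div_cancel_left _ Fintype.card_pos]
  intro hd
  have h1 : Fintype.card F ^ 2 - 1 + 1 = Fintype.card F ^ 2 := Nat.sub_add_cancel (Nat.one_le_pow _ _ Fintype.card_pos)
  have h2 : p ∣ Fintype.card F ^ 2 - 1 + 1 := by
    rw [h1]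
    exact Dvd.dvd.pow hpq (by norm_num)
  exact hpp.one_lt.ne' (Nat.dvd_one.mp ((Nat.dvd_add_right hd).mp h2))

theorem exists_neg_char (p : ℕ) [Fact p.Prime] [CharP F p] (hp : p ≠ 2) :
    ∃ χ : (Cfsg.IrrCharacter (Matrix.SpecialLinearGroup (Fin 2) F)), (χ : (Matrix.SpecialLinearGroup (Fin 2) F) → ℂ) (bel (-1 : Fˣ) (0 : F)) = -(χ : (Matrix.SpecialLinearGroup (Fin 2) F) → ℂ) 1 := by
  have hodd := odd_card_of_char (F := F) p hp
  obtain ⟨g, hord⟩ := sl2_exists_orderOf_card_add_one (F := F) p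
  have hg := ell_of_order g hord
  haveI := torus_cyclic hodd g hg
  obtain ⟨c₀, hc₀⟩ := IsCyclic.exists_generator (α := ↥(Subgroup.centralizer ({g} : Set (Matrix.SpecialLinearGroup (Fin 2) F))))
  have hordc : orderOf c₀ = Fintype.card F + 1 := by
    rw [orderOf_eq_card_of_forall_mem_zpowers hc₀, torus_card hodd g hg]
  obtain ⟨ω, hω⟩ := exists_root_unit (Fintype.card F + 1) (Nat.succ_ne_zero _)
  have hdvd : orderOf ω ∣ orderOf c₀ := by rw [hω, hordc]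
  obtain ⟨δ, hδ⟩ : ∃ δ : ↥(Subgroup.centralizer ({g} : Set (Matrix.SpecialLinearGroup (Fin 2) F))) →* ℂˣ, δ c₀ = ω :=
    ⟨monoidHomOfForallMemZpowers hc₀ hdvd, monoidHomOfForallMemZpowers_apply_gen hc₀ hdvd⟩
  have hinj : ∀ x : ↥(Subgroup.centralizer ({g} : Set (Matrix.SpecialLinearGroup (Fin 2) F))), δ x = 1 → x = 1 := by
    intro x hx
    obtain ⟨k, hk⟩ := Subgroup.mem_zpowers_iff.mp (hc₀ x)
    rw [← hk, map_zpow, hδ] at hx
    have h1 : (orderOf ω : ℤ) ∣ k := orderOf_dvd_iff_zpow_eq_one.mpr hx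
    rw [hω, ← hordc] at h1
    rw [← hk]
    exact orderOf_dvd_iff_zpow_eq_one.mp h1
  have hq3 : 3 ≤ Fintype.card F := by
    have h1 : 1 < Fintype.card F := Fintype.one_lt_card
    obtain ⟨k, hk⟩ := hodd
    omega
  have hθ : ∃ c : ↥(Subgroup.centralizer ({g} : Set (Matrix.SpecialLinearGroup (Fin 2) F))), δ c ^ 2 ≠ 1 := by
    refine ⟨c₀, ?_⟩
    rw [hδ]
    intro h
    have h1 := orderOf_dvd_of_pow_eq_one h
    rw [hω] at h1
    have := Nat.le_of_dvd (by norm_num) h1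
    omega
  have hm1 : ((δ (⟨(bel (-1 : Fˣ) (0 : F)), bel_neg_mem_torus g⟩ : ↥(Subgroup.centralizer ({g} : Set (Matrix.SpecialLinearGroup (Fin 2) F)))) : ℂˣ) : ℂ) = -1 := by
    have h1 := hom_neg_sq g δ
    have h2 : (((δ (⟨(bel (-1 : Fˣ) (0 : F)), bel_neg_mem_torus g⟩ : ↥(Subgroup.centralizer ({g} : Set (Matrix.SpecialLinearGroup (Fin 2) F)))) : ℂˣ) : ℂ) - 1) * (((δ (⟨(bel (-1 : Fˣ) (0 : F)), bel_neg_mem_torus g⟩ : ↥(Subgroup.centralizer ({g} : Set (Matrix.SpecialLinearGroup (Fin 2) F)))) : ℂˣ) : ℂ) + 1) = 0 := by linear_combination h1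
    rcases mul_eq_zero.mp h2 with h | h
    · exfalso
      have h3 : δ (⟨(bel (-1 : Fˣ) (0 : F)), bel_neg_mem_torus g⟩ : ↥(Subgroup.centralizer ({g} : Set (Matrix.SpecialLinearGroup (Fin 2) F)))) = 1 := Units.ext (by rw [Units.val_one]; exact sub_eq_zero.mp h)
      have h4 := hinj _ h3
      have h5 : (bel (-1 : Fˣ) (0 : F)) = (1 : (Matrix.SpecialLinearGroup (Fin 2) F)) := congrArg Subtype.val h4
      exact bel_neg_ne_one hodd h5
    · exact eq_neg_of_add_eq_zero_left h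
  obtain ⟨α, hα⟩ := exists_alpha hodd g δ
  refine ⟨⟨cuspF g δ α, cuspF_irr hodd g hg δ hθ α hα⟩, ?_⟩
  show cuspF g δ α (bel (-1 : Fˣ) (0 : F)) = -cuspF g δ α 1
  rw [cuspF_neg hodd g hg δ α hα, cuspF_one hodd g hg δ α, hm1]
  ring

theorem block_St (p : ℕ) [Fact p.Prime] [CharP F p] (hp : p ≠ 2) {M : Ideal Cfsg.AlgInt} (hM : Cfsg.IsPModular p M) (χ : (Cfsg.IrrCharacter (Matrix.SpecialLinearGroup (Fin 2) F))) (h : (χ : (Matrix.SpecialLinearGroup (Fin 2) F) → ℂ) 1 = (Fintype.card F : ℂ)) : Cfsg.blockOf M (χ : (Matrix.SpecialLinearGroup (Fin 2) F) → ℂ) = {χ : Cfsg.IrrCharacter (Matrix.SpecialLinearGroup (Fin 2) F) | (χ : (Matrix.SpecialLinearGroup (Fin 2) F) → ℂ) 1 = (Fintype.card F : ℂ)} := by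
  rw [sl2_St_block p hp hM χ h]
  ext ψ
  constructor
  · intro hψ
    rw [Set.mem_singleton_iff] at hψ
    rw [hψ]
    exact h
  · intro hψ
    rw [Set.mem_singleton_iff]
    exact sl2_St_unique ψ χ hψ h

theorem block_pos (p : ℕ) [Fact p.Prime] [CharP F p] (hp : p ≠ 2) {M : Ideal Cfsg.AlgInt} (hM : Cfsg.IsPModular p M) (χ : (Cfsg.IrrCharacter (Matrix.SpecialLinearGroup (Fin 2) F))) (h : (χ : (Matrix.SpecialLinearGroup (Fin 2) F) → ℂ) 1 ≠ (Fintype.card F : ℂ)) (hs : (χ : (Matrix.SpecialLinearGroup (Fin 2) F) → ℂ) (bel (-1 : Fˣ) (0 : F)) = (χ : (Matrix.SpecialLinearGroup (Fin 2) F) → ℂ) 1) :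
    Cfsg.blockOf M (χ : (Matrix.SpecialLinearGroup (Fin 2) F) → ℂ) = {χ : Cfsg.IrrCharacter (Matrix.SpecialLinearGroup (Fin 2) F) | (χ : (Matrix.SpecialLinearGroup (Fin 2) F) → ℂ) (bel (-1 : Fˣ) (0 : F)) = (χ : (Matrix.SpecialLinearGroup (Fin 2) F) → ℂ) 1 ∧ (χ : (Matrix.SpecialLinearGroup (Fin 2) F) → ℂ) 1 ≠ (Fintype.card F : ℂ)} := by
  haveI := hM.2.1.isPrime
  ext ψ
  constructor
  · intro hψ
    have hψ' : Cfsg.SameBlock M (χ : (Matrix.SpecialLinearGroup (Fin 2) F) → ℂ) (ψ : (Matrix.SpecialLinearGroup (Fin 2) F) → ℂ) := hψ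
    have h1 : (ψ : (Matrix.SpecialLinearGroup (Fin 2) F) → ℂ) 1 ≠ (Fintype.card F : ℂ) := by
      intro h1
      have h2 : χ ∈ Cfsg.blockOf M (ψ : (Matrix.SpecialLinearGroup (Fin 2) F) → ℂ) := Helper5.sameBlock_symm hψ'
      rw [sl2_St_block p hp hM ψ h1, Set.mem_singleton_iff] at h2
      rw [h2] at h
      exact h h1
    rcases sl2_sign ψ with h2 | h2
    · exact ⟨h2, h1⟩
    · exact absurd hψ' (sl2_not_sameBlock p hp hM χ ψ hs h2)
  · rintro ⟨h1, h2⟩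
    show Cfsg.SameBlock M (χ : (Matrix.SpecialLinearGroup (Fin 2) F) → ℂ) (ψ : (Matrix.SpecialLinearGroup (Fin 2) F) → ℂ)
    exact sl2_sameBlock p hp hM χ ψ h h2 (by rw [hs, h1, div_self (Helper24.irr_one_ne_zero χ), div_self (Helper24.irr_one_ne_zero ψ)])

theorem block_neg (p : ℕ) [Fact p.Prime] [CharP F p] (hp : p ≠ 2) {M : Ideal Cfsg.AlgInt} (hM : Cfsg.IsPModular p M) (χ : (Cfsg.IrrCharacter (Matrix.SpecialLinearGroup (Fin 2) F))) (hs : (χ : (Matrix.SpecialLinearGroup (Fin 2) F) → ℂ) (bel (-1 : Fˣ) (0 : F)) = -(χ : (Matrix.SpecialLinearGroup (Fin 2) F) → ℂ) 1) :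
    Cfsg.blockOf M (χ : (Matrix.SpecialLinearGroup (Fin 2) F) → ℂ) = {χ : Cfsg.IrrCharacter (Matrix.SpecialLinearGroup (Fin 2) F) | (χ : (Matrix.SpecialLinearGroup (Fin 2) F) → ℂ) (bel (-1 : Fˣ) (0 : F)) = -(χ : (Matrix.SpecialLinearGroup (Fin 2) F) → ℂ) 1} := by
  haveI := hM.2.1.isPrime
  have hq0 : (Fintype.card F : ℂ) ≠ 0 := Nat.cast_ne_zero.mpr Fintype.card_ne_zero
  have hnotSt : ∀ ψ : (Cfsg.IrrCharacter (Matrix.SpecialLinearGroup (Fin 2) F)), (ψ : (Matrix.SpecialLinearGroup (Fin 2) F) → ℂ) (bel (-1 : Fˣ) (0 : F)) = -(ψ : (Matrix.SpecialLinearGroup (Fin 2) F) → ℂ) 1 → (ψ : (Matrix.SpecialLinearGroup (Fin 2) F) → ℂ) 1 ≠ (Fintype.card F : ℂ) := by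
    intro ψ h1 h2
    have h3 := sl2_St_neg ψ h2
    rw [h3, h2] at h1
    apply hq0
    linear_combination (1 / 2 : ℂ) * h1
  ext ψ
  constructor
  · intro hψ
    have hψ' : Cfsg.SameBlock M (χ : (Matrix.SpecialLinearGroup (Fin 2) F) → ℂ) (ψ : (Matrix.SpecialLinearGroup (Fin 2) F) → ℂ) := hψ
    rcases sl2_sign ψ with h2 | h2
    · exact absurd (Helper5.sameBlock_symm hψ') (sl2_not_sameBlock p hp hM ψ χ h2 hs)
    · exact h2
  · intro h1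
    have h1' : (ψ : (Matrix.SpecialLinearGroup (Fin 2) F) → ℂ) (bel (-1 : Fˣ) (0 : F)) = -(ψ : (Matrix.SpecialLinearGroup (Fin 2) F) → ℂ) 1 := h1
    show Cfsg.SameBlock M (χ : (Matrix.SpecialLinearGroup (Fin 2) F) → ℂ) (ψ : (Matrix.SpecialLinearGroup (Fin 2) F) → ℂ)
    exact sl2_sameBlock p hp hM χ ψ (hnotSt χ hs) (hnotSt ψ h1') (by rw [hs, h1', neg_div, neg_div, div_self (Helper24.irr_one_ne_zero χ), div_self (Helper24.irr_one_ne_zero ψ)])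

theorem triv_ne_card : (1 : ℂ) ≠ (Fintype.card F : ℂ) := by
  intro h1
  have h2 : 1 < Fintype.card F := Fintype.one_lt_card
  have h3 : (1 : ℕ) = Fintype.card F := by exact_mod_cast h1
  omega

theorem sl2_blocks_iff (p : ℕ) [Fact p.Prime] [CharP F p] (hp : p ≠ 2) {M : Ideal Cfsg.AlgInt} (hM : Cfsg.IsPModular p M) (B : Set (Cfsg.IrrCharacter (Matrix.SpecialLinearGroup (Fin 2) F))) :
    Cfsg.IsPBlock M B ↔ (B = {χ : Cfsg.IrrCharacter (Matrix.SpecialLinearGroup (Fin 2) F) | (χ : (Matrix.SpecialLinearGroup (Fin 2) F) → ℂ) 1 = (Fintype.card F : ℂ)} ∨ B = {χ : Cfsg.IrrCharacter (Matrix.SpecialLinearGroup (Fin 2) F) | (χ : (Matrix.SpecialLinearGroup (Fin 2) F) → ℂ) (bel (-1 : Fˣ) (0 : F)) = (χ : (Matrix.SpecialLinearGroup (Fin 2) F) → ℂ) 1 ∧ (χ : (Matrix.SpecialLinearGroup (Fin 2) F) → ℂ) 1 ≠ (Fintype.card F : ℂ)} ∨ B = {χ : Cfsg.IrrCharacter (Matrix.SpecialLinearGroup (Fin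 2) F) | (χ : (Matrix.SpecialLinearGroup (Fin 2) F) → ℂ) (bel (-1 : Fˣ) (0 : F)) = -(χ : (Matrix.SpecialLinearGroup (Fin 2) F) → ℂ) 1}) := by
  constructor
  · rintro ⟨χ, rfl⟩
    by_cases h : (χ : (Matrix.SpecialLinearGroup (Fin 2) F) → ℂ) 1 = (Fintype.card F : ℂ)
    · exact Or.inl (block_St p hp hM χ h)
    · rcases sl2_sign χ with hs | hs
      · exact Or.inr (Or.inl (block_pos p hp hM χ h hs))
      · exact Or.inr (Or.inr (block_neg p hp hM χ hs))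
  · rintro (h | h | h)
    · obtain ⟨St, hSt1, -⟩ := central_St (F := F)
      exact ⟨St, by rw [h, block_St p hp hM St hSt1]⟩
    · refine ⟨⟨fun _ => (1 : ℂ), Helper24.isIrrCharacter_one⟩, ?_⟩
      rw [h]
      exact (block_pos p hp hM ⟨fun _ => (1 : ℂ), Helper24.isIrrCharacter_one⟩ triv_ne_card rfl).symm
    · obtain ⟨χ, hχ⟩ := exists_neg_char (F := F) p hp
      exact ⟨χ, by rw [h, block_neg p hp hM χ hχ]⟩

theorem sl2_blocks_card (p : ℕ) [Fact p.Prime] [CharP F p] (hp : p ≠ 2) {M : Ideal Cfsg.AlgInt} (hM : Cfsg.IsPModular p M) :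
    Nat.card {B : Set (Cfsg.IrrCharacter (Matrix.SpecialLinearGroup (Fin 2) F)) // Cfsg.IsPBlock M B} = 3 := by
  obtain ⟨St, hSt1, -⟩ := central_St (F := F)
  have hStm := sl2_St_neg St hSt1
  have hq0 : (Fintype.card F : ℂ) ≠ 0 := Nat.cast_ne_zero.mpr Fintype.card_ne_zero
  have e : Nat.card {B : Set (Cfsg.IrrCharacter (Matrix.SpecialLinearGroup (Fin 2) F)) // Cfsg.IsPBlock M B} = Nat.card ↥({{χ : Cfsg.IrrCharacter (Matrix.SpecialLinearGroup (Fin 2) F) | (χ : (Matrix.SpecialLinearGroup (Fin 2) F) → ℂ) 1 = (Fintype.card F : ℂ)}, {χ : Cfsg.IrrCharacter (Matrix.SpecialLinearGroup (Fin 2) F) | (χ : (Matrix.SpecialLinearGroup (Fin 2) F) → ℂ) (bel (-1 : Fˣ) (0 : F)) = (χ : (Matrix.SpecialLinearGroup (Fin 2) F) → ℂ) 1 ∧ (χ : (Matrix.SpecialLinearGroup (Fin 2) F) → ℂ) 1 ≠ (Fintype.card F : ℂ)}, {χ : Cfsg.IrrCharacter (Matrix.SpecialLinearGroup (Fin 2) F) | (χ : (Matrix.SpecialLinearGroup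 (Fin 2) F) → ℂ) (bel (-1 : Fˣ) (0 : F)) = -(χ : (Matrix.SpecialLinearGroup (Fin 2) F) → ℂ) 1}} : Set (Set (Cfsg.IrrCharacter (Matrix.SpecialLinearGroup (Fin 2) F)))) :=
    Nat.card_congr (Equiv.subtypeEquivRight (fun B => (sl2_blocks_iff p hp hM B).trans (by simp only [Set.mem_insert_iff, Set.mem_singleton_iff])))
  rw [e, Nat.card_coe_set_eq, Set.ncard_eq_three]
  refine ⟨{χ : Cfsg.IrrCharacter (Matrix.SpecialLinearGroup (Fin 2) F) | (χ : (Matrix.SpecialLinearGroup (Fin 2) F) → ℂ) 1 = (Fintype.card F : ℂ)}, {χ : Cfsg.IrrCharacter (Matrix.SpecialLinearGroup (Fin 2) F) | (χ : (Matrix.SpecialLinearGroup (Fin 2) F) → ℂ) (bel (-1 : Fˣ) (0 : F)) = (χ : (Matrix.SpecialLinearGroup (Fin 2) F) → ℂ) 1 ∧ (χ : (Matrix.SpecialLinearGroup (Fin 2) F) → ℂ) 1 ≠ (Fintype.card F : ℂ)}, {χ : Cfsg.IrrCharacter (Matrix.SpecialLinearGroup (Fin 2) F) | (χ : (Matrix.SpecialLinearGroup (Fin 2) F)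 → ℂ) (bel (-1 : Fˣ) (0 : F)) = -(χ : (Matrix.SpecialLinearGroup (Fin 2) F) → ℂ) 1}, ?_, ?_, ?_, rfl⟩
  · intro h
    have h1 : St ∈ {χ : Cfsg.IrrCharacter (Matrix.SpecialLinearGroup (Fin 2) F) | (χ : (Matrix.SpecialLinearGroup (Fin 2) F) → ℂ) 1 = (Fintype.card F : ℂ)} := hSt1
    rw [h] at h1
    exact h1.2 hSt1
  · intro h
    have h1 : St ∈ {χ : Cfsg.IrrCharacter (Matrix.SpecialLinearGroup (Fin 2) F) | (χ : (Matrix.SpecialLinearGroup (Fin 2) F) → ℂ) 1 = (Fintype.card F : ℂ)} := hSt1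
    rw [h] at h1
    have h2 : (St : (Matrix.SpecialLinearGroup (Fin 2) F) → ℂ) (bel (-1 : Fˣ) (0 : F)) = -(St : (Matrix.SpecialLinearGroup (Fin 2) F) → ℂ) 1 := h1
    rw [hStm, hSt1] at h2
    apply hq0
    linear_combination (1 / 2 : ℂ) * h2
  · intro h
    have h1 : (⟨fun _ => (1 : ℂ), Helper24.isIrrCharacter_one⟩ : (Cfsg.IrrCharacter (Matrix.SpecialLinearGroup (Fin 2) F))) ∈ {χ : Cfsg.IrrCharacter (Matrix.SpecialLinearGroup (Fin 2) F) | (χ : (Matrix.SpecialLinearGroup (Fin 2) F) → ℂ) (bel (-1 : Fˣ) (0 : F)) = (χ : (Matrix.SpecialLinearGroup (Fin 2) F) → ℂ) 1 ∧ (χ : (Matrix.SpecialLinearGroup (Fin 2) F) → ℂ) 1 ≠ (Fintype.card F : ℂ)} := ⟨rfl, triv_ne_card⟩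
    rw [h] at h1
    have h2 : (1 : ℂ) = -1 := h1
    norm_num at h2

theorem sl2_sum_one : ∑ χ : (Cfsg.IrrCharacter (Matrix.SpecialLinearGroup (Fin 2) F)), (χ : (Matrix.SpecialLinearGroup (Fin 2) F) → ℂ) 1 * starRingEnd ℂ ((χ : (Matrix.SpecialLinearGroup (Fin 2) F) → ℂ) 1) = (Nat.card (Matrix.SpecialLinearGroup (Fin 2) F) : ℂ) := by
  rw [← Helper24.sum_irr_one_sq]
  refine Finset.sum_congr rfl (fun χ _ => ?_)
  obtain ⟨n, hn⟩ := Helper24.irr_one_eq_natCast χ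
  rw [hn, Complex.conj_natCast, pow_two]

theorem sl2_sum_neg (hodd : Odd (Fintype.card F)) : ∑ χ : (Cfsg.IrrCharacter (Matrix.SpecialLinearGroup (Fin 2) F)), (χ : (Matrix.SpecialLinearGroup (Fin 2) F) → ℂ) 1 * starRingEnd ℂ ((χ : (Matrix.SpecialLinearGroup (Fin 2) F) → ℂ) (bel (-1 : Fˣ) (0 : F))) = 0 := by
  refine (Helper24.sum_irr_mul_conj (1 : (Matrix.SpecialLinearGroup (Fin 2) F)) (bel (-1 : Fˣ) (0 : F))).2 ?_
  intro hc
  obtain ⟨c, hc⟩ := isConj_iff.mp hc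
  rw [mul_one, mul_inv_cancel] at hc
  exact bel_neg_ne_one hodd hc.symm

theorem blockCoeff_S1 (p : ℕ) [Fact p.Prime] [CharP F p] (hp : p ≠ 2) :
    Cfsg.blockCoeff {χ : Cfsg.IrrCharacter (Matrix.SpecialLinearGroup (Fin 2) F) | (χ : (Matrix.SpecialLinearGroup (Fin 2) F) → ℂ) (bel (-1 : Fˣ) (0 : F)) = -(χ : (Matrix.SpecialLinearGroup (Fin 2) F) → ℂ) 1} 1 = (2 : ℂ)⁻¹ := by
  classical
  have hodd := odd_card_of_char (F := F) p hp
  unfold Cfsg.blockCoeff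
  rw [Helper22.finsum_setOf_eq_sum']
  have hterm : ∀ (χ : (Cfsg.IrrCharacter (Matrix.SpecialLinearGroup (Fin 2) F))) (d : Decidable ((χ : (Matrix.SpecialLinearGroup (Fin 2) F) → ℂ) (bel (-1 : Fˣ) (0 : F)) = -(χ : (Matrix.SpecialLinearGroup (Fin 2) F) → ℂ) 1)),
      @ite ℂ ((χ : (Matrix.SpecialLinearGroup (Fin 2) F) → ℂ) (bel (-1 : Fˣ) (0 : F)) = -(χ : (Matrix.SpecialLinearGroup (Fin 2) F) → ℂ) 1) d ((χ : (Matrix.SpecialLinearGroup (Fin 2) F) → ℂ) 1 * starRingEnd ℂ ((χ : (Matrix.SpecialLinearGroup (Fin 2) F) → ℂ) 1)) 0 =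
      ((χ : (Matrix.SpecialLinearGroup (Fin 2) F) → ℂ) 1 * starRingEnd ℂ ((χ : (Matrix.SpecialLinearGroup (Fin 2) F) → ℂ) 1) - (χ : (Matrix.SpecialLinearGroup (Fin 2) F) → ℂ) 1 * starRingEnd ℂ ((χ : (Matrix.SpecialLinearGroup (Fin 2) F) → ℂ) (bel (-1 : Fˣ) (0 : F)))) / 2 := by
    intro χ d
    obtain ⟨n, hn⟩ := Helper24.irr_one_eq_natCast χ
    by_cases h : (χ : (Matrix.SpecialLinearGroup (Fin 2) F) → ℂ) (bel (-1 : Fˣ) (0 : F)) = -(χ : (Matrix.SpecialLinearGroup (Fin 2) F) → ℂ) 1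
    · rw [if_pos h, h, hn, map_neg, Complex.conj_natCast]
      ring
    · have h' := (sl2_sign χ).resolve_right h
      rw [if_neg h, h', sub_self, zero_div]
  rw [Finset.sum_congr rfl (fun χ _ => hterm χ _), ← Finset.sum_div, Finset.sum_sub_distrib, sl2_sum_one, sl2_sum_neg hodd, sub_zero]
  have hc : (Nat.card (Matrix.SpecialLinearGroup (Fin 2) F) : ℂ) ≠ 0 := Nat.cast_ne_zero.mpr Nat.card_pos.ne'
  rw [← mul_div_assoc, inv_mul_cancel₀ hc, one_div]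

theorem blockCoeff_S0 (p : ℕ) [Fact p.Prime] [CharP F p] (hp : p ≠ 2) :
    Cfsg.blockCoeff {χ : Cfsg.IrrCharacter (Matrix.SpecialLinearGroup (Fin 2) F) | (χ : (Matrix.SpecialLinearGroup (Fin 2) F) → ℂ) (bel (-1 : Fˣ) (0 : F)) = (χ : (Matrix.SpecialLinearGroup (Fin 2) F) → ℂ) 1 ∧ (χ : (Matrix.SpecialLinearGroup (Fin 2) F) → ℂ) 1 ≠ (Fintype.card F : ℂ)} 1 = (2 : ℂ)⁻¹ - (Nat.card (Matrix.SpecialLinearGroup (Fin 2) F) : ℂ)⁻¹ * ((Fintype.card F : ℂ) * (Fintype.card F : ℂ)) := by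
  classical
  have hodd := odd_card_of_char (F := F) p hp
  obtain ⟨St, hSt1, -⟩ := central_St (F := F)
  unfold Cfsg.blockCoeff
  rw [Helper22.finsum_setOf_eq_sum']
  have hterm : ∀ (χ : (Cfsg.IrrCharacter (Matrix.SpecialLinearGroup (Fin 2) F))) (d : Decidable ((χ : (Matrix.SpecialLinearGroup (Fin 2) F) → ℂ) (bel (-1 : Fˣ) (0 : F)) = (χ : (Matrix.SpecialLinearGroup (Fin 2) F) → ℂ) 1 ∧ (χ : (Matrix.SpecialLinearGroup (Fin 2) F) → ℂ) 1 ≠ (Fintype.card F : ℂ))),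
      @ite ℂ ((χ : (Matrix.SpecialLinearGroup (Fin 2) F) → ℂ) (bel (-1 : Fˣ) (0 : F)) = (χ : (Matrix.SpecialLinearGroup (Fin 2) F) → ℂ) 1 ∧ (χ : (Matrix.SpecialLinearGroup (Fin 2) F) → ℂ) 1 ≠ (Fintype.card F : ℂ)) d ((χ : (Matrix.SpecialLinearGroup (Fin 2) F) → ℂ) 1 * starRingEnd ℂ ((χ : (Matrix.SpecialLinearGroup (Fin 2) F) → ℂ) 1)) 0 =
      ((χ : (Matrix.SpecialLinearGroup (Fin 2) F) → ℂ) 1 * starRingEnd ℂ ((χ : (Matrix.SpecialLinearGroup (Fin 2) F) → ℂ) 1) + (χ : (Matrix.SpecialLinearGroup (Fin 2) F) → ℂ) 1 * starRingEnd ℂ ((χ : (Matrix.SpecialLinearGroup (Fin 2) F) → ℂ) (bel (-1 : Fˣ) (0 : F)))) / 2 - (if χ = St then (Fintype.card F : ℂ) * (Fintype.card F : ℂ) else 0) := by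
    intro χ d
    obtain ⟨n, hn⟩ := Helper24.irr_one_eq_natCast χ
    by_cases h : (χ : (Matrix.SpecialLinearGroup (Fin 2) F) → ℂ) (bel (-1 : Fˣ) (0 : F)) = (χ : (Matrix.SpecialLinearGroup (Fin 2) F) → ℂ) 1 ∧ (χ : (Matrix.SpecialLinearGroup (Fin 2) F) → ℂ) 1 ≠ (Fintype.card F : ℂ)
    · have hne : χ ≠ St := fun e => h.2 (by rw [e]; exact hSt1)
      rw [if_pos h, if_neg hne, h.1, hn, Complex.conj_natCast]
      ring
    · rw [if_neg h]
      by_cases h1 : (χ : (Matrix.SpecialLinearGroup (Fin 2) F) → ℂ) 1 = (Fintype.card F : ℂ)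
      · have e : χ = St := sl2_St_unique χ St h1 hSt1
        have h2 := sl2_St_neg χ h1
        rw [if_pos e, h2, h1, Complex.conj_natCast]
        ring
      · have hne : χ ≠ St := fun e => h1 (by rw [e]; exact hSt1)
        have h2 : (χ : (Matrix.SpecialLinearGroup (Fin 2) F) → ℂ) (bel (-1 : Fˣ) (0 : F)) = -(χ : (Matrix.SpecialLinearGroup (Fin 2) F) → ℂ) 1 := by
          rcases sl2_sign χ with h3 | h3
          · exact absurd ⟨h3, h1⟩ h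
          · exact h3
        rw [if_neg hne, h2, map_neg, hn, Complex.conj_natCast]
        ring
  have hSt_sum : ∑ χ : (Cfsg.IrrCharacter (Matrix.SpecialLinearGroup (Fin 2) F)), (if χ = St then (Fintype.card F : ℂ) * (Fintype.card F : ℂ) else 0) = (Fintype.card F : ℂ) * (Fintype.card F : ℂ) := by
    rw [Finset.sum_eq_single St (fun b _ hb => if_neg hb) (fun h => absurd (Finset.mem_univ _) h), if_pos rfl]
  rw [Finset.sum_congr rfl (fun χ _ => hterm χ _), Finset.sum_sub_distrib, ← Finset.sum_div, Finset.sum_add_distrib,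
    sl2_sum_one, sl2_sum_neg hodd, add_zero, hSt_sum]
  have hc : (Nat.card (Matrix.SpecialLinearGroup (Fin 2) F) : ℂ) ≠ 0 := Nat.cast_ne_zero.mpr Nat.card_pos.ne'
  rw [mul_sub, ← mul_div_assoc, inv_mul_cancel₀ hc, one_div]

theorem sl2_qq_ideal (p : ℕ) [Fact p.Prime] [CharP F p] {M : Ideal Cfsg.AlgInt} (hM : Cfsg.IsPModular p M) :
    Cfsg.MemLocalIdeal M ((Nat.card (Matrix.SpecialLinearGroup (Fin 2) F) : ℂ)⁻¹ * ((Fintype.card F : ℂ) * (Fintype.card F : ℂ))) := by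
  haveI := hM.2.1.isPrime
  have hpp : p.Prime := Fact.out
  obtain ⟨k, hk⟩ : p ∣ Fintype.card F := char_dvd_card p
  have h1 : Fintype.card F ^ 2 - 1 + 1 = Fintype.card F ^ 2 := Nat.sub_add_cancel (Nat.one_le_pow _ _ Fintype.card_pos)
  have hN : ¬ p ∣ Fintype.card F ^ 2 - 1 := by
    intro hd
    have h2 : p ∣ Fintype.card F ^ 2 - 1 + 1 := by
      rw [h1]
      exact Dvd.dvd.pow ⟨k, hk⟩ (by norm_num)
    exact hpp.one_lt.ne' (Nat.dvd_one.mp ((Nat.dvd_add_right hd).mp h2))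
  have hq0 : (Fintype.card F : ℂ) ≠ 0 := Nat.cast_ne_zero.mpr Fintype.card_ne_zero
  have hk' : (Fintype.card F : ℂ) = (p : ℂ) * (k : ℂ) := by rw [hk, Nat.cast_mul]
  have e : (Nat.card (Matrix.SpecialLinearGroup (Fin 2) F) : ℂ)⁻¹ * ((Fintype.card F : ℂ) * (Fintype.card F : ℂ)) = (((Fintype.card F ^ 2 - 1 : ℕ) : ℂ)⁻¹ * (k : ℂ)) * (p : ℂ) := by
    rw [sl2_card, Nat.cast_mul, mul_inv]
    calc (Fintype.card F : ℂ)⁻¹ * ((Fintype.card F ^ 2 - 1 : ℕ) : ℂ)⁻¹ * ((Fintype.card F : ℂ) * (Fintype.card F : ℂ))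
        = ((Fintype.card F ^ 2 - 1 : ℕ) : ℂ)⁻¹ * ((Fintype.card F : ℂ)⁻¹ * (Fintype.card F : ℂ)) * (Fintype.card F : ℂ) := by ring
      _ = ((Fintype.card F ^ 2 - 1 : ℕ) : ℂ)⁻¹ * (Fintype.card F : ℂ) := by rw [inv_mul_cancel₀ hq0, mul_one]
      _ = (((Fintype.card F ^ 2 - 1 : ℕ) : ℂ)⁻¹ * (k : ℂ)) * (p : ℂ) := by rw [hk']; ring
  rw [e]
  exact Helper5.memLocalIdeal_mul_left (Helper5.mem_locRing.mp ((Helper5.locRing M).mul_mem
    (Helper5.mem_locRing.mpr (Helper5.natCast_inv_memLocalRing hM hN))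
    (Helper5.mem_locRing.mpr (Helper5.natCast_memLocalRing k)))) (Helper5.prime_memLocalIdeal hM)

theorem defectClass_S1 (p : ℕ) [Fact p.Prime] [CharP F p] (hp : p ≠ 2) {M : Ideal Cfsg.AlgInt} (hM : Cfsg.IsPModular p M) : Cfsg.IsDefectClass M {χ : Cfsg.IrrCharacter (Matrix.SpecialLinearGroup (Fin 2) F) | (χ : (Matrix.SpecialLinearGroup (Fin 2) F) → ℂ) (bel (-1 : Fˣ) (0 : F)) = -(χ : (Matrix.SpecialLinearGroup (Fin 2) F) → ℂ) 1} 1 := by
  haveI := hM.2.1.isPrime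
  have h := half_unit hM hp 0 (Helper22.memLocalIdeal_zero hM.2.1.ne_top)
  rw [sub_zero, ← blockCoeff_S1 (F := F) p hp] at h
  refine ⟨h.1, h.2, fun χ _ => ?_⟩
  rw [cc_one _ (Helper24.irr_one_ne_zero χ)]
  exact Helper5.not_memLocalIdeal_one

theorem defectClass_S0 (p : ℕ) [Fact p.Prime] [CharP F p] (hp : p ≠ 2) {M : Ideal Cfsg.AlgInt} (hM : Cfsg.IsPModular p M) : Cfsg.IsDefectClass M {χ : Cfsg.IrrCharacter (Matrix.SpecialLinearGroup (Fin 2) F) | (χ : (Matrix.SpecialLinearGroup (Fin 2) F) → ℂ) (bel (-1 : Fˣ) (0 : F)) = (χ : (Matrix.SpecialLinearGroup (Fin 2) F) → ℂ) 1 ∧ (χ : (Matrix.SpecialLinearGroup (Fin 2) F) → ℂ) 1 ≠ (Fintype.card F : ℂ)} 1 := by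
  haveI := hM.2.1.isPrime
  have h := half_unit hM hp _ (sl2_qq_ideal (F := F) p hM)
  rw [← blockCoeff_S0 (F := F) p hp] at h
  refine ⟨h.1, h.2, fun χ _ => ?_⟩
  rw [cc_one _ (Helper24.irr_one_ne_zero χ)]
  exact Helper5.not_memLocalIdeal_one

end Cfsg.Agent.Helper12
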