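import Mathlib

/-!
# Self-dual faithful irreducible modules of abelian groups over finite fields
-/

set_option autoImplicit false

universe u v w

namespace Cfsg.Agent.Helper12.SD

/-! ### Abstract finite field lemmas -/

theorem fwd_abs {F : Type*} [Field F] [Fintype F] {A : Type*} [Field A] [Algebra F A] [Finite A]
    (τ : A →ₐ[F] A) (S : Set A) (hS : Algebra.adjoin F S = ⊤) (hτ : ∀ s ∈ S, τ s * s = 1)
    (hn : 2 ≤ Module.finrank F A) :
    Even (Module.finrank F A) ∧
      ∀ s ∈ S, s ^ (Fintype.card F ^ (Module.finrank F A / 2) + 1) = 1 := by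
  have hinj : Function.Injective τ := τ.toRingHom.injective
  have hbij : Function.Bijective τ := ⟨hinj, Finite.surjective_of_injective hinj⟩
  obtain ⟨⟨k, hk⟩, hkτ⟩ :=
    (FiniteField.bijective_frobeniusAlgEquivOfAlgebraic_pow F A).2 (AlgEquiv.ofBijective τ hbij)
  have hform : ∀ x : A, τ x = x ^ (Fintype.card F ^ k) := by
    intro x
    have h2 : (FiniteField.frobeniusAlgEquivOfAlgebraic F A ^ k) x =
        (AlgEquiv.ofBijective τ hbij) x := DFunLike.congr_fun hkτ x
    rw [AlgEquiv.coe_pow, FiniteField.coe_frobeniusAlgEquivOfAlgebraic_iterate] at h2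
    exact h2.symm
  have hpow : ∀ s ∈ S, s ^ (Fintype.card F ^ k + 1) = 1 := by
    intro s hs
    rw [pow_succ, ← hform]
    exact hτ s hs
  have hττ : τ.comp τ = AlgHom.id F A := by
    apply AlgHom.ext_of_adjoin_eq_top hS
    intro s hs
    have h1 := hτ s hs
    have h2 : τ s = s⁻¹ := eq_inv_of_mul_eq_one_left h1
    show τ (τ s) = s
    rw [h2, map_inv₀, h2, inv_inv]
  have hfrob2 : FiniteField.frobeniusAlgEquivOfAlgebraic F A ^ (2 * k) = 1 := by
    apply AlgEquiv.ext
    intro x
    rw [AlgEquiv.coe_pow, FiniteField.coe_frobeniusAlgEquivOfAlgebraic_iterate]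
    have h1 : τ (τ x) = x := DFunLike.congr_fun hττ x
    rw [hform, hform, ← pow_mul, ← pow_add] at h1
    show x ^ (Fintype.card F ^ (2 * k)) = x
    rw [two_mul]
    exact h1
  have hdvd : Module.finrank F A ∣ 2 * k := by
    rw [← FiniteField.orderOf_frobeniusAlgEquivOfAlgebraic F A]
    exact orderOf_dvd_of_pow_eq_one hfrob2
  obtain ⟨c, hc⟩ := hdvd
  have hc01 : c = 0 ∨ c = 1 := by
    rcases c with _ | _ | c
    · left; rfl
    · right; rfl
    · exfalso
      have : Module.finrank F A * (c + 1 + 1) =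
          Module.finrank F A * c + 2 * Module.finrank F A := by ring
      omega
  rcases hc01 with rfl | rfl
  · exfalso
    have hk0 : k = 0 := by omega
    subst hk0
    have hsub : S ⊆ ((⊥ : Subalgebra F A) : Set A) := by
      intro s hs
      have h1 : s ^ 2 = 1 := by
        have := hpow s hs
        rwa [pow_zero] at this
      rcases sq_eq_one_iff.mp h1 with h | h
      · rw [h]; exact Subalgebra.one_mem _
      · rw [h]; exact Subalgebra.neg_mem _ (Subalgebra.one_mem _)
    have h3 : (⊤ : Subalgebra F A) ≤ ⊥ := by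
      rw [← hS]; exact Algebra.adjoin_le hsub
    have h4 : (⊥ : Subalgebra F A) = ⊤ := le_antisymm bot_le h3
    have h5 := Subalgebra.bot_eq_top_iff_finrank_eq_one.mp h4
    omega
  · have hn2 : Module.finrank F A / 2 = k := by omega
    exact ⟨⟨k, by omega⟩, fun s hs => by rw [hn2]; exact hpow s hs⟩

theorem bwd_abs {F : Type*} [Field F] [Fintype F] {A : Type*} [Field A] [Algebra F A] [Finite A]
    (k : ℕ) :
    ∃ B : LinearMap.BilinForm F A, B.Nondegenerate ∧
      ∀ u : A, u ^ (Fintype.card F ^ k + 1) = 1 → ∀ x y, B (u * x) (u * y) = B x y := by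
  obtain ⟨σ, hσx⟩ : ∃ σ : A ≃ₐ[F] A, ∀ x, σ x = x ^ (Fintype.card F ^ k) := by
    refine ⟨FiniteField.frobeniusAlgEquivOfAlgebraic F A ^ k, fun x => ?_⟩
    rw [AlgEquiv.coe_pow, FiniteField.coe_frobeniusAlgEquivOfAlgebraic_iterate]
  have hnd := traceForm_nondegenerate F A
  refine ⟨(Algebra.traceForm F A).compl₂ σ.toLinearMap, ⟨?_, ?_⟩, ?_⟩
  · intro x hx
    apply hnd.1 x
    intro y
    have h := hx (σ.symm y)
    rw [LinearMap.compl₂_apply, AlgEquiv.toLinearMap_apply, AlgEquiv.apply_symm_apply] at h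
    exact h
  · intro y hy
    have h0 : σ y = 0 := by
      apply hnd.2 (σ y)
      intro x
      have h := hy x
      rw [LinearMap.compl₂_apply, AlgEquiv.toLinearMap_apply] at h
      exact h
    exact (map_eq_zero_iff σ σ.injective).mp h0
  · intro u hu x y
    rw [LinearMap.compl₂_apply, LinearMap.compl₂_apply, AlgEquiv.toLinearMap_apply,
      AlgEquiv.toLinearMap_apply, Algebra.traceForm_apply, Algebra.traceForm_apply,
      map_mul σ u y]
    congr 1
    have h1 : u * σ u = 1 := by rw [hσx, ← pow_succ']; exact hu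
    calc u * x * (σ u * σ y) = (u * σ u) * (x * σ y) := by ring
      _ = x * σ y := by rw [h1, one_mul]

/-! ### The adjoint automorphism -/

theorem exists_tau {F : Type*} [Field F] {H : Type*} [CommGroup H] {V : Type*} [AddCommGroup V]
    [Module F V] (ρ : Representation F H V) {A : Type*} [Field A] [Algebra F A]
    (ι : A →ₐ[F] Module.End F V) (u : H →* A) (hι : Function.Injective ι)
    (hu : ∀ h, ι (u h) = ρ h) (hgen : Algebra.adjoin F (Set.range u) = ⊤)
    (B : LinearMap.BilinForm F V) (hB : B.Nondegenerate)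
    (hinv : ∀ h : H, ∀ x y : V, B (ρ h x) (ρ h y) = B x y) :
    ∃ τ : A →ₐ[F] A, ∀ h, τ (u h) * u h = 1 := by
  have huniq : ∀ a a' a'' : A, (∀ x y, B (ι a x) y = B x (ι a' y)) →
      (∀ x y, B (ι a x) y = B x (ι a'' y)) → a' = a'' := by
    intro a a' a'' h1 h2
    apply hι
    apply LinearMap.ext
    intro y
    have h3 : ∀ x, B x (ι a' y - ι a'' y) = 0 := by
      intro x
      rw [map_sub, ← h1 x y, ← h2 x y, sub_self]
    exact sub_eq_zero.mp (hB.2 _ h3)
  have hgenR : ∀ h : H, ∀ x y, B (ι (u h) x) y = B x (ι (u h⁻¹) y) := by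
    intro h x y
    rw [hu, hu]
    have h1 : ρ h (ρ h⁻¹ y) = y := by
      have h2 : ρ h * ρ h⁻¹ = 1 := by rw [← map_mul, mul_inv_cancel, map_one]
      exact congrArg (fun f : Module.End F V => f y) h2
    calc B (ρ h x) y = B (ρ h x) (ρ h (ρ h⁻¹ y)) := by rw [h1]
      _ = B x (ρ h⁻¹ y) := hinv h x _
  have hex : ∀ a : A, ∃ a' : A, ∀ x y, B (ι a x) y = B x (ι a' y) := by
    intro a
    have ha : a ∈ Algebra.adjoin F (Set.range u) := by rw [hgen]; exact Algebra.mem_top
    refine Algebra.adjoin_induction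
      (p := fun a _ => ∃ a' : A, ∀ x y, B (ι a x) y = B x (ι a' y)) ?_ ?_ ?_ ?_ ha
    · rintro _ ⟨h, rfl⟩
      exact ⟨u h⁻¹, hgenR h⟩
    · intro r
      refine ⟨algebraMap F A r, fun x y => ?_⟩
      simp only [AlgHom.commutes, Module.algebraMap_end_apply, map_smul, LinearMap.smul_apply]
    · rintro a b _ _ ⟨a', ha'⟩ ⟨b', hb'⟩
      refine ⟨a' + b', fun x y => ?_⟩
      simp only [map_add, LinearMap.add_apply, ha', hb']
    · rintro a b _ _ ⟨a', ha'⟩ ⟨b', hb'⟩
      refine ⟨b' * a', fun x y => ?_⟩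
      rw [map_mul ι a b, map_mul ι b' a']
      show B (ι a (ι b x)) y = B x (ι b' (ι a' y))
      rw [ha', hb']
  choose τ hτ using hex
  have hτ1 : τ 1 = 1 := huniq 1 _ _ (hτ 1) (fun x y => by rw [map_one]; rfl)
  have hτmul : ∀ a b, τ (a * b) = τ a * τ b := by
    intro a b
    refine huniq (a * b) _ _ (hτ (a * b)) (fun x y => ?_)
    rw [mul_comm (τ a) (τ b), map_mul ι a b, map_mul ι (τ b) (τ a)]
    show B (ι a (ι b x)) y = B x (ι (τ b) (ι (τ a) y))
    rw [hτ a, hτ b]
  have hτadd : ∀ a b, τ (a + b) = τ a + τ b := by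
    intro a b
    refine huniq (a + b) _ _ (hτ (a + b)) (fun x y => ?_)
    simp only [map_add, LinearMap.add_apply, hτ a, hτ b]
  have hτalg : ∀ r : F, τ (algebraMap F A r) = algebraMap F A r := by
    intro r
    refine huniq _ _ _ (hτ _) (fun x y => ?_)
    simp only [AlgHom.commutes, Module.algebraMap_end_apply, map_smul, LinearMap.smul_apply]
  have hτ0 : τ 0 = 0 := by
    have := hτalg 0
    rwa [map_zero] at this
  refine ⟨{ toFun := τ, map_one' := hτ1, map_mul' := hτmul, map_zero' := hτ0,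
            map_add' := hτadd, commutes' := hτalg }, fun h => ?_⟩
  have h1 : τ (u h) = u h⁻¹ := huniq (u h) _ _ (hτ (u h)) (hgenR h)
  show τ (u h) * u h = 1
  rw [h1, ← map_mul, inv_mul_cancel, map_one]

/-! ### The field generated by the group -/

theorem package_aux {F : Type u} [Field F] [Fintype F] {H : Type w} [CommGroup H]
    {V : Type v} [AddCommGroup V] [Module F V] [FiniteDimensional F V] [Nontrivial V]
    (ρ : Representation F H V)
    (hirr : ∀ U : Submodule F V, (∀ h : H, ∀ u ∈ U, ρ h u ∈ U) → U = ⊥ ∨ U = ⊤)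
    (S : Subalgebra F (Module.End F V)) (hmem : ∀ h, ρ h ∈ S)
    (hcommS : ∀ a b : S, a * b = b * a)
    (hgen : Algebra.adjoin F (((↑) : S → Module.End F V) ⁻¹' (Set.range ρ)) = ⊤) :
    ∃ (A : Type v) (_ : Field A) (_ : Algebra F A) (_ : Finite A)
      (ι : A →ₐ[F] Module.End F V) (u : H →* A) (e : A ≃ₗ[F] V),
      Function.Injective ι ∧ (∀ h, ι (u h) = ρ h) ∧ Algebra.adjoin F (Set.range u) = ⊤ ∧
      ∀ a x, e (a * x) = ι a (e x) := by
  classical
  obtain ⟨v₀, hv₀⟩ := exists_ne (0 : V)
  haveI : Finite (Module.End F V) := Module.finite_of_finite F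
  haveI finS : Finite S := inferInstance
  have hcm : ∀ (a : S) (h : H) (x : V),
      (a : Module.End F V) (ρ h x) = ρ h ((a : Module.End F V) x) := by
    intro a h x
    have h1 := hcommS a ⟨ρ h, hmem h⟩
    exact congrArg (fun f : S => (f : Module.End F V) x) h1
  have hinj : ∀ a : S, a ≠ 0 → Function.Injective (a : Module.End F V) := by
    intro a ha
    have hker := hirr (LinearMap.ker (a : Module.End F V)) (by
      intro h x hx
      rw [LinearMap.mem_ker] at hx ⊢
      rw [hcm a h x, hx, map_zero])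
    rcases hker with hk | hk
    · exact LinearMap.ker_eq_bot.mp hk
    · exfalso
      apply ha
      apply Subtype.ext
      exact LinearMap.ker_eq_top.mp hk
  have hnzd : ∀ a b : S, a * b = 0 → a = 0 ∨ b = 0 := by
    intro a b hab
    by_cases ha : a = 0
    · exact Or.inl ha
    · right
      apply Subtype.ext
      apply LinearMap.ext
      intro x
      apply hinj a ha
      have h1 : (a : Module.End F V) ((b : Module.End F V) x) = 0 :=
        congrArg (fun f : S => (f : Module.End F V) x) hab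
      rw [h1]
      show (0 : V) = (a : Module.End F V) 0
      exact (map_zero _).symm
  have h01 : (0 : S) ≠ 1 := by
    intro h
    apply hv₀
    have h1 : ((0 : S) : Module.End F V) v₀ = ((1 : S) : Module.End F V) v₀ := by rw [h]
    exact h1.symm
  letI cS : CommRing S := { (inferInstance : Ring S) with mul_comm := hcommS }
  haveI : NoZeroDivisors S := ⟨fun {a b} hab => hnzd a b hab⟩
  haveI : Nontrivial S := ⟨⟨0, 1, h01⟩⟩
  haveI : IsDomain S := NoZeroDivisors.to_isDomain S
  letI fS : Field S := fieldOfFiniteDimensional F S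
  let u : H →* S :=
    { toFun := fun h => ⟨ρ h, hmem h⟩
      map_one' := Subtype.ext (map_one ρ)
      map_mul' := fun a b => Subtype.ext (map_mul ρ a b) }
  let lin : S →ₗ[F] V :=
    { toFun := fun a => (a : Module.End F V) v₀
      map_add' := fun a b => rfl
      map_smul' := fun c a => rfl }
  have hlin_inj : Function.Injective lin := by
    intro a b hab
    by_contra hne
    have hsub : a - b ≠ 0 := sub_ne_zero.mpr hne
    have h1 : ((a - b : S) : Module.End F V) v₀ = ((a - b : S) : Module.End F V) 0 := by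
      rw [map_zero]
      have h2 : (a : Module.End F V) v₀ = (b : Module.End F V) v₀ := hab
      show (a : Module.End F V) v₀ - (b : Module.End F V) v₀ = 0
      rw [h2, sub_self]
    exact hv₀ (hinj (a - b) hsub h1)
  have hlin_surj : Function.Surjective lin := by
    have hr := hirr (LinearMap.range lin) (by
      rintro h _ ⟨a, rfl⟩
      exact ⟨⟨ρ h, hmem h⟩ * a, rfl⟩)
    rcases hr with hr | hr
    · exfalso
      apply hv₀
      have h1 : v₀ ∈ LinearMap.range lin := ⟨1, rfl⟩
      rw [hr] at h1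
      exact (Submodule.mem_bot F).mp h1
    · exact LinearMap.range_eq_top.mp hr
  let e : S ≃ₗ[F] V := LinearEquiv.ofBijective lin ⟨hlin_inj, hlin_surj⟩
  have h1 : Function.Injective (S.val) := Subtype.val_injective
  have h3 : Algebra.adjoin F (Set.range u) = ⊤ := by
    have hpre : Set.range u = ((↑) : S → Module.End F V) ⁻¹' (Set.range ρ) := by
      ext a
      constructor
      · rintro ⟨h, rfl⟩
        exact ⟨h, rfl⟩
      · rintro ⟨h, hh⟩
        exact ⟨h, Subtype.ext hh⟩
    rw [hpre]
    exact hgen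
  exact ⟨S, fS, inferInstance, finS, S.val, u, e, h1, fun h => rfl, h3, fun a x => rfl⟩

theorem package {F : Type u} [Field F] [Fintype F] {H : Type w} [CommGroup H]
    {V : Type v} [AddCommGroup V] [Module F V] [FiniteDimensional F V] [Nontrivial V]
    (ρ : Representation F H V)
    (hirr : ∀ U : Submodule F V, (∀ h : H, ∀ u ∈ U, ρ h u ∈ U) → U = ⊥ ∨ U = ⊤) :
    ∃ (A : Type v) (_ : Field A) (_ : Algebra F A) (_ : Finite A)
      (ι : A →ₐ[F] Module.End F V) (u : H →* A) (e : A ≃ₗ[F] V),
      Function.Injective ι ∧ (∀ h, ι (u h) = ρ h) ∧ Algebra.adjoin F (Set.range u) = ⊤ ∧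
      ∀ a x, e (a * x) = ι a (e x) := by
  have hcomm : ∀ a ∈ Set.range ρ, ∀ b ∈ Set.range ρ, a * b = b * a := by
    rintro _ ⟨h, rfl⟩ _ ⟨h', rfl⟩
    rw [← map_mul, ← map_mul, mul_comm]
  refine package_aux ρ hirr (Algebra.adjoin F (Set.range ρ))
    (fun h => Algebra.subset_adjoin ⟨h, rfl⟩) ?_ Algebra.adjoin_adjoin_coe_preimage
  intro a b
  letI := Algebra.adjoinCommRingOfComm F hcomm
  exact mul_comm a b

/-! ### Dimension one -/

theorem part1 {F : Type*} [Field F] {H : Type*} [Group H] [Finite H] {V : Type*}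
    [AddCommGroup V] [Module F V] (ρ : Representation F H V)
    (hfaith : Function.Injective ρ) (h1 : Module.finrank F V = 1)
    (B : LinearMap.BilinForm F V) (hB : B.Nondegenerate)
    (hinv : ∀ h : H, ∀ x y : V, B (ρ h x) (ρ h y) = B x y) :
    Nat.card H ≤ 2 := by
  classical
  obtain ⟨v₀, hv₀, hspan⟩ := finrank_eq_one_iff'.mp h1
  have hc' : ∀ h : H, ∃ c : F, ρ h v₀ = c • v₀ := fun h => by
    obtain ⟨c, hc⟩ := hspan (ρ h v₀)
    exact ⟨c, hc.symm⟩
  choose c hc using hc'
  have hB0 : B v₀ v₀ ≠ 0 := by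
    intro h0
    apply hv₀
    apply hB.1
    intro w
    obtain ⟨d, rfl⟩ := hspan w
    rw [map_smul, smul_eq_mul, h0, mul_zero]
  have hsq : ∀ h, c h * c h = 1 := by
    intro h
    have h2 := hinv h v₀ v₀
    rw [hc h] at h2
    simp only [map_smul, LinearMap.smul_apply, smul_eq_mul] at h2
    have h3 : (c h * c h - 1) * B v₀ v₀ = 0 := by linear_combination h2
    exact sub_eq_zero.mp ((mul_eq_zero.mp h3).resolve_right hB0)
  have hpm : ∀ h, c h = 1 ∨ c h = -1 := fun h => mul_self_eq_one_iff.mp (hsq h)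
  have hcinj : Function.Injective c := by
    intro h h' hcc
    apply hfaith
    apply LinearMap.ext
    intro w
    obtain ⟨d, rfl⟩ := hspan w
    rw [map_smul, map_smul, hc, hc, hcc]
  have hinj2 : Function.Injective (fun h => decide (c h = 1)) := by
    intro h h' hd
    apply hcinj
    have hd' : c h = 1 ↔ c h' = 1 := by simpa using hd
    by_cases e1 : c h = 1
    · rw [e1, hd'.mp e1]
    · have e2 : c h' ≠ 1 := fun e => e1 (hd'.mpr e)
      rw [(hpm h).resolve_left e1, (hpm h').resolve_left e2]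
  calc Nat.card H ≤ Nat.card Bool := Nat.card_le_card_of_injective _ hinj2
    _ = 2 := by simp

end Cfsg.Agent.Helper12.SD
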