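import Mathlib

/-!
# Self-dual modules of coprime groups over finite fields: symplectic plus orthogonal
-/

set_option autoImplicit false

universe u v w

namespace Cfsg.Agent.Helper12.SD2

section Basic

variable {F : Type u} [Field F] {G : Type w} [Group G] {V : Type v} [AddCommGroup V] [Module F V]

theorem exists_proj (M K : Submodule F V) (h : M ⊓ K = ⊥) :
    ∃ π : V →ₗ[F] V, (∀ m ∈ M, π m = m) ∧ (∀ k ∈ K, π k = 0) ∧ ∀ v, π v ∈ M := by
  let f : M →ₗ[F] V ⧸ K := K.mkQ.comp M.subtype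
  have hf : LinearMap.ker f = ⊥ := by
    rw [LinearMap.ker_eq_bot']
    intro m hm
    have h1 : (m : V) ∈ K := by
      have h0 : K.mkQ (m : V) = 0 := hm
      rwa [Submodule.mkQ_apply, Submodule.Quotient.mk_eq_zero] at h0
    have h2 : (m : V) ∈ M ⊓ K := ⟨m.2, h1⟩
    rw [h] at h2
    exact Subtype.ext ((Submodule.mem_bot F).mp h2)
  obtain ⟨g, hg⟩ := LinearMap.exists_leftInverse_of_injective f hf
  refine ⟨M.subtype.comp (g.comp K.mkQ), ?_, ?_, ?_⟩
  · intro m hm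
    have h1 : g (f ⟨m, hm⟩) = ⟨m, hm⟩ := congrArg (fun φ : M →ₗ[F] M => φ ⟨m, hm⟩) hg
    have h2 : g (K.mkQ m) = ⟨m, hm⟩ := h1
    show ((g (K.mkQ m) : M) : V) = m
    rw [h2]
  · intro k hk
    show ((g (K.mkQ k) : M) : V) = 0
    have h0 : K.mkQ k = 0 := by
      rw [Submodule.mkQ_apply, Submodule.Quotient.mk_eq_zero]; exact hk
    rw [h0, map_zero]
    rfl
  · intro v
    exact (g (K.mkQ v)).2

theorem rep_cancel (ρ : Representation F G V) (g : G) (v : V) : ρ g (ρ g⁻¹ v) = v := by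
  have h : ρ g * ρ g⁻¹ = 1 := by rw [← map_mul, mul_inv_cancel, map_one]
  exact congrArg (fun f : Module.End F V => f v) h

theorem rep_cancel' (ρ : Representation F G V) (g : G) (v : V) : ρ g⁻¹ (ρ g v) = v := by
  have h : ρ g⁻¹ * ρ g = 1 := by rw [← map_mul, inv_mul_cancel, map_one]
  exact congrArg (fun f : Module.End F V => f v) h

theorem maschke [Finite G] (p : ℕ) [CharP F p] (hcop : ¬ p ∣ Nat.card G)
    (ρ : Representation F G V) (X : Submodule F V) (hX : ∀ g : G, ∀ x ∈ X, ρ g x ∈ X) :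
    ∃ C : Submodule F V, (∀ g : G, ∀ x ∈ C, ρ g x ∈ C) ∧ X ⊓ C = ⊥ ∧ X ⊔ C = ⊤ := by
  classical
  haveI : Fintype G := Fintype.ofFinite G
  obtain ⟨π₀, hπ₀, -, hπ₀X⟩ := exists_proj X ⊥ (inf_bot_eq X)
  have hcard : (Fintype.card G : F) ≠ 0 := by
    intro h0
    rw [CharP.cast_eq_zero_iff F p] at h0
    rw [Nat.card_eq_fintype_card] at hcop
    exact hcop h0
  let π : V →ₗ[F] V := (Fintype.card G : F)⁻¹ • ∑ g : G, (ρ g).comp (π₀.comp (ρ g⁻¹))
  have hπ_apply : ∀ v, π v = (Fintype.card G : F)⁻¹ • ∑ g : G, ρ g (π₀ (ρ g⁻¹ v)) := by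
    intro v
    simp only [π, LinearMap.smul_apply, LinearMap.sum_apply, LinearMap.comp_apply]
  have hπX : ∀ v, π v ∈ X := by
    intro v
    rw [hπ_apply]
    apply X.smul_mem
    apply X.sum_mem
    intro g _
    exact hX g _ (hπ₀X _)
  have hπid : ∀ x ∈ X, π x = x := by
    intro x hx
    rw [hπ_apply]
    have h1 : ∀ g : G, ρ g (π₀ (ρ g⁻¹ x)) = x := by
      intro g
      rw [hπ₀ _ (hX g⁻¹ x hx), rep_cancel]
    rw [Finset.sum_congr rfl (fun g _ => h1 g), Finset.sum_const, Finset.card_univ,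
      ← Nat.cast_smul_eq_nsmul F, smul_smul, inv_mul_cancel₀ hcard, one_smul]
  have hπcomm : ∀ (h : G) (v : V), π (ρ h v) = ρ h (π v) := by
    intro h v
    rw [hπ_apply, hπ_apply, map_smul, map_sum]
    congr 1
    symm
    apply Fintype.sum_equiv (Equiv.mulLeft h)
    intro g
    show ρ h (ρ g (π₀ (ρ g⁻¹ v))) = ρ (h * g) (π₀ (ρ (h * g)⁻¹ (ρ h v)))
    have e1 : ρ (h * g)⁻¹ (ρ h v) = ρ g⁻¹ v := by
      rw [mul_inv_rev, map_mul]
      show ρ g⁻¹ (ρ h⁻¹ (ρ h v)) = ρ g⁻¹ v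
      rw [rep_cancel']
    rw [e1, map_mul]
    rfl
  refine ⟨LinearMap.ker π, ?_, ?_, ?_⟩
  · intro g x hx
    rw [LinearMap.mem_ker] at hx ⊢
    rw [hπcomm, hx, map_zero]
  · rw [Submodule.eq_bot_iff]
    rintro x ⟨hx, hk⟩
    rw [← hπid x hx]
    exact LinearMap.mem_ker.mp hk
  · rw [eq_top_iff]
    intro v _
    have hv : v = π v + (v - π v) := by abel
    rw [hv]
    refine Submodule.add_mem_sup (hπX v) ?_
    rw [LinearMap.mem_ker, map_sub, hπid _ (hπX v), sub_self]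

/-- The conclusion, relative to an invariant subspace `Y`. -/
def Good (p : ℕ) (ρ : Representation F G V) (Y : Submodule F V) : Prop :=
  ∃ U W : Submodule F V, U ⊓ W = ⊥ ∧ U ⊔ W = Y ∧ (∀ g : G, ∀ u ∈ U, ρ g u ∈ U) ∧
    (∀ g : G, ∀ w ∈ W, ρ g w ∈ W) ∧
    (∃ A : LinearMap.BilinForm F V, (∀ x : V, A x x = 0) ∧
      (∀ g : G, ∀ x ∈ U, ∀ y ∈ U, A (ρ g x) (ρ g y) = A x y) ∧
      (∀ x ∈ U, (∀ y ∈ U, A x y = 0) → x = 0)) ∧
    (∃ S : LinearMap.BilinForm F V, (∀ x y : V, S x y = S y x) ∧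
      (∀ g : G, ∀ x ∈ W, ∀ y ∈ W, S (ρ g x) (ρ g y) = S x y) ∧
      (∀ x ∈ W, (∀ y ∈ W, S x y = 0) → x = 0)) ∧
    (p = 2 → ∀ g : G, ∀ w ∈ W, ρ g w = w)

/-- The conclusion of the theorem. -/
def Concl (p : ℕ) (ρ : Representation F G V) : Prop :=
  ∃ U W : Submodule F V, IsCompl U W ∧ (∀ g : G, ∀ u ∈ U, ρ g u ∈ U) ∧
    (∀ g : G, ∀ w ∈ W, ρ g w ∈ W) ∧
    (∃ A : LinearMap.BilinForm F V, (∀ x : V, A x x = 0) ∧
      (∀ g : G, ∀ x ∈ U, ∀ y ∈ U, A (ρ g x) (ρ g y) = A x y) ∧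
      (∀ x ∈ U, (∀ y ∈ U, A x y = 0) → x = 0)) ∧
    (∃ S : LinearMap.BilinForm F V, (∀ x y : V, S x y = S y x) ∧
      (∀ g : G, ∀ x ∈ W, ∀ y ∈ W, S (ρ g x) (ρ g y) = S x y) ∧
      (∀ x ∈ W, (∀ y ∈ W, S x y = 0) → x = 0)) ∧
    (p = 2 → ∀ g : G, ∀ w ∈ W, ρ g w = w)

theorem concl_of_good_top (p : ℕ) (ρ : Representation F G V) (h : Good p ρ ⊤) : Concl p ρ := by
  obtain ⟨U, W, hi, hs, hrest⟩ := h
  exact ⟨U, W, IsCompl.of_eq hi hs, hrest⟩

theorem bot_inv (ρ : Representation F G V) :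
    ∀ g : G, ∀ u ∈ (⊥ : Submodule F V), ρ g u ∈ (⊥ : Submodule F V) := by
  intro g u hu
  rw [(Submodule.mem_bot F).mp hu, map_zero]
  exact Submodule.zero_mem _

theorem good_bot (p : ℕ) (ρ : Representation F G V) : Good p ρ ⊥ :=
  ⟨⊥, ⊥, inf_bot_eq _, sup_bot_eq _, bot_inv ρ, bot_inv ρ,
    ⟨0, fun x => rfl, fun g x _ y _ => rfl, fun x hx _ => (Submodule.mem_bot F).mp hx⟩,
    ⟨0, fun x y => rfl, fun g x _ y _ => rfl, fun x hx _ => (Submodule.mem_bot F).mp hx⟩,
    fun _ g w hw => by rw [(Submodule.mem_bot F).mp hw, map_zero]⟩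

theorem good_U (p : ℕ) (ρ : Representation F G V) (M : Submodule F V)
    (hM : ∀ g : G, ∀ m ∈ M, ρ g m ∈ M) (A : LinearMap.BilinForm F V) (hA : ∀ x, A x x = 0)
    (hAi : ∀ g : G, ∀ x ∈ M, ∀ y ∈ M, A (ρ g x) (ρ g y) = A x y)
    (hAn : ∀ x ∈ M, (∀ y ∈ M, A x y = 0) → x = 0) : Good p ρ M :=
  ⟨M, ⊥, inf_bot_eq _, sup_bot_eq _, hM, bot_inv ρ, ⟨A, hA, hAi, hAn⟩,
    ⟨0, fun x y => rfl, fun g x _ y _ => rfl, fun x hx _ => (Submodule.mem_bot F).mp hx⟩,
    fun _ g w hw => by rw [(Submodule.mem_bot F).mp hw, map_zero]⟩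

theorem good_W (p : ℕ) (ρ : Representation F G V) (M : Submodule F V)
    (hM : ∀ g : G, ∀ m ∈ M, ρ g m ∈ M) (S : LinearMap.BilinForm F V)
    (hS : ∀ x y, S x y = S y x)
    (hSi : ∀ g : G, ∀ x ∈ M, ∀ y ∈ M, S (ρ g x) (ρ g y) = S x y)
    (hSn : ∀ x ∈ M, (∀ y ∈ M, S x y = 0) → x = 0)
    (htriv : p = 2 → ∀ g : G, ∀ w ∈ M, ρ g w = w) : Good p ρ M :=
  ⟨⊥, M, bot_inf_eq _, bot_sup_eq _, bot_inv ρ, hM,
    ⟨0, fun x => rfl, fun g x _ y _ => rfl, fun x hx _ => (Submodule.mem_bot F).mp hx⟩,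
    ⟨S, hS, hSi, hSn⟩, htriv⟩

theorem combine_form (ρ : Representation F G V) {Y₁ Y₂ U₁ U₂ : Submodule F V}
    (h1 : U₁ ≤ Y₁) (h2 : U₂ ≤ Y₂)
    (hU₁ : ∀ g : G, ∀ u ∈ U₁, ρ g u ∈ U₁) (hU₂ : ∀ g : G, ∀ u ∈ U₂, ρ g u ∈ U₂)
    (π₁ π₂ : V →ₗ[F] V) (hπ₁ : ∀ m ∈ Y₁, π₁ m = m) (hπ₁' : ∀ k ∈ Y₂, π₁ k = 0)
    (hπ₂ : ∀ m ∈ Y₂, π₂ m = m) (hπ₂' : ∀ k ∈ Y₁, π₂ k = 0)
    (A₁ A₂ : LinearMap.BilinForm F V)
    (hA₁i : ∀ g : G, ∀ x ∈ U₁, ∀ y ∈ U₁, A₁ (ρ g x) (ρ g y) = A₁ x y)
    (hA₁n : ∀ x ∈ U₁, (∀ y ∈ U₁, A₁ x y = 0) → x = 0)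
    (hA₂i : ∀ g : G, ∀ x ∈ U₂, ∀ y ∈ U₂, A₂ (ρ g x) (ρ g y) = A₂ x y)
    (hA₂n : ∀ x ∈ U₂, (∀ y ∈ U₂, A₂ x y = 0) → x = 0) :
    (∀ g : G, ∀ x ∈ U₁ ⊔ U₂, ∀ y ∈ U₁ ⊔ U₂,
        (A₁.comp π₁ π₁ + A₂.comp π₂ π₂) (ρ g x) (ρ g y) =
          (A₁.comp π₁ π₁ + A₂.comp π₂ π₂) x y) ∧
      (∀ x ∈ U₁ ⊔ U₂, (∀ y ∈ U₁ ⊔ U₂, (A₁.comp π₁ π₁ + A₂.comp π₂ π₂) x y = 0) → x = 0) := by
  have key1 : ∀ u₁ ∈ U₁, ∀ u₂ ∈ U₂, π₁ (u₁ + u₂) = u₁ := by
    intro u₁ hu₁ u₂ hu₂
    rw [map_add, hπ₁ u₁ (h1 hu₁), hπ₁' u₂ (h2 hu₂), add_zero]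
  have key2 : ∀ u₁ ∈ U₁, ∀ u₂ ∈ U₂, π₂ (u₁ + u₂) = u₂ := by
    intro u₁ hu₁ u₂ hu₂
    rw [map_add, hπ₂' u₁ (h1 hu₁), hπ₂ u₂ (h2 hu₂), zero_add]
  have hval : ∀ u₁ ∈ U₁, ∀ u₂ ∈ U₂, ∀ v₁ ∈ U₁, ∀ v₂ ∈ U₂,
      (A₁.comp π₁ π₁ + A₂.comp π₂ π₂) (u₁ + u₂) (v₁ + v₂) = A₁ u₁ v₁ + A₂ u₂ v₂ := by
    intro u₁ hu₁ u₂ hu₂ v₁ hv₁ v₂ hv₂
    simp only [LinearMap.add_apply, LinearMap.BilinForm.comp_apply]
    rw [key1 u₁ hu₁ u₂ hu₂, key1 v₁ hv₁ v₂ hv₂, key2 u₁ hu₁ u₂ hu₂, key2 v₁ hv₁ v₂ hv₂]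
  constructor
  · intro g x hx y hy
    obtain ⟨u₁, hu₁, u₂, hu₂, rfl⟩ := Submodule.mem_sup.mp hx
    obtain ⟨v₁, hv₁, v₂, hv₂, rfl⟩ := Submodule.mem_sup.mp hy
    rw [map_add (ρ g) u₁ u₂, map_add (ρ g) v₁ v₂,
      hval _ (hU₁ g u₁ hu₁) _ (hU₂ g u₂ hu₂) _ (hU₁ g v₁ hv₁) _ (hU₂ g v₂ hv₂),
      hval u₁ hu₁ u₂ hu₂ v₁ hv₁ v₂ hv₂, hA₁i g u₁ hu₁ v₁ hv₁, hA₂i g u₂ hu₂ v₂ hv₂]
  · intro x hx hzero
    obtain ⟨u₁, hu₁, u₂, hu₂, rfl⟩ := Submodule.mem_sup.mp hx
    have e1 : u₁ = 0 := by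
      apply hA₁n u₁ hu₁
      intro v₁ hv₁
      have h0 := hzero (v₁ + 0) (by rw [add_zero]; exact Submodule.mem_sup_left hv₁)
      rw [hval u₁ hu₁ u₂ hu₂ v₁ hv₁ 0 U₂.zero_mem, map_zero, add_zero] at h0
      exact h0
    have e2 : u₂ = 0 := by
      apply hA₂n u₂ hu₂
      intro v₂ hv₂
      have h0 := hzero (0 + v₂) (by rw [zero_add]; exact Submodule.mem_sup_right hv₂)
      rw [hval u₁ hu₁ u₂ hu₂ 0 U₁.zero_mem v₂ hv₂, map_zero, zero_add] at h0
      exact h0
    rw [e1, e2, add_zero]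

theorem combine (p : ℕ) (ρ : Representation F G V) {Y₁ Y₂ : Submodule F V}
    (hg1 : Good p ρ Y₁) (hg2 : Good p ρ Y₂) (h : Y₁ ⊓ Y₂ = ⊥) : Good p ρ (Y₁ ⊔ Y₂) := by
  obtain ⟨U₁, W₁, hi₁, hs₁, hU₁, hW₁, ⟨A₁, hA₁a, hA₁i, hA₁n⟩, ⟨S₁, hS₁s, hS₁i, hS₁n⟩, ht₁⟩ := hg1
  obtain ⟨U₂, W₂, hi₂, hs₂, hU₂, hW₂, ⟨A₂, hA₂a, hA₂i, hA₂n⟩, ⟨S₂, hS₂s, hS₂i, hS₂n⟩, ht₂⟩ := hg2
  obtain ⟨π₁, hπ₁, hπ₁', -⟩ := exists_proj Y₁ Y₂ h
  obtain ⟨π₂, hπ₂, hπ₂', -⟩ := exists_proj Y₂ Y₁ (by rw [inf_comm]; exact h)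
  have hU₁Y : U₁ ≤ Y₁ := le_sup_left.trans hs₁.le
  have hW₁Y : W₁ ≤ Y₁ := le_sup_right.trans hs₁.le
  have hU₂Y : U₂ ≤ Y₂ := le_sup_left.trans hs₂.le
  have hW₂Y : W₂ ≤ Y₂ := le_sup_right.trans hs₂.le
  obtain ⟨hAi, hAn⟩ := combine_form ρ hU₁Y hU₂Y hU₁ hU₂ π₁ π₂ hπ₁ hπ₁' hπ₂ hπ₂' A₁ A₂
    hA₁i hA₁n hA₂i hA₂n
  obtain ⟨hSi, hSn⟩ := combine_form ρ hW₁Y hW₂Y hW₁ hW₂ π₁ π₂ hπ₁ hπ₁' hπ₂ hπ₂' S₁ S₂
    hS₁i hS₁n hS₂i hS₂n
  refine ⟨U₁ ⊔ U₂, W₁ ⊔ W₂, ?_, ?_, ?_, ?_, ⟨A₁.comp π₁ π₁ + A₂.comp π₂ π₂, ?_, hAi, hAn⟩,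
    ⟨S₁.comp π₁ π₁ + S₂.comp π₂ π₂, ?_, hSi, hSn⟩, ?_⟩
  · rw [Submodule.eq_bot_iff]
    rintro v ⟨hvU, hvW⟩
    obtain ⟨u₁, hu₁, u₂, hu₂, rfl⟩ := Submodule.mem_sup.mp hvU
    obtain ⟨w₁, hw₁, w₂, hw₂, hw⟩ := Submodule.mem_sup.mp hvW
    have e1 : u₁ = w₁ := by
      have h0 := congrArg π₁ hw
      rw [map_add, map_add, hπ₁ w₁ (hW₁Y hw₁), hπ₁' w₂ (hW₂Y hw₂), hπ₁ u₁ (hU₁Y hu₁),
        hπ₁' u₂ (hU₂Y hu₂), add_zero, add_zero] at h0
      exact h0.symm
    have e2 : u₂ = w₂ := by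
      have h0 := congrArg π₂ hw
      rw [map_add, map_add, hπ₂' w₁ (hW₁Y hw₁), hπ₂ w₂ (hW₂Y hw₂), hπ₂' u₁ (hU₁Y hu₁),
        hπ₂ u₂ (hU₂Y hu₂), zero_add, zero_add] at h0
      exact h0.symm
    have z1 : u₁ = 0 := by
      have h0 : u₁ ∈ U₁ ⊓ W₁ := ⟨hu₁, e1 ▸ hw₁⟩
      rw [hi₁] at h0
      exact (Submodule.mem_bot F).mp h0
    have z2 : u₂ = 0 := by
      have h0 : u₂ ∈ U₂ ⊓ W₂ := ⟨hu₂, e2 ▸ hw₂⟩
      rw [hi₂] at h0
      exact (Submodule.mem_bot F).mp h0
    rw [z1, z2, add_zero]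
  · rw [sup_sup_sup_comm, hs₁, hs₂]
  · intro g x hx
    obtain ⟨u₁, hu₁, u₂, hu₂, rfl⟩ := Submodule.mem_sup.mp hx
    rw [map_add]
    exact Submodule.add_mem_sup (hU₁ g u₁ hu₁) (hU₂ g u₂ hu₂)
  · intro g x hx
    obtain ⟨u₁, hu₁, u₂, hu₂, rfl⟩ := Submodule.mem_sup.mp hx
    rw [map_add]
    exact Submodule.add_mem_sup (hW₁ g u₁ hu₁) (hW₂ g u₂ hu₂)
  · intro x
    simp only [LinearMap.add_apply, LinearMap.BilinForm.comp_apply]
    rw [hA₁a, hA₂a, add_zero]
  · intro x y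
    simp only [LinearMap.add_apply, LinearMap.BilinForm.comp_apply]
    rw [hS₁s (π₁ x) (π₁ y), hS₂s (π₂ x) (π₂ y)]
  · intro hp2 g w hw
    obtain ⟨w₁, hw₁, w₂, hw₂, rfl⟩ := Submodule.mem_sup.mp hw
    rw [map_add, ht₁ hp2 g w₁ hw₁, ht₂ hp2 g w₂ hw₂]

/-- The restriction of a representation to an invariant subspace. -/
def restrictRep (ρ : Representation F G V) (X : Submodule F V)
    (hX : ∀ g : G, ∀ x ∈ X, ρ g x ∈ X) : Representation F G X where
  toFun g := (ρ g).restrict (hX g)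
  map_one' := by
    apply LinearMap.ext
    intro x
    apply Subtype.ext
    show ρ 1 (x : V) = (x : V)
    rw [map_one]
    rfl
  map_mul' g h := by
    apply LinearMap.ext
    intro x
    apply Subtype.ext
    show ρ (g * h) (x : V) = ρ g (ρ h (x : V))
    rw [map_mul]
    rfl

theorem good_of_subtype (p : ℕ) (ρ : Representation F G V) (X : Submodule F V)
    (hX : ∀ g : G, ∀ x ∈ X, ρ g x ∈ X) (hc : Concl p (restrictRep ρ X hX)) : Good p ρ X := by
  obtain ⟨U, W, hcompl, hU, hW, ⟨A, hAa, hAi, hAn⟩, ⟨S, hSs, hSi, hSn⟩, ht⟩ := hc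
  obtain ⟨π, hπ⟩ := LinearMap.exists_leftInverse_of_injective X.subtype (Submodule.ker_subtype X)
  have hπ' : ∀ x : X, π (x : V) = x := fun x => congrArg (fun φ : X →ₗ[F] X => φ x) hπ
  have hπg : ∀ (g : G) (x : X), π (ρ g (x : V)) = restrictRep ρ X hX g x :=
    fun g x => hπ' (restrictRep ρ X hX g x)
  refine ⟨U.map X.subtype, W.map X.subtype, ?_, ?_, ?_, ?_, ⟨A.comp π π, ?_, ?_, ?_⟩,
    ⟨S.comp π π, ?_, ?_, ?_⟩, ?_⟩
  · rw [← Submodule.map_inf X.subtype (Submodule.injective_subtype X), hcompl.inf_eq_bot,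
      Submodule.map_bot]
  · rw [← Submodule.map_sup, hcompl.sup_eq_top, Submodule.map_subtype_top]
  · intro g v hv
    obtain ⟨u, hu, rfl⟩ := Submodule.mem_map.mp hv
    exact Submodule.mem_map.mpr ⟨restrictRep ρ X hX g u, hU g u hu, rfl⟩
  · intro g v hv
    obtain ⟨u, hu, rfl⟩ := Submodule.mem_map.mp hv
    exact Submodule.mem_map.mpr ⟨restrictRep ρ X hX g u, hW g u hu, rfl⟩
  · intro x
    rw [LinearMap.BilinForm.comp_apply]
    exact hAa _
  · intro g v hv v' hv'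
    obtain ⟨x, hx, rfl⟩ := Submodule.mem_map.mp hv
    obtain ⟨y, hy, rfl⟩ := Submodule.mem_map.mp hv'
    rw [LinearMap.BilinForm.comp_apply, LinearMap.BilinForm.comp_apply]
    have e1 : π (ρ g (X.subtype x)) = restrictRep ρ X hX g x := hπg g x
    have e2 : π (ρ g (X.subtype y)) = restrictRep ρ X hX g y := hπg g y
    have e3 : π (X.subtype x) = x := hπ' x
    have e4 : π (X.subtype y) = y := hπ' y
    rw [e1, e2, e3, e4]
    exact hAi g x hx y hy
  · intro v hv hzero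
    obtain ⟨x, hx, rfl⟩ := Submodule.mem_map.mp hv
    have hx0 : x = 0 := by
      apply hAn x hx
      intro y hy
      have h1 := hzero (X.subtype y) (Submodule.mem_map.mpr ⟨y, hy, rfl⟩)
      rw [LinearMap.BilinForm.comp_apply] at h1
      have e3 : π (X.subtype x) = x := hπ' x
      have e4 : π (X.subtype y) = y := hπ' y
      rw [e3, e4] at h1
      exact h1
    rw [hx0, map_zero]
  · intro x y
    rw [LinearMap.BilinForm.comp_apply, LinearMap.BilinForm.comp_apply]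
    exact hSs _ _
  · intro g v hv v' hv'
    obtain ⟨x, hx, rfl⟩ := Submodule.mem_map.mp hv
    obtain ⟨y, hy, rfl⟩ := Submodule.mem_map.mp hv'
    rw [LinearMap.BilinForm.comp_apply, LinearMap.BilinForm.comp_apply]
    have e1 : π (ρ g (X.subtype x)) = restrictRep ρ X hX g x := hπg g x
    have e2 : π (ρ g (X.subtype y)) = restrictRep ρ X hX g y := hπg g y
    have e3 : π (X.subtype x) = x := hπ' x
    have e4 : π (X.subtype y) = y := hπ' y
    rw [e1, e2, e3, e4]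
    exact hSi g x hx y hy
  · intro v hv hzero
    obtain ⟨x, hx, rfl⟩ := Submodule.mem_map.mp hv
    have hx0 : x = 0 := by
      apply hSn x hx
      intro y hy
      have h1 := hzero (X.subtype y) (Submodule.mem_map.mpr ⟨y, hy, rfl⟩)
      rw [LinearMap.BilinForm.comp_apply] at h1
      have e3 : π (X.subtype x) = x := hπ' x
      have e4 : π (X.subtype y) = y := hπ' y
      rw [e3, e4] at h1
      exact h1
    rw [hx0, map_zero]
  · intro hp2 g v hv
    obtain ⟨w, hw, rfl⟩ := Submodule.mem_map.mp hv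
    have h1 := ht hp2 g w hw
    exact congrArg (fun z : X => (z : V)) h1

end Basic

section Forms

variable {F : Type u} [Field F] {G : Type w} [Group G] {V : Type v} [AddCommGroup V]
  [Module F V] [FiniteDimensional F V]

theorem exists_T (B : LinearMap.BilinForm F V) (hB : B.Nondegenerate) :
    ∃ T : V ≃ₗ[F] V, ∀ x y, B (T y) x = B x y := by
  refine ⟨(B.flip.toDual hB.flip).trans (B.toDual hB).symm, fun x y => ?_⟩
  have h1 : B.toDual hB ((B.toDual hB).symm (B.flip.toDual hB.flip y)) x =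
      B.flip.toDual hB.flip y x := by
    rw [LinearEquiv.apply_symm_apply]
  exact h1

theorem orth_dim (B : LinearMap.BilinForm F V) (hB : B.Nondegenerate) (N : Submodule F V) :
    Module.finrank F (B.orthogonal N) + Module.finrank F N = Module.finrank F V := by
  let f : V →ₗ[F] Module.Dual F N := N.dualRestrict.comp (B.flip.toDual hB.flip).toLinearMap
  have hsurj : Function.Surjective f := by
    intro φ
    obtain ⟨ψ, hψ⟩ := Subspace.dualRestrict_surjective (W := N) φ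
    obtain ⟨y, hy⟩ := (B.flip.toDual hB.flip).surjective ψ
    refine ⟨y, ?_⟩
    show N.dualRestrict (B.flip.toDual hB.flip y) = φ
    rw [hy, hψ]
  have hker : LinearMap.ker f = B.orthogonal N := by
    ext y
    rw [LinearMap.mem_ker, LinearMap.BilinForm.mem_orthogonal_iff]
    constructor
    · intro h n hn
      exact congrArg (fun φ : Module.Dual F N => φ ⟨n, hn⟩) h
    · intro h
      apply LinearMap.ext
      intro n
      exact h n n.2
  have h1 := LinearMap.finrank_range_add_finrank_ker f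
  rw [LinearMap.range_eq_top.mpr hsurj, finrank_top, Subspace.dual_finrank_eq, hker] at h1
  omega

/-- Subspaces stable under the group and the asymmetry. -/
def Stable (ρ : Representation F G V) (T : V ≃ₗ[F] V) (M : Submodule F V) : Prop :=
  (∀ g : G, ∀ m ∈ M, ρ g m ∈ M) ∧ (∀ m ∈ M, T m ∈ M) ∧ (∀ m ∈ M, T.symm m ∈ M)

theorem T_isom (B : LinearMap.BilinForm F V) (T : V ≃ₗ[F] V)
    (hT1 : ∀ x y, B (T y) x = B x y) (x y : V) : B (T x) (T y) = B x y := by
  rw [hT1 (T y) x, hT1 x y]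

theorem T_isom' (B : LinearMap.BilinForm F V) (T : V ≃ₗ[F] V)
    (hT1 : ∀ x y, B (T y) x = B x y) (x y : V) : B (T.symm x) (T.symm y) = B x y := by
  have h := T_isom B T hT1 (T.symm x) (T.symm y)
  rw [LinearEquiv.apply_symm_apply, LinearEquiv.apply_symm_apply] at h
  exact h.symm

theorem orth_left (B : LinearMap.BilinForm F V) (T : V ≃ₗ[F] V)
    (hT1 : ∀ x y, B (T y) x = B x y) {M : Submodule F V} (hTM : ∀ m ∈ M, T m ∈ M)
    {y : V} (hy : y ∈ B.orthogonal M) {m : V} (hm : m ∈ M) : B y m = 0 := by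
  rw [← hT1 y m]
  exact LinearMap.BilinForm.mem_orthogonal_iff.mp hy (T m) (hTM m hm)

theorem orth_inv (ρ : Representation F G V) (B : LinearMap.BilinForm F V)
    (hinv : ∀ g : G, ∀ x y : V, B (ρ g x) (ρ g y) = B x y) {M : Submodule F V}
    (hGM : ∀ g : G, ∀ m ∈ M, ρ g m ∈ M) :
    ∀ g : G, ∀ y ∈ B.orthogonal M, ρ g y ∈ B.orthogonal M := by
  intro g y hy
  rw [LinearMap.BilinForm.mem_orthogonal_iff] at hy ⊢
  intro m hm
  calc B m (ρ g y) = B (ρ g (ρ g⁻¹ m)) (ρ g y) := by rw [rep_cancel]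
    _ = B (ρ g⁻¹ m) y := hinv g _ _
    _ = 0 := hy _ (hGM g⁻¹ m hm)

theorem orth_T (B : LinearMap.BilinForm F V) (T : V ≃ₗ[F] V)
    (hT1 : ∀ x y, B (T y) x = B x y) {M : Submodule F V} (hTM' : ∀ m ∈ M, T.symm m ∈ M) :
    ∀ y ∈ B.orthogonal M, T y ∈ B.orthogonal M := by
  intro y hy
  rw [LinearMap.BilinForm.mem_orthogonal_iff] at hy ⊢
  intro m hm
  have h := T_isom B T hT1 (T.symm m) y
  rw [LinearEquiv.apply_symm_apply] at h
  rw [h]
  exact hy _ (hTM' m hm)

theorem orth_T' (B : LinearMap.BilinForm F V) (T : V ≃ₗ[F] V)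
    (hT1 : ∀ x y, B (T y) x = B x y) {M : Submodule F V} (hTM : ∀ m ∈ M, T m ∈ M) :
    ∀ y ∈ B.orthogonal M, T.symm y ∈ B.orthogonal M := by
  intro y hy
  rw [LinearMap.BilinForm.mem_orthogonal_iff] at hy ⊢
  intro m hm
  have h := T_isom' B T hT1 (T m) y
  rw [LinearEquiv.symm_apply_apply] at h
  rw [h]
  exact hy _ (hTM m hm)

theorem exists_min_stable (ρ : Representation F G V) (T : V ≃ₗ[F] V)
    (h : (⊤ : Submodule F V) ≠ ⊥) :
    ∃ M : Submodule F V, M ≠ ⊥ ∧ Stable ρ T M ∧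
      ∀ K : Submodule F V, K ≤ M → Stable ρ T K → K = ⊥ ∨ K = M := by
  have hne : {M : Submodule F V | M ≠ ⊥ ∧ Stable ρ T M}.Nonempty :=
    ⟨⊤, h, fun g m _ => Submodule.mem_top, fun m _ => Submodule.mem_top,
      fun m _ => Submodule.mem_top⟩
  obtain ⟨M, ⟨hM0, hMst⟩, hmin⟩ :=
    WellFounded.has_min (wellFounded_lt (α := Submodule F V)) _ hne
  refine ⟨M, hM0, hMst, fun K hK hKst => ?_⟩
  by_cases hK0 : K = ⊥
  · exact Or.inl hK0
  · right
    by_contra hne'
    exact hmin K ⟨hK0, hKst⟩ (lt_of_le_of_ne hK hne')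

/-- The radical of the symmetrisation of `B` on `M`. -/
def symRad (B : LinearMap.BilinForm F V) (M : Submodule F V) : Submodule F V where
  carrier := {m | m ∈ M ∧ ∀ m' ∈ M, B m m' + B m' m = 0}
  add_mem' := by
    rintro a b ⟨ha, ha'⟩ ⟨hb, hb'⟩
    refine ⟨M.add_mem ha hb, fun m' hm' => ?_⟩
    simp only [map_add, LinearMap.add_apply]
    linear_combination ha' m' hm' + hb' m' hm'
  zero_mem' := ⟨M.zero_mem, fun m' _ => by simp⟩
  smul_mem' := by
    rintro c a ⟨ha, ha'⟩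
    refine ⟨M.smul_mem c ha, fun m' hm' => ?_⟩
    simp only [map_smul, LinearMap.smul_apply, smul_eq_mul]
    linear_combination c * ha' m' hm'

theorem mem_symRad {B : LinearMap.BilinForm F V} {M : Submodule F V} {m : V} :
    m ∈ symRad B M ↔ m ∈ M ∧ ∀ m' ∈ M, B m m' + B m' m = 0 := Iff.rfl

/-- The isotropic vectors of `M`, when `B` is skew on `M`. -/
def isoSub (B : LinearMap.BilinForm F V) (M : Submodule F V)
    (hsym : ∀ a ∈ M, ∀ b ∈ M, B a b + B b a = 0) : Submodule F V where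
  carrier := {m | m ∈ M ∧ B m m = 0}
  add_mem' := by
    rintro a b ⟨ha, ha'⟩ ⟨hb, hb'⟩
    refine ⟨M.add_mem ha hb, ?_⟩
    simp only [map_add, LinearMap.add_apply]
    linear_combination ha' + hb' + hsym a ha b hb
  zero_mem' := ⟨M.zero_mem, by simp⟩
  smul_mem' := by
    rintro c a ⟨ha, ha'⟩
    refine ⟨M.smul_mem c ha, ?_⟩
    simp only [map_smul, LinearMap.smul_apply, smul_eq_mul]
    linear_combination c * c * ha'

theorem mem_isoSub {B : LinearMap.BilinForm F V} {M : Submodule F V}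
    {hsym : ∀ a ∈ M, ∀ b ∈ M, B a b + B b a = 0} {m : V} :
    m ∈ isoSub B M hsym ↔ m ∈ M ∧ B m m = 0 := Iff.rfl

theorem good_piece (p : ℕ) [CharP F p] (ρ : Representation F G V)
    (B : LinearMap.BilinForm F V)
    (hinv : ∀ g : G, ∀ x y : V, B (ρ g x) (ρ g y) = B x y)
    (T : V ≃ₗ[F] V) (hT1 : ∀ x y, B (T y) x = B x y)
    (M : Submodule F V) (hMst : Stable ρ T M)
    (hmin : ∀ K : Submodule F V, K ≤ M → Stable ρ T K → K = ⊥ ∨ K = M)
    (hMn : ∀ m ∈ M, (∀ m' ∈ M, B m m' = 0) → m = 0) : Good p ρ M := by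
  obtain ⟨hGM, hTM, hTM'⟩ := hMst
  have hKs_st : Stable ρ T (symRad B M) := by
    refine ⟨?_, ?_, ?_⟩
    · intro g m hm0
      obtain ⟨hm, hm'⟩ := mem_symRad.mp hm0
      refine mem_symRad.mpr ⟨hGM g m hm, fun m' hm'' => ?_⟩
      have h1 := hm' (ρ g⁻¹ m') (hGM g⁻¹ m' hm'')
      have e1 : B (ρ g m) m' = B m (ρ g⁻¹ m') := by
        calc B (ρ g m) m' = B (ρ g m) (ρ g (ρ g⁻¹ m')) := by rw [rep_cancel]
          _ = B m (ρ g⁻¹ m') := hinv g _ _
      have e2 : B m' (ρ g m) = B (ρ g⁻¹ m') m := by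
        calc B m' (ρ g m) = B (ρ g (ρ g⁻¹ m')) (ρ g m) := by rw [rep_cancel]
          _ = B (ρ g⁻¹ m') m := hinv g _ _
      rw [e1, e2]
      exact h1
    · intro m hm0
      obtain ⟨hm, hm'⟩ := mem_symRad.mp hm0
      refine mem_symRad.mpr ⟨hTM m hm, fun m' hm'' => ?_⟩
      have h1 := hm' (T.symm m') (hTM' m' hm'')
      have e1 : B (T m) m' = B m (T.symm m') := by
        have h := T_isom B T hT1 m (T.symm m')
        rw [LinearEquiv.apply_symm_apply] at h
        exact h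
      have e2 : B m' (T m) = B (T.symm m') m := by
        have h := T_isom B T hT1 (T.symm m') m
        rw [LinearEquiv.apply_symm_apply] at h
        exact h
      rw [e1, e2]
      exact h1
    · intro m hm0
      obtain ⟨hm, hm'⟩ := mem_symRad.mp hm0
      refine mem_symRad.mpr ⟨hTM' m hm, fun m' hm'' => ?_⟩
      have h1 := hm' (T m') (hTM m' hm'')
      have e1 : B (T.symm m) m' = B m (T m') := by
        have h := T_isom B T hT1 (T.symm m) m'
        rw [LinearEquiv.apply_symm_apply] at h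
        exact h.symm
      have e2 : B m' (T.symm m) = B (T m') m := by
        have h := T_isom B T hT1 m' (T.symm m)
        rw [LinearEquiv.apply_symm_apply] at h
        exact h.symm
      rw [e1, e2]
      exact h1
  rcases hmin (symRad B M) (fun m hm => (mem_symRad.mp hm).1) hKs_st with hK | hK
  · have hnd : ∀ m ∈ M, (∀ m' ∈ M, (B + B.flip) m m' = 0) → m = 0 := by
      intro m hm h0
      have h1 : m ∈ symRad B M := mem_symRad.mpr ⟨hm, fun m' hm' => h0 m' hm'⟩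
      rw [hK] at h1
      exact (Submodule.mem_bot F).mp h1
    have hinvS : ∀ g : G, ∀ x ∈ M, ∀ y ∈ M,
        (B + B.flip) (ρ g x) (ρ g y) = (B + B.flip) x y := by
      intro g x _ y _
      show B (ρ g x) (ρ g y) + B (ρ g y) (ρ g x) = B x y + B y x
      rw [hinv, hinv]
    by_cases hp2 : p = 2
    · subst hp2
      refine good_U 2 ρ M hGM (B + B.flip) (fun x => ?_) hinvS hnd
      show B x x + B x x = 0
      exact CharTwo.add_self_eq_zero _
    · exact good_W p ρ M hGM (B + B.flip)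
        (fun x y => by
          show B x y + B y x = B y x + B x y
          exact add_comm _ _) hinvS hnd (fun h => absurd h hp2)
  · have hskew : ∀ a ∈ M, ∀ b ∈ M, B a b + B b a = 0 := by
      intro a ha b hb
      have h1 : a ∈ symRad B M := by rw [hK]; exact ha
      exact (mem_symRad.mp h1).2 b hb
    by_cases hp2 : p = 2
    · subst hp2
      have hI_st : Stable ρ T (isoSub B M hskew) := by
        refine ⟨?_, ?_, ?_⟩
        · intro g m hm0
          obtain ⟨hm, hm'⟩ := mem_isoSub.mp hm0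
          exact mem_isoSub.mpr ⟨hGM g m hm, by rw [hinv]; exact hm'⟩
        · intro m hm0
          obtain ⟨hm, hm'⟩ := mem_isoSub.mp hm0
          exact mem_isoSub.mpr ⟨hTM m hm, by rw [T_isom B T hT1]; exact hm'⟩
        · intro m hm0
          obtain ⟨hm, hm'⟩ := mem_isoSub.mp hm0
          exact mem_isoSub.mpr ⟨hTM' m hm, by rw [T_isom' B T hT1]; exact hm'⟩
      obtain ⟨π, hπ, -, hπM⟩ := exists_proj M ⊥ (inf_bot_eq M)
      have hcompinv : ∀ g : G, ∀ x ∈ M, ∀ y ∈ M,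
          (B.comp π π) (ρ g x) (ρ g y) = (B.comp π π) x y := by
        intro g x hx y hy
        rw [LinearMap.BilinForm.comp_apply, LinearMap.BilinForm.comp_apply,
          hπ _ (hGM g x hx), hπ _ (hGM g y hy), hπ x hx, hπ y hy, hinv]
      have hcompnd : ∀ x ∈ M, (∀ y ∈ M, (B.comp π π) x y = 0) → x = 0 := by
        intro x hx h0
        apply hMn x hx
        intro y hy
        have h1 := h0 y hy
        rw [LinearMap.BilinForm.comp_apply, hπ x hx, hπ y hy] at h1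
        exact h1
      rcases hmin (isoSub B M hskew) (fun m hm => (mem_isoSub.mp hm).1) hI_st with hI | hI
      · have htriv : ∀ g : G, ∀ m ∈ M, ρ g m = m := by
          intro g m hm
          have hd : ρ g m - m ∈ isoSub B M hskew := by
            refine mem_isoSub.mpr ⟨M.sub_mem (hGM g m hm) hm, ?_⟩
            have h1 := hskew (ρ g m) (hGM g m hm) m hm
            have h2 : B (ρ g m) (ρ g m) = B m m := hinv g m m
            have h3 : B m m + B m m = 0 := CharTwo.add_self_eq_zero _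
            simp only [map_sub, LinearMap.sub_apply]
            linear_combination h2 - h1 + h3
          rw [hI] at hd
          exact sub_eq_zero.mp ((Submodule.mem_bot F).mp hd)
        refine good_W 2 ρ M hGM (B.comp π π) (fun x y => ?_) hcompinv hcompnd (fun _ => htriv)
        rw [LinearMap.BilinForm.comp_apply, LinearMap.BilinForm.comp_apply]
        exact CharTwo.add_eq_zero.mp (hskew (π x) (hπM x) (π y) (hπM y))
      · refine good_U 2 ρ M hGM (B.comp π π) (fun x => ?_) hcompinv hcompnd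
        rw [LinearMap.BilinForm.comp_apply]
        have h1 : π x ∈ isoSub B M hskew := by rw [hI]; exact hπM x
        exact (mem_isoSub.mp h1).2
    · have h2ne : (2 : F) ≠ 0 := by
        apply Ring.two_ne_zero
        rw [ringChar.eq F p]
        exact hp2
      refine good_U p ρ M hGM (B - B.flip) (fun x => ?_) ?_ ?_
      · show B x x - B x x = 0
        exact sub_self _
      · intro g x _ y _
        show B (ρ g x) (ρ g y) - B (ρ g y) (ρ g x) = B x y - B y x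
        rw [hinv, hinv]
      · intro m hm h0
        apply hMn m hm
        intro m' hm'
        have h1 : B m m' - B m' m = 0 := h0 m' hm'
        have h2 := hskew m hm m' hm'
        have h3 : (2 : F) * B m m' = 0 := by linear_combination h1 + h2
        exact (mul_eq_zero.mp h3).resolve_left h2ne

end Forms

section Induction

variable {F : Type u} [Field F] {G : Type w} [Group G] [Finite G]

theorem main_ind (p : ℕ) [CharP F p] (hcop : ¬ p ∣ Nat.card G) :
    ∀ (n : ℕ) (V : Type v) [AddCommGroup V] [Module F V] [FiniteDimensional F V]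
      (ρ : Representation F G V) (B : LinearMap.BilinForm F V), B.Nondegenerate →
      (∀ g : G, ∀ x y : V, B (ρ g x) (ρ g y) = B x y) → Module.finrank F V = n →
      Concl p ρ := by
  intro n
  induction n using Nat.strong_induction_on with
  | _ n ih =>
    intro V _ _ _ ρ B hB hinv hn
    apply concl_of_good_top
    by_cases htop : (⊤ : Submodule F V) = ⊥
    · rw [htop]
      exact good_bot p ρ
    obtain ⟨T, hT1⟩ := exists_T B hB
    obtain ⟨M, hM0, hMst, hmin⟩ := exists_min_stable ρ T htop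
    have hMst' := hMst
    obtain ⟨hGM, hTM, hTM'⟩ := hMst'
    have hXinv : ∀ g : G, ∀ y ∈ (B.orthogonal M), ρ g y ∈ (B.orthogonal M) := orth_inv ρ B hinv hGM
    have hXl : ∀ y ∈ (B.orthogonal M), ∀ m ∈ M, B y m = 0 :=
      fun y hy m hm => orth_left B T hT1 hTM hy hm
    have hXr : ∀ y ∈ (B.orthogonal M), ∀ m ∈ M, B m y = 0 :=
      fun y hy m hm => LinearMap.BilinForm.mem_orthogonal_iff.mp hy m hm
    have hdim := orth_dim B hB M
    haveI : Nontrivial M := Submodule.nontrivial_iff_ne_bot.mpr hM0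
    have hMpos : 0 < Module.finrank F M := Module.finrank_pos
    by_cases hiso : ∀ m ∈ M, ∀ m' ∈ M, B m m' = 0
    · -- the hyperbolic case
      have hMleX : M ≤ (B.orthogonal M) := fun m hm =>
        LinearMap.BilinForm.mem_orthogonal_iff.mpr (fun m' hm' => hiso m' hm' m hm)
      obtain ⟨M', hM'inv, hXM', hXM'sup⟩ := maschke p hcop ρ (B.orthogonal M) hXinv
      obtain ⟨C, hCinv, hMC, hMCsup⟩ := maschke p hcop ρ M hGM
      have hX2inv : ∀ g : G, ∀ y ∈ (C ⊓ B.orthogonal M), ρ g y ∈ (C ⊓ B.orthogonal M) := fun g y hy =>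
        Submodule.mem_inf.mpr ⟨hCinv g y (Submodule.mem_inf.mp hy).1,
          hXinv g y (Submodule.mem_inf.mp hy).2⟩
      have hMX2 : M ⊓ (C ⊓ B.orthogonal M) = ⊥ := by
        rw [eq_bot_iff, ← hMC]
        exact inf_le_inf_left M inf_le_left
      have hMX2sup : M ⊔ (C ⊓ B.orthogonal M) = (B.orthogonal M) := by
        rw [← sup_inf_assoc_of_le C hMleX, hMCsup, top_inf_eq]
      have hZ : B.orthogonal (B.orthogonal M) = M := by
        symm
        apply Submodule.eq_of_le_of_finrank_eq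
        · intro m hm
          exact LinearMap.BilinForm.mem_orthogonal_iff.mpr (fun y hy => hXl y hy m hm)
        · have h2 := orth_dim B hB (B.orthogonal M)
          omega
      have hX2nd : (B.restrict (C ⊓ B.orthogonal M)).Nondegenerate := by
        constructor
        · intro x hx
          apply Subtype.ext
          show (x : V) = 0
          have hxX : (x : V) ∈ (B.orthogonal M) := (Submodule.mem_inf.mp x.2).2
          have h1 : (x : V) ∈ B.orthogonal (B.orthogonal M) := by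
            rw [LinearMap.BilinForm.mem_orthogonal_iff]
            intro z hz
            have hz' : T.symm z ∈ (B.orthogonal M) := orth_T' B T hT1 hTM z hz
            have e : B z (x : V) = B (x : V) (T.symm z) := by
              have h := hT1 (x : V) (T.symm z)
              rw [LinearEquiv.apply_symm_apply] at h
              exact h
            rw [e]
            have hz'' : T.symm z ∈ M ⊔ (C ⊓ B.orthogonal M) := by rw [hMX2sup]; exact hz'
            obtain ⟨m, hm, y, hy, hmy⟩ := Submodule.mem_sup.mp hz''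
            rw [← hmy, map_add, hXl (x : V) hxX m hm, zero_add]
            exact hx ⟨y, hy⟩
          rw [hZ] at h1
          have h2 : (x : V) ∈ M ⊓ (C ⊓ B.orthogonal M) := ⟨h1, x.2⟩
          rw [hMX2] at h2
          exact (Submodule.mem_bot F).mp h2
        · intro y hy
          apply Subtype.ext
          show (y : V) = 0
          have hyX : (y : V) ∈ (B.orthogonal M) := (Submodule.mem_inf.mp y.2).2
          have h1 : (y : V) ∈ B.orthogonal (B.orthogonal M) := by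
            rw [LinearMap.BilinForm.mem_orthogonal_iff]
            intro z hz
            have hz'' : z ∈ M ⊔ (C ⊓ B.orthogonal M) := by rw [hMX2sup]; exact hz
            obtain ⟨m, hm, x, hx, rfl⟩ := Submodule.mem_sup.mp hz''
            rw [map_add, LinearMap.add_apply, hXr (y : V) hyX m hm, zero_add]
            exact hy ⟨x, hx⟩
          rw [hZ] at h1
          have h2 : (y : V) ∈ M ⊓ (C ⊓ B.orthogonal M) := ⟨h1, y.2⟩
          rw [hMX2] at h2
          exact (Submodule.mem_bot F).mp h2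
      have hX2lt : Module.finrank F ↥(C ⊓ B.orthogonal M) < n := by
        have h5 := Submodule.finrank_sup_add_finrank_inf_eq M (C ⊓ B.orthogonal M)
        rw [hMX2sup, hMX2, finrank_bot] at h5
        omega
      have hcX2 : Concl p (restrictRep ρ (C ⊓ B.orthogonal M) hX2inv) :=
        ih (Module.finrank F ↥(C ⊓ B.orthogonal M)) hX2lt (↥(C ⊓ B.orthogonal M)) (restrictRep ρ (C ⊓ B.orthogonal M) hX2inv) (B.restrict (C ⊓ B.orthogonal M)) hX2nd
          (fun g x y => hinv g x y) rfl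
      have hgX2 := good_of_subtype p ρ (C ⊓ B.orthogonal M) hX2inv hcX2
      have hMM' : M ⊓ M' = ⊥ := by
        rw [eq_bot_iff, ← hXM']
        exact inf_le_inf_right M' hMleX
      obtain ⟨π, hπ, hπ', -⟩ := exists_proj M M' hMM'
      obtain ⟨π', hπ'1, hπ'0, -⟩ := exists_proj M' M (by rw [inf_comm]; exact hMM')
      have hval : ∀ m ∈ M, ∀ m' ∈ M', ∀ n ∈ M, ∀ n' ∈ M',
          (B.comp π π' - (B.comp π π').flip) (m + m') (n + n') = B m n' - B n m' := by
        intro m hm m' hm' n hn n' hn'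
        show B (π (m + m')) (π' (n + n')) - B (π (n + n')) (π' (m + m')) = B m n' - B n m'
        rw [map_add π, map_add π', map_add π, map_add π', hπ m hm, hπ' m' hm', hπ'0 n hn,
          hπ'1 n' hn', hπ n hn, hπ' n' hn', hπ'0 m hm, hπ'1 m' hm', add_zero, zero_add,
          add_zero, zero_add]
      have hgN : Good p ρ (M ⊔ M') := by
        refine good_U p ρ (M ⊔ M') ?_ (B.comp π π' - (B.comp π π').flip) (fun x => ?_) ?_ ?_
        · intro g x hx
          obtain ⟨m, hm, m', hm', rfl⟩ := Submodule.mem_sup.mp hx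
          rw [map_add]
          exact Submodule.add_mem_sup (hGM g m hm) (hM'inv g m' hm')
        · show B (π x) (π' x) - B (π x) (π' x) = 0
          exact sub_self _
        · intro g x hx y hy
          obtain ⟨m, hm, m', hm', rfl⟩ := Submodule.mem_sup.mp hx
          obtain ⟨n, hn, n', hn', rfl⟩ := Submodule.mem_sup.mp hy
          rw [map_add (ρ g) m m', map_add (ρ g) n n',
            hval _ (hGM g m hm) _ (hM'inv g m' hm') _ (hGM g n hn) _ (hM'inv g n' hn'),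
            hval m hm m' hm' n hn n' hn', hinv, hinv]
        · intro x hx h0
          obtain ⟨m, hm, m', hm', rfl⟩ := Submodule.mem_sup.mp hx
          have e1 : m = 0 := by
            apply hB.1
            intro v
            have hv : v ∈ (B.orthogonal M) ⊔ M' := by rw [hXM'sup]; exact Submodule.mem_top
            obtain ⟨y, hy, n', hn', rfl⟩ := Submodule.mem_sup.mp hv
            rw [map_add, hXr y hy m hm, zero_add]
            have h1 := h0 (0 + n') (by rw [zero_add]; exact Submodule.mem_sup_right hn')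
            rw [hval m hm m' hm' 0 M.zero_mem n' hn'] at h1
            simp only [map_zero, LinearMap.zero_apply, sub_zero] at h1
            exact h1
          have e2 : m' = 0 := by
            have h2 : m' ∈ (B.orthogonal M) := by
              rw [LinearMap.BilinForm.mem_orthogonal_iff]
              intro n hn
              have h1 := h0 (n + 0) (by rw [add_zero]; exact Submodule.mem_sup_left hn)
              rw [hval m hm m' hm' n hn 0 M'.zero_mem] at h1
              simp only [map_zero, zero_sub, neg_eq_zero] at h1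
              exact h1
            have h3 : m' ∈ (B.orthogonal M) ⊓ M' := ⟨h2, hm'⟩
            rw [hXM'] at h3
            exact (Submodule.mem_bot F).mp h3
          rw [e1, e2, add_zero]
      have hNX2 : (M ⊔ M') ⊓ (C ⊓ B.orthogonal M) = ⊥ := by
        rw [Submodule.eq_bot_iff]
        rintro v ⟨hvN, hvX2⟩
        obtain ⟨m, hm, m', hm', rfl⟩ := Submodule.mem_sup.mp hvN
        have hvX : m + m' ∈ (B.orthogonal M) := (Submodule.mem_inf.mp hvX2).2
        have hm'X : m' ∈ (B.orthogonal M) := by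
          have h5 := ((B.orthogonal M)).sub_mem hvX (hMleX hm)
          have e5 : m + m' - m = m' := by abel
          rwa [e5] at h5
        have h3 : m' ∈ (B.orthogonal M) ⊓ M' := ⟨hm'X, hm'⟩
        rw [hXM'] at h3
        have hm'0 : m' = 0 := (Submodule.mem_bot F).mp h3
        rw [hm'0, add_zero] at hvX2 ⊢
        have h4 : m ∈ M ⊓ (C ⊓ B.orthogonal M) := ⟨hm, hvX2⟩
        rw [hMX2] at h4
        exact (Submodule.mem_bot F).mp h4
      have hsupN : (M ⊔ M') ⊔ (C ⊓ B.orthogonal M) = ⊤ := by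
        rw [sup_right_comm, hMX2sup, hXM'sup]
      have hfin := combine p ρ hgN hgX2 hNX2
      rw [hsupN] at hfin
      exact hfin
    · -- the nondegenerate case
      push Not at hiso
      obtain ⟨m₀, hm₀, m₀', hm₀', hne⟩ := hiso
      have hMX : M ⊓ (B.orthogonal M) = ⊥ := by
        have hst : Stable ρ T (M ⊓ (B.orthogonal M)) :=
          ⟨fun g m hm => Submodule.mem_inf.mpr ⟨hGM g m (Submodule.mem_inf.mp hm).1,
              hXinv g m (Submodule.mem_inf.mp hm).2⟩,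
            fun m hm => Submodule.mem_inf.mpr ⟨hTM m (Submodule.mem_inf.mp hm).1,
              orth_T B T hT1 hTM' m (Submodule.mem_inf.mp hm).2⟩,
            fun m hm => Submodule.mem_inf.mpr ⟨hTM' m (Submodule.mem_inf.mp hm).1,
              orth_T' B T hT1 hTM m (Submodule.mem_inf.mp hm).2⟩⟩
        rcases hmin (M ⊓ (B.orthogonal M)) inf_le_left hst with h | h
        · exact h
        · exfalso
          have h1 : m₀' ∈ M ⊓ (B.orthogonal M) := by rw [h]; exact hm₀'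
          exact hne (hXr m₀' (Submodule.mem_inf.mp h1).2 m₀ hm₀)
      have hsup : M ⊔ (B.orthogonal M) = ⊤ := by
        apply Submodule.eq_top_of_finrank_eq
        have h1 := Submodule.finrank_sup_add_finrank_inf_eq M (B.orthogonal M)
        rw [hMX, finrank_bot] at h1
        omega
      have hXnd : (B.restrict (B.orthogonal M)).Nondegenerate := by
        constructor
        · intro x hx
          apply Subtype.ext
          show (x : V) = 0
          apply hB.1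
          intro v
          have hv : v ∈ M ⊔ (B.orthogonal M) := by rw [hsup]; exact Submodule.mem_top
          obtain ⟨m, hm, y, hy, rfl⟩ := Submodule.mem_sup.mp hv
          rw [map_add, hXl (x : V) x.2 m hm, zero_add]
          exact hx ⟨y, hy⟩
        · intro y hy
          apply Subtype.ext
          show (y : V) = 0
          apply hB.2
          intro v
          have hv : v ∈ M ⊔ (B.orthogonal M) := by rw [hsup]; exact Submodule.mem_top
          obtain ⟨m, hm, x, hx, rfl⟩ := Submodule.mem_sup.mp hv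
          rw [map_add, LinearMap.add_apply, hXr (y : V) y.2 m hm, zero_add]
          exact hy ⟨x, hx⟩
      have hMn : ∀ m ∈ M, (∀ m' ∈ M, B m m' = 0) → m = 0 := by
        intro m hm h0
        apply hB.1
        intro v
        have hv : v ∈ M ⊔ (B.orthogonal M) := by rw [hsup]; exact Submodule.mem_top
        obtain ⟨m', hm', y, hy, rfl⟩ := Submodule.mem_sup.mp hv
        rw [map_add, h0 m' hm', hXr y hy m hm, add_zero]
      have hXlt : Module.finrank F (B.orthogonal M) < n := by omega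
      have hcX : Concl p (restrictRep ρ (B.orthogonal M) hXinv) :=
        ih (Module.finrank F (B.orthogonal M)) hXlt (↥(B.orthogonal M)) (restrictRep ρ (B.orthogonal M) hXinv) (B.restrict (B.orthogonal M)) hXnd
          (fun g x y => hinv g x y) rfl
      have hgX := good_of_subtype p ρ (B.orthogonal M) hXinv hcX
      have hgM := good_piece p ρ B hinv T hT1 M hMst hmin hMn
      have hfin := combine p ρ hgM hgX hMX
      rw [hsup] at hfin
      exact hfin

theorem main (p : ℕ) [CharP F p] (hcop : ¬ p ∣ Nat.card G)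
    {V : Type v} [AddCommGroup V] [Module F V] [FiniteDimensional F V]
    (ρ : Representation F G V) (B : LinearMap.BilinForm F V) (hB : B.Nondegenerate)
    (hinv : ∀ g : G, ∀ x y : V, B (ρ g x) (ρ g y) = B x y) : Concl p ρ :=
  main_ind p hcop _ V ρ B hB hinv rfl

end Induction

end Cfsg.Agent.Helper12.SD2
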