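import Mathlib
import Cfsg.Prelude.Def_LieClassical
import Cfsg.Prelude.Def_GeometricClasses
import Cfsg.Agent.Helper8.GUConj3
import Cfsg.Agent.Helper12.S5998p6

set_option autoImplicit false
open scoped Matrix MatrixGroups

namespace Cfsg.Agent.Helper12.U3D

theorem nine_dvd (p : ℕ) (hp9 : p % 9 = 8) : 9 ∣ p ^ 2 - 1 := by
  obtain ⟨t, rfl⟩ : ∃ t, p = 9 * t + 8 := ⟨p / 9, by omega⟩
  have h : (9 * t + 8) ^ 2 = 9 * (9 * t ^ 2 + 16 * t + 7) + 1 := by ring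
  exact ⟨9 * t ^ 2 + 16 * t + 7, Nat.sub_eq_of_eq_add h⟩

theorem exists_w {F : Type*} [Field F] [Fintype F] (h9 : 9 ∣ Fintype.card F - 1) :
    ∃ w : F, w ≠ 1 ∧ w ^ 3 = 1 := by
  classical
  have : Fact (Nat.Prime 3) := ⟨by norm_num⟩
  have h3 : 3 ∣ Nat.card Fˣ := by
    rw [Nat.card_eq_fintype_card, Fintype.card_units]
    exact (by norm_num : 3 ∣ 9).trans h9
  obtain ⟨u, hu⟩ := exists_prime_orderOf_dvd_card' 3 h3
  have hu3 : u ^ 3 = 1 := by rw [← hu]; exact pow_orderOf_eq_one u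
  refine ⟨(u : F), ?_, ?_⟩
  · intro h
    have h1 : u = 1 := Units.ext h
    rw [h1, orderOf_one] at hu
    norm_num at hu
  · rw [← Units.val_pow_eq_pow_val, hu3, Units.val_one]

theorem diag_mem_GU {F : Type*} [Field F] (p : ℕ) (D : GL (Fin 3) F) (d : Fin 3 → F)
    (hD : (D : Matrix (Fin 3) (Fin 3) F) = Matrix.diagonal d) (hd : ∀ i, d i ^ (p + 1) = 1) :
    D ∈ Cfsg.GU 3 F p := by
  rw [Cfsg.Agent.S0277.mem_GU]
  intro u v
  rw [hD]
  unfold Cfsg.hermForm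
  apply Finset.sum_congr rfl
  intro i _
  rw [Matrix.mulVec_diagonal, Matrix.mulVec_diagonal, mul_pow]
  have h := hd i
  calc d i * u i * (d i ^ p * v i ^ p) = d i ^ (p + 1) * (u i * v i ^ p) := by ring
    _ = u i * v i ^ p := by rw [h, one_mul]

variable {F : Type*} [Field F] [Fintype F] {p : ℕ} [Fact p.Prime] [CharP F p]

/-- (piece D of S5999) an element of `SU_3(p)` whose cube is scalar is `SU`-conjugate to a
`g`-conjugate of a diagonal matrix with entries having equal cubes, when `p ≡ 8 mod 9`. -/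
theorem ord3_conj (hF : Fintype.card F = p ^ 2) (hp9 : p % 9 = 8) (x : GL (Fin 3) F) (hx : x ∈ Cfsg.GU 3 F p ⊓ Cfsg.Geo.specialLinear (Fin 3) F) (hx3 : ∃ z : F, ((x ^ 3 : GL (Fin 3) F) : Matrix (Fin 3) (Fin 3) F) = z • (1 : Matrix (Fin 3) (Fin 3) F)) (g : GL (Fin 3) F) (hg : g ∈ Cfsg.GU 3 F p) : ∃ (h D : GL (Fin 3) F) (d : Fin 3 → F), h ∈ Cfsg.GU 3 F p ⊓ Cfsg.Geo.specialLinear (Fin 3) F ∧ (D : Matrix (Fin 3) (Fin 3) F) = Matrix.diagonal d ∧ d 0 ^ 3 = d 1 ^ 3 ∧ d 1 ^ 3 = d 2 ^ 3 ∧ h⁻¹ * x * h = g * D * g⁻¹ := by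
  classical
  obtain ⟨hxU, hxS⟩ := Subgroup.mem_inf.1 hx
  obtain ⟨z, hz⟩ := hx3
  have hdet : (x : Matrix (Fin 3) (Fin 3) F).det = 1 := by
    have h1 : Matrix.GeneralLinearGroup.det x = 1 := MonoidHom.mem_ker.1 hxS
    have h2 := congrArg (fun u : Fˣ => (u : F)) h1
    exact h2
  have h9 : 9 ∣ Fintype.card F - 1 := by rw [hF]; exact nine_dvd p hp9
  obtain ⟨m, hm⟩ : ∃ m, p + 1 = 9 * m := ⟨p / 9 + 1, by omega⟩
  have hX3 : (x : Matrix (Fin 3) (Fin 3) F) ^ 3 = z • 1 := by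
    rw [← hz, Units.val_pow_eq_pow_val]
  have hz3 : z ^ 3 = 1 := by
    have h1 := congrArg Matrix.det hX3
    rw [Matrix.det_pow, hdet, one_pow, Matrix.det_smul, Matrix.det_one, mul_one,
      Fintype.card_fin] at h1
    exact h1.symm
  -- diagonal form
  have hdiag : ∃ (k : GL (Fin 3) F) (d : Fin 3 → F),
      (x : Matrix (Fin 3) (Fin 3) F) * (k : Matrix (Fin 3) (Fin 3) F)
        = (k : Matrix (Fin 3) (Fin 3) F) * Matrix.diagonal d ∧
      d 0 ^ 3 = d 1 ^ 3 ∧ d 1 ^ 3 = d 2 ^ 3 := by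
    by_cases hsc : ∃ c : F, (x : Matrix (Fin 3) (Fin 3) F) = c • (1 : Matrix (Fin 3) (Fin 3) F)
    · obtain ⟨c, hc⟩ := hsc
      refine ⟨1, fun _ => c, ?_, rfl, rfl⟩
      rw [Units.val_one, Matrix.mul_one, Matrix.one_mul, hc]
      exact Matrix.smul_one_eq_diagonal c
    · replace hsc : ∀ c : F, (x : Matrix (Fin 3) (Fin 3) F) ≠ c • (1 : Matrix (Fin 3) (Fin 3) F) :=
        fun c hc => hsc ⟨c, hc⟩
      obtain ⟨w, hw1, hw3⟩ := exists_w h9
      obtain ⟨k, c, hk | hk | hk⟩ := Cfsg.Agent.Helper12.S5998p6.p6 h9 w hw1 hw3 x hdet z hz hsc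
      · refine ⟨k, ![c, c * w, c * w ^ 2], ?_, ?_, ?_⟩
        · rw [hk, ← Matrix.mul_smul]
          congr 1
          ext i j
          fin_cases i <;> fin_cases j <;> simp
        · show c ^ 3 = (c * w) ^ 3
          linear_combination (-(c ^ 3)) * hw3
        · show (c * w) ^ 3 = (c * w ^ 2) ^ 3
          linear_combination (-(c ^ 3 * w ^ 3)) * hw3
      · refine ⟨k, ![c, c, c * w], ?_, ?_, ?_⟩
        · rw [hk, ← Matrix.mul_smul]
          congr 1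
          ext i j
          fin_cases i <;> fin_cases j <;> simp
        · rfl
        · show c ^ 3 = (c * w) ^ 3
          linear_combination (-(c ^ 3)) * hw3
      · refine ⟨k, ![c, c, c * w ^ 2], ?_, ?_, ?_⟩
        · rw [hk, ← Matrix.mul_smul]
          congr 1
          ext i j
          fin_cases i <;> fin_cases j <;> simp
        · rfl
        · show c ^ 3 = (c * w ^ 2) ^ 3
          linear_combination (-(c ^ 3) * (w ^ 3 + 1)) * hw3
  obtain ⟨k, d, hk, h01, h12⟩ := hdiag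
  obtain ⟨D, hDdef⟩ : ∃ D : GL (Fin 3) F, D = k⁻¹ * x * k := ⟨_, rfl⟩
  have hD : (D : Matrix (Fin 3) (Fin 3) F) = Matrix.diagonal d := by
    rw [hDdef, Units.val_mul, Units.val_mul, Matrix.mul_assoc, hk, ← Matrix.mul_assoc,
      ← Units.val_mul, inv_mul_cancel, Units.val_one, Matrix.one_mul]
  have hD3 : ((D ^ 3 : GL (Fin 3) F) : Matrix (Fin 3) (Fin 3) F) = z • 1 := by
    have e1 : D ^ 3 = k⁻¹ * x ^ 3 * k := by
      rw [hDdef, pow_three, pow_three]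
      group
    rw [e1, Units.val_mul, Units.val_mul, hz, Matrix.mul_smul, Matrix.mul_one, Matrix.smul_mul,
      ← Units.val_mul, inv_mul_cancel, Units.val_one]
  have hd3 : ∀ i, d i ^ 3 = z := by
    have h1 : (Matrix.diagonal d) ^ 3 = z • (1 : Matrix (Fin 3) (Fin 3) F) := by
      rw [← hD, ← Units.val_pow_eq_pow_val, hD3]
    rw [Matrix.diagonal_pow] at h1
    intro i
    have h2 := congrFun (congrFun h1 i) i
    simpa using h2
  have hdp : ∀ i, d i ^ (p + 1) = 1 := by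
    intro i
    rw [hm, pow_mul]
    have h9' : d i ^ 9 = 1 := by
      calc d i ^ 9 = (d i ^ 3) ^ 3 := by ring
        _ = 1 := by rw [hd3 i, hz3]
    rw [h9', one_pow]
  have hDU : D ∈ Cfsg.GU 3 F p := diag_mem_GU p D d hD hdp
  have hgD : g * D * g⁻¹ ∈ Cfsg.GU 3 F p :=
    Subgroup.mul_mem _ (Subgroup.mul_mem _ hg hDU) (Subgroup.inv_mem _ hg)
  obtain ⟨U, hU, hUx⟩ := Cfsg.Agent.Helper8.GUC.conj_gu hF x (g * D * g⁻¹) hxU hgD (g * k⁻¹)
    (by rw [hDdef]; group)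
  -- determinant fix
  have hUdet : (U : Matrix (Fin 3) (Fin 3) F).det ^ (p + 1) = 1 :=
    Cfsg.Agent.S0278.det_norm hF 3 (U : Matrix (Fin 3) (Fin 3) F)
      ((Cfsg.Agent.S0277.mem_GU 3 p U).1 hU)
  have hUdet0 : (U : Matrix (Fin 3) (Fin 3) F).det ≠ 0 := by
    intro h0
    rw [h0, zero_pow (Nat.succ_ne_zero p)] at hUdet
    exact zero_ne_one hUdet
  obtain ⟨δ, hδ⟩ : ∃ δ : F, δ = (U : Matrix (Fin 3) (Fin 3) F).det := ⟨_, rfl⟩
  rw [← hδ] at hUdet hUdet0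
  have hEdet : (Matrix.diagonal ![δ, 1, 1] : Matrix (Fin 3) (Fin 3) F).det ≠ 0 := by
    rw [Matrix.det_diagonal, Fin.prod_univ_three]
    simpa using hUdet0
  obtain ⟨E, hE⟩ : ∃ E : GL (Fin 3) F,
      (E : Matrix (Fin 3) (Fin 3) F) = Matrix.diagonal ![δ, 1, 1] :=
    ⟨Matrix.GeneralLinearGroup.mkOfDetNeZero _ hEdet, rfl⟩
  have hEU : E ∈ Cfsg.GU 3 F p := by
    refine diag_mem_GU p E _ hE ?_
    intro i
    fin_cases i
    · show δ ^ (p + 1) = 1
      exact hUdet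
    · show (1 : F) ^ (p + 1) = 1
      exact one_pow _
    · show (1 : F) ^ (p + 1) = 1
      exact one_pow _
  have hcomm : E * D = D * E := by
    apply Units.ext
    rw [Units.val_mul, Units.val_mul, hE, hD, Matrix.diagonal_mul_diagonal,
      Matrix.diagonal_mul_diagonal]
    congr 1
    ext i
    exact mul_comm _ _
  have hdetE : Matrix.GeneralLinearGroup.det E = Matrix.GeneralLinearGroup.det U := by
    apply Units.ext
    show (E : Matrix (Fin 3) (Fin 3) F).det = (U : Matrix (Fin 3) (Fin 3) F).det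
    rw [hE, Matrix.det_diagonal, Fin.prod_univ_three, ← hδ]
    simp
  obtain ⟨h, hh⟩ : ∃ h : GL (Fin 3) F, h = U⁻¹ * (g * E * g⁻¹) := ⟨_, rfl⟩
  have hhU : h ∈ Cfsg.GU 3 F p := by
    rw [hh]
    exact Subgroup.mul_mem _ (Subgroup.inv_mem _ hU)
      (Subgroup.mul_mem _ (Subgroup.mul_mem _ hg hEU) (Subgroup.inv_mem _ hg))
  have hhS : h ∈ Cfsg.Geo.specialLinear (Fin 3) F := by
    refine MonoidHom.mem_ker.2 ?_
    have aux : ∀ a b : Fˣ, a⁻¹ * (b * a * b⁻¹) = 1 := by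
      intro a b
      rw [mul_comm b a, mul_inv_cancel_right, inv_mul_cancel]
    rw [hh, map_mul, map_inv, map_mul, map_mul, map_inv, hdetE]
    exact aux _ _
  refine ⟨h, D, d, Subgroup.mem_inf.2 ⟨hhU, hhS⟩, hD, h01, h12, ?_⟩
  have e1 : h⁻¹ * x * h = (g * E * g⁻¹)⁻¹ * (U * x * U⁻¹) * (g * E * g⁻¹) := by
    rw [hh]; group
  have e2 : (g * E * g⁻¹)⁻¹ * (g * D * g⁻¹) * (g * E * g⁻¹) = g * (E⁻¹ * (D * E)) * g⁻¹ := by
    group
  rw [e1, hUx, e2, ← hcomm, inv_mul_cancel_left]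

end Cfsg.Agent.Helper12.U3D
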