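import Mathlib

/-!
# p-groups acting transitively on the nonzero vectors of a finite vector space: generalities
-/

set_option autoImplicit false

namespace Cfsg.Agent.Helper12.VT

/-! ### Number theory -/

theorem pow_odd_modEq {x m : ℕ} (h : x ^ 2 ≡ 1 [MOD m]) (k : ℕ) :
    x ^ (2 * k + 1) ≡ x [MOD m] := by
  have h1 : x ^ (2 * k) ≡ 1 [MOD m] := by
    rw [pow_mul]
    simpa using h.pow k
  have h2 := h1.mul_right x
  rw [one_mul] at h2
  rw [pow_succ]; exact h2

theorem two_pow_aux (i n : ℕ) (hlt : i < n) (h4 : 2 ^ n ≡ 2 ^ i [MOD 2 ^ (i + 1)]) : False := by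
  have h5 : 2 ^ (i + 1) ∣ 2 ^ n := Nat.pow_dvd_pow 2 (by omega)
  have h6 : 2 ^ n ≡ 0 [MOD 2 ^ (i + 1)] := (Nat.modEq_zero_iff_dvd).mpr h5
  have h7 : 2 ^ (i + 1) ∣ 2 ^ i := (Nat.modEq_zero_iff_dvd).mp (h4.symm.trans h6)
  have h8 := Nat.le_of_dvd (by positivity) h7
  have : 2 ^ i < 2 ^ (i + 1) := Nat.pow_lt_pow_right (by norm_num) (by omega)
  omega

theorem mersenne_like (p e n : ℕ) (hp3 : 3 ≤ p) (hpodd : Odd p) (he : Odd e) (he3 : 3 ≤ e)
    (h : 2 ^ n = p ^ e + 1) : False := by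
  have hdvd : p + 1 ∣ 2 ^ n := by
    rw [h]; simpa using Odd.nat_add_dvd_pow_add_pow p 1 he
  obtain ⟨i, -, hi⟩ := (Nat.dvd_prime_pow Nat.prime_two).mp hdvd
  obtain ⟨k, hk⟩ := hpodd
  have hx2 : p ^ 2 ≡ 1 [MOD 2 ^ (i + 1)] := by
    have h2 : 2 ^ i = 2 * k + 2 := by rw [← hi, hk]
    have : p ^ 2 = 1 + 2 ^ (i + 1) * k := by
      rw [pow_succ 2 i, h2, hk]; ring
    show _ % _ = _ % _
    rw [this, Nat.add_mul_mod_self_left]
  obtain ⟨c, hc⟩ := he
  have h3 : p ^ e ≡ p [MOD 2 ^ (i + 1)] := hc ▸ pow_odd_modEq hx2 c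
  have h4 : 2 ^ n ≡ 2 ^ i [MOD 2 ^ (i + 1)] := by rw [h, ← hi]; exact h3.add_right 1
  have hlt : i < n := by
    apply (Nat.pow_lt_pow_iff_right (by norm_num : 1 < 2)).mp
    have : p < p ^ e := by
      calc p = p ^ 1 := (pow_one p).symm
        _ < p ^ e := Nat.pow_lt_pow_right (by omega) (by omega)
    omega
  exact two_pow_aux i n hlt h4

theorem fermat_like (q d a : ℕ) (hq3 : 3 ≤ q) (hqodd : Odd q) (hd : Odd d) (hd3 : 3 ≤ d)
    (h : q ^ d = 2 ^ a + 1) : False := by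
  have hdvd : q - 1 ∣ 2 ^ a := by
    have := Nat.sub_dvd_pow_sub_pow q 1 d
    rw [one_pow, h] at this; simpa using this
  obtain ⟨i, -, hi⟩ := (Nat.dvd_prime_pow Nat.prime_two).mp hdvd
  obtain ⟨k, hk⟩ := hqodd
  have h2 : 2 ^ i = 2 * k := by rw [← hi, hk]; omega
  have hx2 : q ^ 2 ≡ 1 [MOD 2 ^ (i + 1)] := by
    have : q ^ 2 = 1 + 2 ^ (i + 1) * (k + 1) := by
      rw [pow_succ 2 i, h2, hk]; ring
    show _ % _ = _ % _
    rw [this, Nat.add_mul_mod_self_left]
  obtain ⟨c, hc⟩ := hd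
  have h3 : q ^ d ≡ q [MOD 2 ^ (i + 1)] := hc ▸ pow_odd_modEq hx2 c
  have hq' : q = 2 ^ i + 1 := by omega
  have h4 : 2 ^ a + 1 ≡ 2 ^ i + 1 [MOD 2 ^ (i + 1)] := by rw [← h, ← hq']; exact h3
  have h4' : 2 ^ a ≡ 2 ^ i [MOD 2 ^ (i + 1)] := Nat.ModEq.add_right_cancel' 1 h4
  have hlt : i < a := by
    apply (Nat.pow_lt_pow_iff_right (by norm_num : 1 < 2)).mp
    have : q < q ^ d := by
      calc q = q ^ 1 := (pow_one q).symm
        _ < q ^ d := Nat.pow_lt_pow_right (by omega) (by omega)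
    omega
  exact two_pow_aux i a hlt h4'

theorem sq_plus_one (m n : ℕ) (hm : Odd m) (hm3 : 3 ≤ m) (h : 2 ^ n = m ^ 2 + 1) : False := by
  have h8 : m ^ 2 % 8 = 1 := by
    have h2 : m % 8 = 1 ∨ m % 8 = 3 ∨ m % 8 = 5 ∨ m % 8 = 7 := by
      have := Nat.odd_iff.mp hm; omega
    rw [pow_two, Nat.mul_mod]
    rcases h2 with h2 | h2 | h2 | h2 <;> rw [h2]
  have h9 : 2 ^ n % 8 = 2 := by omega
  have hm9 : 9 ≤ m ^ 2 := by nlinarith
  rcases n with _ | _ | _ | n
  · norm_num at h9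
  · norm_num at h; omega
  · norm_num at h9
  · have : 2 ^ (n + 1 + 1 + 1) = 8 * 2 ^ n := by ring
    rw [this, Nat.mul_mod_right] at h9
    omega

theorem sq_minus_one (m a : ℕ) (hm : Odd m) (hm3 : 3 ≤ m) (h : m ^ 2 = 2 ^ a + 1) : m = 3 := by
  obtain ⟨k, rfl⟩ : ∃ k, m = k + 1 := ⟨m - 1, by omega⟩
  have h2 : 2 ^ a = k * (k + 2) := by
    have : (k + 1) ^ 2 = k * (k + 2) + 1 := by ring
    omega
  obtain ⟨i, -, hi⟩ := (Nat.dvd_prime_pow Nat.prime_two).mp (Dvd.intro _ h2.symm)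
  obtain ⟨j, -, hj⟩ := (Nat.dvd_prime_pow Nat.prime_two).mp (Dvd.intro_left _ h2.symm)
  rcases i with _ | _ | i
  · exfalso
    rw [pow_zero] at hi
    rw [hi] at hm
    exact absurd hm (by decide)
  · rw [hi]; norm_num
  · exfalso
    have e1 : 2 ^ (i + 1 + 1) = 4 * 2 ^ i := by ring
    rw [e1] at hi
    rcases j with _ | _ | j
    · rw [pow_zero] at hj; omega
    · rw [pow_one] at hj
      have : 0 < 2 ^ i := by positivity
      omega
    · have e2 : 2 ^ (j + 1 + 1) = 4 * 2 ^ j := by ring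
      rw [e2] at hj
      omega

theorem nt_main (q p d a : ℕ) (hq : q.Prime) (hp : p.Prime) (hd : 1 ≤ d) (ha : 1 ≤ a)
    (h : q ^ d = p ^ a + 1) :
    (q = 2 ∧ a = 1) ∨ (p = 2 ∧ d = 1) ∨ (p = 2 ∧ q = 3 ∧ d = 2) := by
  rcases hq.eq_two_or_odd' with rfl | hqodd
  · left
    refine ⟨rfl, ?_⟩
    have hpodd : Odd p := by
      rcases hp.eq_two_or_odd' with rfl | h'
      · exfalso
        have h1 : Even (2 ^ d) := (Nat.even_pow.mpr ⟨even_two, by omega⟩)
        have h2 : Even (2 ^ a) := (Nat.even_pow.mpr ⟨even_two, by omega⟩)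
        rw [h] at h1
        exact absurd h1 (Nat.not_even_iff_odd.mpr h2.add_one)
      · exact h'
    by_contra ha1
    have hp3 : 3 ≤ p := by
      have := hp.two_le
      rcases hpodd with ⟨k, hk⟩
      omega
    rcases Nat.even_or_odd a with hae | hao
    · obtain ⟨b, hb⟩ := hae
      have hb1 : 1 ≤ b := by omega
      refine sq_plus_one (p ^ b) d hpodd.pow ?_ ?_
      · calc 3 ≤ p := hp3
          _ = p ^ 1 := (pow_one p).symm
          _ ≤ p ^ b := Nat.pow_le_pow_right (by omega) hb1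
      · rw [h, hb, ← pow_mul, mul_two]
    · have ha3 : 3 ≤ a := by
        obtain ⟨c, hc⟩ := hao
        omega
      exact mersenne_like p a d hp3 hpodd hao ha3 h
  · right
    have hp2 : p = 2 := by
      rcases hp.eq_two_or_odd' with h' | hpodd
      · exact h'
      · exfalso
        have h1 : Odd (q ^ d) := hqodd.pow
        have h2 : Odd (p ^ a) := hpodd.pow
        rw [h] at h1
        exact absurd h1 (Nat.not_odd_iff_even.mpr h2.add_one)
    subst hp2
    have hq3 : 3 ≤ q := by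
      have := hq.two_le
      rcases hqodd with ⟨k, hk⟩
      omega
    rcases Nat.even_or_odd d with hde | hdo
    · right
      obtain ⟨e, he⟩ := hde
      have he1 : 1 ≤ e := by omega
      have hm3 : 3 ≤ q ^ e :=
        calc 3 ≤ q := hq3
          _ = q ^ 1 := (pow_one q).symm
          _ ≤ q ^ e := Nat.pow_le_pow_right (by omega) he1
      have hm := sq_minus_one (q ^ e) a hqodd.pow hm3 (by rw [← pow_mul, mul_two, ← he]; exact h)
      have hq3' : q = 3 :=
        (Nat.prime_dvd_prime_iff_eq hq Nat.prime_three).mp (hm ▸ dvd_pow_self q (by omega))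
      subst hq3'
      have he' : e = 1 :=
        Nat.pow_right_injective (by norm_num : 2 ≤ 3) (hm.trans (pow_one 3).symm)
      exact ⟨rfl, rfl, by omega⟩
    · left
      refine ⟨rfl, ?_⟩
      by_contra hd1
      have hd3 : 3 ≤ d := by
        obtain ⟨c, hc⟩ := hdo
        omega
      exact fermat_like q d a hq3 hqodd hdo hd3 h

/-! ### Group actions -/

section Act

variable {q : ℕ} {V : Type*} [AddCommGroup V] [Module (ZMod q) V]
  {G : Type*} [Group G] (ρ : G →* (V ≃ₗ[ZMod q] V))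

theorem act_mul (g h : G) (v : V) : ρ (g * h) v = ρ g (ρ h v) := by
  rw [map_mul, LinearEquiv.mul_apply]

theorem act_one (v : V) : ρ 1 v = v := by
  rw [map_one]; rfl

theorem act_inv (g : G) (v : V) : ρ g⁻¹ (ρ g v) = v := by
  rw [← act_mul, inv_mul_cancel, act_one]

theorem act_inv' (g : G) (v : V) : ρ g (ρ g⁻¹ v) = v := by
  rw [← act_mul, mul_inv_cancel, act_one]

theorem act_eq_one (hρ : Function.Injective ρ) (g : G) (h : ∀ v, ρ g v = v) : g = 1 :=
  hρ (by rw [map_one]; exact LinearEquiv.ext h)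

theorem act_ne_zero (g : G) {v : V} (hv : v ≠ 0) : ρ g v ≠ 0 :=
  (ρ g).map_ne_zero_iff.mpr hv

/-- The stabilizer of a vector. -/
def stab (v : V) : Subgroup G where
  carrier := {g | ρ g v = v}
  one_mem' := act_one ρ v
  mul_mem' := by
    intro a b ha hb
    show ρ (a * b) v = v
    rw [act_mul, show ρ b v = v from hb, show ρ a v = v from ha]
  inv_mem' := by
    intro a ha
    show ρ a⁻¹ v = v
    have h1 := act_inv ρ a v
    rw [show ρ a v = v from ha] at h1
    exact h1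

theorem mem_stab {v : V} {g : G} : g ∈ stab ρ v ↔ ρ g v = v := Iff.rfl

variable [Finite V] [Finite G]

theorem card_eq (htrans : ∀ v w : V, v ≠ 0 → w ≠ 0 → ∃ g : G, ρ g v = w) (v₀ : V)
    (hv₀ : v₀ ≠ 0) : Nat.card (stab ρ v₀) * (Nat.card V - 1) = Nat.card G := by
  letI : MulAction G V := MulAction.compHom V ρ
  have hst : MulAction.stabilizer G v₀ = stab ρ v₀ := Subgroup.ext fun g => Iff.rfl
  have horb : MulAction.orbit G v₀ = (Set.univ \ {0} : Set V) := by
    ext v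
    simp only [MulAction.mem_orbit_iff, Set.mem_diff, Set.mem_univ, Set.mem_singleton_iff,
      true_and]
    constructor
    · rintro ⟨g, rfl⟩; exact act_ne_zero ρ g hv₀
    · intro hv; exact htrans v₀ v hv₀ hv
  have h1 := MulAction.index_stabilizer G v₀
  rw [horb, Set.ncard_diff_singleton_of_mem (Set.mem_univ 0), Set.ncard_univ, hst] at h1
  rw [← h1]
  exact Subgroup.card_mul_index _

theorem caseA (p : ℕ) [hp : Fact p.Prime] (hG : IsPGroup p G) (hρ : Function.Injective ρ)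
    (htrans : ∀ v w : V, v ≠ 0 → w ≠ 0 → ∃ g : G, ρ g v = w) (hV : Nat.card V = p + 1) :
    Nat.card G = p := by
  obtain ⟨v₀, hv₀⟩ : ∃ v : V, v ≠ 0 := by
    haveI : Nontrivial V :=
      (Finite.one_lt_card_iff_nontrivial).mp (by rw [hV]; have := hp.out.two_le; omega)
    exact exists_ne 0
  have hcard := card_eq ρ htrans v₀ hv₀
  rw [hV, Nat.add_sub_cancel] at hcard
  suffices h : Nat.card (stab ρ v₀) = 1 by rw [← hcard, h, one_mul]
  letI : MulAction G V := MulAction.compHom V ρ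
  have hfix := (hG.to_subgroup (stab ρ v₀)).card_modEq_card_fixedPoints V
  have h0 : (0 : V) ∈ MulAction.fixedPoints (stab ρ v₀) V := fun g => by
    show ρ (g : G) 0 = 0
    exact map_zero _
  have hv : v₀ ∈ MulAction.fixedPoints (stab ρ v₀) V := fun g => g.2
  have h2 : 1 < Nat.card (MulAction.fixedPoints (stab ρ v₀) V) := by
    haveI : Nontrivial (MulAction.fixedPoints (stab ρ v₀) V) :=
      ⟨⟨⟨0, h0⟩, ⟨v₀, hv⟩, fun h => hv₀ (congrArg Subtype.val h).symm⟩⟩
    exact Finite.one_lt_card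
  have hle : Nat.card (MulAction.fixedPoints (stab ρ v₀) V) ≤ Nat.card V :=
    Nat.card_le_card_of_injective Subtype.val Subtype.val_injective
  have heq : Nat.card V ≤ Nat.card (MulAction.fixedPoints (stab ρ v₀) V) := by
    rw [hV] at hfix hle ⊢
    have hdvd : p ∣ p + 1 - Nat.card (MulAction.fixedPoints (stab ρ v₀) V) :=
      (Nat.modEq_iff_dvd' hle).mp hfix.symm
    have hlt : p + 1 - Nat.card (MulAction.fixedPoints (stab ρ v₀) V) < p := by omega
    have := Nat.eq_zero_of_dvd_of_lt hdvd hlt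
    omega
  have hbij : Function.Bijective
      (Subtype.val : MulAction.fixedPoints (stab ρ v₀) V → V) :=
    Function.Injective.bijective_of_nat_card_le Subtype.val_injective heq
  have key : ∀ g : stab ρ v₀, (g : G) = 1 := by
    intro g
    apply act_eq_one ρ hρ
    intro v
    obtain ⟨⟨v', hv'⟩, rfl⟩ := hbij.2 v
    exact hv' g
  rw [Nat.card_eq_one_iff_unique]
  exact ⟨⟨fun g h => Subtype.ext ((key g).trans (key h).symm)⟩, ⟨1⟩⟩

theorem caseB [hq : Fact q.Prime] (hρ : Function.Injective ρ)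
    (htrans : ∀ v w : V, v ≠ 0 → w ≠ 0 → ∃ g : G, ρ g v = w) (hV : Nat.card V = q) :
    Nat.card G = q - 1 ∧ IsCyclic G := by
  obtain ⟨v₀, hv₀⟩ : ∃ v : V, v ≠ 0 := by
    haveI : Nontrivial V :=
      (Finite.one_lt_card_iff_nontrivial).mp (by rw [hV]; exact hq.out.one_lt)
    exact exists_ne 0
  have hspan : ∀ v : V, ∃ c : ZMod q, c • v₀ = v := by
    have hbij : Function.Bijective (fun c : ZMod q => c • v₀) :=
      Function.Injective.bijective_of_nat_card_le (smul_left_injective (ZMod q) hv₀)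
        (by rw [hV, Nat.card_zmod])
    exact hbij.2
  have hdet : ∀ g h : G, ρ g v₀ = ρ h v₀ → g = h := by
    intro g h hgh
    apply hρ
    apply LinearEquiv.ext
    intro v
    obtain ⟨c, rfl⟩ := hspan v
    rw [map_smul, map_smul, hgh]
  have hstab : Nat.card (stab ρ v₀) = 1 := by
    rw [Nat.card_eq_one_iff_unique]
    exact ⟨⟨fun g h => Subtype.ext (hdet _ _ (g.2.trans h.2.symm))⟩, ⟨1⟩⟩
  have hcard := card_eq ρ htrans v₀ hv₀
  rw [hstab, one_mul, hV] at hcard
  refine ⟨hcard.symm, ?_⟩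
  have hex : ∀ g : G, ∃ c : ZMod q, c • v₀ = ρ g v₀ := fun g => hspan _
  choose f hf using hex
  have hinj0 : ∀ c c' : ZMod q, c • v₀ = c' • v₀ → c = c' :=
    fun c c' h => smul_left_injective (ZMod q) hv₀ h
  let F : G →* ZMod q :=
    { toFun := f
      map_one' := hinj0 _ _ (by rw [hf, act_one, one_smul])
      map_mul' := fun g h => hinj0 _ _ (by
        rw [hf, act_mul, ← hf h, map_smul, ← hf g, smul_smul, mul_comm]) }
  exact isCyclic_of_injective_ringHom F
    (fun g h hgh => hdet g h (by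
      rw [← hf g, ← hf h]
      exact congrArg (· • v₀) hgh))

end Act

end Cfsg.Agent.Helper12.VT
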